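/-
Central extensions: the conjugation action of the quotient, lifting lemmas, the case of an abelian
Sylow subgroup generated by two elements one of which is inverted.
-/
import Cfsg.Agent.Lib.Helper28.Schur1
set_option autoImplicit false
open Cfsg
open scoped commutatorElement
namespace Cfsg.Agent.Lib.Helper28

/-- a surjection with central kernel -/
structure CExt {Γ G : Type*} [Group Γ] [Group G] (σ : Γ →* G) : Prop where
  surj : Function.Surjective σ
  central : σ.ker ≤ Subgroup.center Γ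

namespace CExt

variable {Γ G : Type*} [Group Γ] [Group G] {σ : Γ →* G} (h : CExt σ)
include h

theorem comm_of_mem_ker {z : Γ} (hz : z ∈ σ.ker) (x : Γ) : z * x = x * z :=
  (Subgroup.mem_center_iff.1 (h.central hz) x).symm

theorem ker_le_conj_ker : σ.ker ≤ (MulAut.conj : Γ →* MulAut Γ).ker := by
  intro z hz
  rw [MonoidHom.mem_ker]
  ext x
  rw [MulAut.conj_apply, h.comm_of_mem_ker hz, mul_inv_cancel_right]
  rfl

/-- the action of the quotient on the extension by conjugation with lifts -/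
noncomputable def act : G →* MulAut Γ := σ.liftOfSurjective h.surj ⟨MulAut.conj, h.ker_le_conj_ker⟩

theorem act_map (u a : Γ) : h.act (σ u) a = u * a * u⁻¹ := by
  have := MonoidHom.liftOfRightInverse_comp_apply σ (Function.surjInv h.surj)
    (Function.rightInverse_surjInv h.surj) ⟨MulAut.conj, h.ker_le_conj_ker⟩ u
  exact DFunLike.congr_fun this a

theorem map_act (g : G) (a : Γ) : σ (h.act g a) = g * σ a * g⁻¹ := by
  obtain ⟨u, rfl⟩ := h.surj g
  rw [act_map]; simp

theorem act_of_mem_ker (g : G) {z : Γ} (hz : z ∈ σ.ker) : h.act g z = z := by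
  obtain ⟨u, rfl⟩ := h.surj g
  rw [act_map, ← h.comm_of_mem_ker hz, mul_inv_cancel_right]

omit h in
theorem exists_ker_of_map_eq {a b : Γ} (hab : σ a = σ b) : ∃ z ∈ σ.ker, a = b * z :=
  ⟨b⁻¹ * a, by rw [MonoidHom.mem_ker, map_mul, map_inv, hab, inv_mul_cancel], by group⟩

/-- a subgroup containing the kernel and lifts of generators contains the full preimage -/
theorem comap_closure_le (H : Subgroup Γ) (hk : σ.ker ≤ H) (S : Set G) (hS : ∀ s ∈ S, ∃ a ∈ H, σ a = s) :
    (Subgroup.closure S).comap σ ≤ H := by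
  have h1 : Subgroup.closure S ≤ H.map σ := by
    rw [Subgroup.closure_le]
    intro s hs
    obtain ⟨a, ha, rfl⟩ := hS s hs
    exact ⟨a, ha, rfl⟩
  intro a ha
  obtain ⟨b, hb, hba⟩ := h1 ha
  obtain ⟨z, hz, rfl⟩ := exists_ker_of_map_eq hba.symm
  exact H.mul_mem hb (hk hz)

/-- commutators of the preimage of `P` lie in any subgroup covering `P` -/
theorem commutator_comap_le (P : Subgroup G) (P₀ : Subgroup Γ) (hP : P ≤ P₀.map σ) :
    ⁅P.comap σ, P.comap σ⁆ ≤ P₀ := by
  rw [Subgroup.commutator_le]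
  intro a ha b hb
  obtain ⟨a₀, ha₀, haa⟩ := hP ha
  obtain ⟨b₀, hb₀, hbb⟩ := hP hb
  obtain ⟨z, hz, rfl⟩ := exists_ker_of_map_eq haa.symm
  obtain ⟨w, hw, rfl⟩ := exists_ker_of_map_eq hbb.symm
  have : ⁅a₀ * z, b₀ * w⁆ = ⁅a₀, b₀⁆ := by
    rw [commutatorElement_def, commutatorElement_def]
    have hz' := h.comm_of_mem_ker hz
    have hw' := h.comm_of_mem_ker hw
    calc a₀ * z * (b₀ * w) * (a₀ * z)⁻¹ * (b₀ * w)⁻¹
        = a₀ * (z * b₀) * w * z⁻¹ * a₀⁻¹ * w⁻¹ * b₀⁻¹ := by group
      _ = a₀ * (b₀ * z) * w * z⁻¹ * a₀⁻¹ * w⁻¹ * b₀⁻¹ := by rw [hz']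
      _ = a₀ * b₀ * (z * w) * z⁻¹ * a₀⁻¹ * w⁻¹ * b₀⁻¹ := by group
      _ = a₀ * b₀ * (w * z) * z⁻¹ * a₀⁻¹ * w⁻¹ * b₀⁻¹ := by rw [hz']
      _ = a₀ * b₀ * (w * a₀⁻¹) * w⁻¹ * b₀⁻¹ := by group
      _ = a₀ * b₀ * (a₀⁻¹ * w) * w⁻¹ * b₀⁻¹ := by rw [hw']
      _ = a₀ * b₀ * a₀⁻¹ * b₀⁻¹ := by group
  rw [this]
  rw [commutatorElement_def]
  exact P₀.mul_mem (P₀.mul_mem (P₀.mul_mem ha₀ hb₀) (P₀.inv_mem ha₀)) (P₀.inv_mem hb₀)

/-- the preimage of an abelian group generated by `x, y` is abelian if some element inverts `x`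
(of order 3) and centralizes `y` -/
theorem commutator_comap_eq_bot_of_inverting (x y n : G) (hxy : x * y = y * x) (hx3 : x ^ 3 = 1)
    (hnx : n * x * n⁻¹ = x⁻¹) (hny : n * y * n⁻¹ = y) :
    ⁅(Subgroup.closure {x, y}).comap σ, (Subgroup.closure {x, y}).comap σ⁆ = ⊥ := by
  obtain ⟨a, rfl⟩ := h.surj x
  obtain ⟨b, rfl⟩ := h.surj y
  obtain ⟨c, hc⟩ : ∃ c, c = h.act (σ a) b * b⁻¹ := ⟨_, rfl⟩
  have hck : c ∈ σ.ker := by
    rw [MonoidHom.mem_ker, hc, map_mul, map_act, map_inv, hxy]; group
  have hAb : h.act (σ a) b = c * b := by rw [hc]; group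
  have hAc : h.act (σ a) c = c := h.act_of_mem_ker _ hck
  have hc3 : c ^ 3 = 1 := by
    have e1 : h.act (σ a) (h.act (σ a) (h.act (σ a) b)) = c * (c * (c * b)) := by
      simp only [hAb, map_mul, hAc]
    have e2 : h.act (σ a) (h.act (σ a) (h.act (σ a) b)) = b := by
      have : h.act (σ a) (h.act (σ a) (h.act (σ a) b)) = (h.act (σ a) ^ 3) b := rfl
      rw [this, ← map_pow, hx3, map_one]; rfl
    rw [e2] at e1
    have e3 : c ^ 3 * b = b := by
      have e4 : c ^ 3 * b = c * (c * (c * b)) := by simp only [pow_succ, pow_zero, one_mul, mul_assoc]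
      rw [e4, ← e1]
    exact mul_eq_right.1 e3
  have hNc : h.act n c = c := h.act_of_mem_ker n hck
  obtain ⟨w, hw, hwb⟩ := exists_ker_of_map_eq (a := h.act n b) (b := b) (by rw [map_act, hny])
  have hAi : (h.act (σ a))⁻¹ b = c⁻¹ * b := by
    rw [MulAut.inv_apply, MulEquiv.symm_apply_eq, map_mul, map_inv, hAc, hAb]; group
  have hAiw : (h.act (σ a))⁻¹ w = w := by
    rw [MulAut.inv_apply, MulEquiv.symm_apply_eq, h.act_of_mem_ker _ hw]
  have hrel : h.act n * h.act (σ a) = (h.act (σ a))⁻¹ * h.act n := by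
    rw [← map_inv, ← map_mul, ← map_mul, ← hnx]; congr 1; group
  have hc2 : c⁻¹ = c := by
    have e1 : (h.act n * h.act (σ a)) b = c * (b * w) := by
      rw [MulAut.mul_apply, hAb, map_mul, hNc, hwb]
    have e2 : ((h.act (σ a))⁻¹ * h.act n) b = c⁻¹ * b * w := by
      rw [MulAut.mul_apply, hwb, map_mul, hAi, hAiw]
    rw [hrel, e2] at e1
    have e3 : c⁻¹ * (b * w) = c * (b * w) := by rw [← e1]; group
    exact mul_right_cancel e3
  have hc1 : c = 1 := by
    have e1 : c * c = 1 := by
      nth_rewrite 1 [← hc2]; group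
    have e2 : c ^ 3 = c * c * c := by simp only [pow_succ, pow_zero, one_mul]
    rw [e2, e1, one_mul] at hc3
    exact hc3
  have hab : a * b = b * a := by
    have : a * b * a⁻¹ = b := by rw [← act_map h, hAb, hc1, one_mul]
    calc a * b = (a * b * a⁻¹) * a := by group
      _ = b * a := by rw [this]
  -- all of the preimage commutes with a and b
  have hle1 : (Subgroup.closure {σ a, σ b}).comap σ ≤ Subgroup.centralizer {a, b} := by
    apply h.comap_closure_le
    · exact h.central.trans (Subgroup.center_le_centralizer _)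
    · intro s hs
      rcases hs with rfl | rfl
      · refine ⟨a, ?_, rfl⟩
        rw [Subgroup.mem_centralizer_iff]
        rintro g (rfl | rfl)
        · rfl
        · exact hab.symm
      · refine ⟨b, ?_, rfl⟩
        rw [Subgroup.mem_centralizer_iff]
        rintro g (rfl | rfl)
        · exact hab
        · rfl
  have hle2 : (Subgroup.closure {σ a, σ b}).comap σ ≤
      Subgroup.centralizer ((Subgroup.closure {σ a, σ b}).comap σ : Set Γ) := by
    apply h.comap_closure_le
    · exact h.central.trans (Subgroup.center_le_centralizer _)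
    · intro s hs
      rcases hs with rfl | rfl
      · refine ⟨a, ?_, rfl⟩
        rw [Subgroup.mem_centralizer_iff]
        intro g hg
        exact (Subgroup.mem_centralizer_iff.1 (hle1 hg) a (by simp)).symm
      · refine ⟨b, ?_, rfl⟩
        rw [Subgroup.mem_centralizer_iff]
        intro g hg
        exact (Subgroup.mem_centralizer_iff.1 (hle1 hg) b (by simp)).symm
  rw [Subgroup.commutator_eq_bot_iff_le_centralizer]
  exact hle2

end CExt

/-- the order of the group generated by two commuting elements of order three -/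
theorem card_closure_pair_three {G : Type*} [Group G] [Finite G] (x y : G) (hxy : x * y = y * x)
    (hx3 : x ^ 3 = 1) (hy3 : y ^ 3 = 1) (hx1 : x ≠ 1) (hy : y ∉ Subgroup.zpowers x)
    (hG : ¬ 27 ∣ Nat.card G) : Nat.card (Subgroup.closure {x, y}) = 9 := by
  have : Fact (Nat.Prime 3) := ⟨by norm_num⟩
  set H := Subgroup.closure {x, y} with hH
  have hcomm : H ≤ Subgroup.centralizer (H : Set G) := by
    have h1 : H ≤ Subgroup.centralizer {x, y} := by
      rw [hH, Subgroup.closure_le]
      rintro g (rfl | rfl)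
      · rw [SetLike.mem_coe, Subgroup.mem_centralizer_iff]
        rintro k (rfl | rfl)
        · rfl
        · exact hxy.symm
      · rw [SetLike.mem_coe, Subgroup.mem_centralizer_iff]
        rintro k (rfl | rfl)
        · exact hxy
        · rfl
    conv_lhs => rw [hH]
    rw [Subgroup.closure_le]
    rintro g hg
    rw [SetLike.mem_coe, Subgroup.mem_centralizer_iff]
    intro k hk
    exact (Subgroup.mem_centralizer_iff.1 (h1 hk) g hg).symm
  have hexp : ∀ g ∈ H, g ^ 3 = 1 := by
    intro g hg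
    induction hg using Subgroup.closure_induction with
    | mem g hg =>
      rcases hg with rfl | rfl
      · exact hx3
      · exact hy3
    | one => simp
    | mul a b ha hb iha ihb =>
      have hc : Commute a b := (Subgroup.mem_centralizer_iff.1 (hcomm hb) a ha)
      rw [hc.mul_pow, iha, ihb, one_mul]
    | inv a _ iha => rw [inv_pow, iha, inv_one]
  have hpg : IsPGroup 3 H := by
    rintro ⟨g, hg⟩
    exact ⟨1, by ext1; simpa using hexp g hg⟩
  obtain ⟨k, hk⟩ := IsPGroup.iff_card.1 hpg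
  have hdvd : 3 ^ k ∣ Nat.card G := hk ▸ Subgroup.card_subgroup_dvd_card H
  have hk2 : k ≤ 2 := by
    by_contra hcon
    exact hG ((pow_dvd_pow 3 (show 3 ≤ k by omega)).trans hdvd)
  have hox : orderOf x = 3 := orderOf_eq_prime hx3 hx1
  have hlt : Subgroup.zpowers x < H := by
    refine lt_of_le_of_ne ?_ ?_
    · rw [Subgroup.zpowers_le]; exact Subgroup.subset_closure (by simp)
    · intro he
      apply hy
      rw [he]; exact Subgroup.subset_closure (by simp)
  have hc3 : Nat.card (Subgroup.zpowers x) = 3 := by rw [Nat.card_zpowers, hox]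
  have hlt' : 3 < 3 ^ k := by
    rw [← hk, ← hc3]
    exact Set.ncard_lt_ncard (SetLike.coe_ssubset_coe.2 hlt) (Set.toFinite _)
  have : k = 2 := by
    interval_cases k <;> omega
  rw [hk, this]; norm_num

end Cfsg.Agent.Lib.Helper28
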