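/-
Central extensions with kernel of order two: a Sylow 2-subgroup of shape `E : D8` with `E` elementary abelian.
-/
import Cfsg.Agent.Lib.Helper28.Schur2
import Cfsg.Agent.Lib.Helper28.Packed
set_option autoImplicit false
open Cfsg
open scoped commutatorElement
namespace Cfsg.Agent.Lib.Helper28

namespace CExt

variable {Γ G : Type*} [Group Γ] [Group G] {σ : Γ →* G} (h : CExt σ)

omit h in
theorem exists_two (hcard : Nat.card σ.ker = 2) :
    ∃ z ∈ σ.ker, z ≠ 1 ∧ z * z = 1 ∧ ∀ x ∈ σ.ker, x = 1 ∨ x = z := by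
  classical
  have hfin : Finite σ.ker := Nat.finite_of_card_ne_zero (by rw [hcard]; norm_num)
  have hnt : Nontrivial σ.ker := by
    rw [← Finite.one_lt_card_iff_nontrivial, hcard]; norm_num
  obtain ⟨z, hz⟩ := exists_ne (1 : σ.ker)
  have hall : ∀ x : σ.ker, x = 1 ∨ x = z := by
    intro x
    by_contra hcon
    push Not at hcon
    have h3 : ({1, z, x} : Finset σ.ker).card = 3 := by
      rw [Finset.card_eq_three]
      exact ⟨1, z, x, hz.symm, hcon.1.symm, hcon.2.symm, rfl⟩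
    have : Fintype σ.ker := Fintype.ofFinite _
    have h4 := Finset.card_le_univ ({1, z, x} : Finset σ.ker)
    rw [h3, ← Nat.card_eq_fintype_card, hcard] at h4
    omega
  refine ⟨z, z.2, fun h => hz (Subtype.ext h), ?_, fun x hx => ?_⟩
  · rcases hall (z * z) with h1 | h1
    · exact congrArg Subtype.val h1
    · exfalso
      exact hz (mul_eq_left.1 h1)
  · rcases hall ⟨x, hx⟩ with h1 | h1
    · exact Or.inl (congrArg Subtype.val h1)
    · exact Or.inr (congrArg Subtype.val h1)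

include h

theorem sq_eq_of_map_eq (hk2 : ∀ x ∈ σ.ker, x * x = 1) {a b : Γ} (hab : σ a = σ b) : a * a = b * b := by
  obtain ⟨y, hy, rfl⟩ := exists_ker_of_map_eq hab
  calc b * y * (b * y) = b * (y * b) * y := by group
    _ = b * (b * y) * y := by rw [h.comm_of_mem_ker hy]
    _ = b * b * (y * y) := by group
    _ = b * b := by rw [hk2 y hy, mul_one]

theorem sq_eq_of_conj (hk2 : ∀ x ∈ σ.ker, x * x = 1) {a b : Γ} {c : G} (hb : σ b * σ b = 1)
    (hab : σ a = c * σ b * c⁻¹) : a * a = b * b := by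
  have h1 : σ a = σ (h.act c b) := by rw [map_act, hab]
  rw [h.sq_eq_of_map_eq hk2 h1, ← map_mul, h.act_of_mem_ker]
  rw [MonoidHom.mem_ker, map_mul, hb]

/-- if all involutions of an elementary abelian group of rank at least three are conjugate, they lift to
involutions -/
theorem sq_eq_one_of_conj (hk2 : ∀ x ∈ σ.ker, x * x = 1) (e0 e f g : G) (he0 : e0 * e0 = 1)
    (hef : e * f = f * e) (heg : e * g = g * e)
    (c1 : ∃ c, e = c * e0 * c⁻¹) (c2 : ∃ c, f = c * e0 * c⁻¹) (c3 : ∃ c, g = c * e0 * c⁻¹)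
    (c4 : ∃ c, e * f = c * e0 * c⁻¹) (c5 : ∃ c, e * g = c * e0 * c⁻¹) (c6 : ∃ c, f * g = c * e0 * c⁻¹)
    (c7 : ∃ c, e * (f * g) = c * e0 * c⁻¹) :
    ∀ a : Γ, (∃ c, σ a = c * e0 * c⁻¹) → a * a = 1 := by
  obtain ⟨a0, rfl⟩ := h.surj e0
  obtain ⟨w, hw⟩ : ∃ w, w = a0 * a0 := ⟨_, rfl⟩
  have hwk : w ∈ σ.ker := by rw [MonoidHom.mem_ker, hw, map_mul, he0]
  have hsq : ∀ a : Γ, (∃ c, σ a = c * σ a0 * c⁻¹) → a * a = w := by
    rintro a ⟨c, hc⟩
    rw [hw]; exact h.sq_eq_of_conj hk2 he0 hc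
  have hww : w * w = 1 := hk2 w hwk
  have hcomm : ∀ a b : Γ, σ a * σ b = σ b * σ a → (∃ c, σ a = c * σ a0 * c⁻¹) → (∃ c, σ b = c * σ a0 * c⁻¹) →
      (∃ c, σ a * σ b = c * σ a0 * c⁻¹) → ⁅a, b⁆ = w := by
    intro a b hab ha hb hab'
    obtain ⟨c, hc⟩ : ∃ c, c = ⁅a, b⁆ := ⟨_, rfl⟩
    have hck : c ∈ σ.ker := by
      rw [MonoidHom.mem_ker, hc, commutatorElement_def]
      simp only [map_mul, map_inv]
      rw [hab]; group
    have hci : c⁻¹ ∈ σ.ker := σ.ker.inv_mem hck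
    have e1 : c⁻¹ * ((a * a) * (b * b)) = (a * b) * (a * b) := by
      calc c⁻¹ * ((a * a) * (b * b)) = (c⁻¹ * a) * a * b * b := by group
        _ = (a * c⁻¹) * a * b * b := by rw [h.comm_of_mem_ker hci]
        _ = (a * b) * (a * b) := by rw [hc, commutatorElement_def]; group
    rw [hsq a ha, hsq b hb, hsq (a * b) (by rw [map_mul]; exact hab'), hww, mul_one] at e1
    rw [← hc]
    calc c = (c⁻¹)⁻¹ := by group
      _ = w⁻¹ := by rw [e1]
      _ = w := by rw [inv_eq_iff_mul_eq_one, hww]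
  obtain ⟨A, rfl⟩ := h.surj e
  obtain ⟨B, rfl⟩ := h.surj f
  obtain ⟨D, rfl⟩ := h.surj g
  have k1 := hcomm A B hef c1 c2 c4
  have k2 := hcomm A D heg c1 c3 c5
  have k3 := hcomm A (B * D) (by
    rw [map_mul, ← mul_assoc, hef, mul_assoc, heg, mul_assoc]) c1 (by rw [map_mul]; exact c6)
    (by rw [map_mul]; exact c7)
  have k4 : ⁅A, B * D⁆ = ⁅A, B⁆ * (B * ⁅A, D⁆ * B⁻¹) := by
    simp only [commutatorElement_def]; group
  rw [k1, k2, k3, ← h.comm_of_mem_ker hwk, mul_inv_cancel_right, hww] at k4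
  intro a ha
  rw [hsq a ha, k4]

end CExt

end Cfsg.Agent.Lib.Helper28
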