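/-
Central extensions with kernel of order two: the invariant complement in the preimage of an elementary
abelian subgroup, and the splitting over `E : D8`.
-/
import Cfsg.Agent.Lib.Helper28.Schur3
set_option autoImplicit false
open Cfsg
open scoped commutatorElement
namespace Cfsg.Agent.Lib.Helper28

namespace CExt

variable {Γ G : Type*} [Group Γ] [Group G] {σ : Γ →* G} (h : CExt σ)

omit h in
theorem comm_of_sq (E : Subgroup G) (hsq : ∀ a : Γ, σ a ∈ E → a * a = 1) {a b : Γ} (ha : σ a ∈ E) (hb : σ b ∈ E) :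
    a * b = b * a := by
  have h1 := hsq a ha
  have h2 := hsq b hb
  have h3 := hsq (a * b) (by rw [map_mul]; exact E.mul_mem ha hb)
  calc a * b = b * b * (a * b) * (a * a) := by rw [h1, h2]; group
    _ = b * (b * a * (b * a)) * a := by group
    _ = b * (a * a * (b * a * (b * a)) * (b * b)) * a := by rw [h1, h2]; group
    _ = b * (a * ((a * b) * (a * b)) * a * b * b) * a := by group
    _ = b * a := by rw [h3]; simp only [mul_one, mul_assoc, h2, h1]

/-- the norm map for the action of `r` -/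
noncomputable def nrm (r : G) (a : Γ) : Γ := a * h.act r a * h.act r (h.act r a)

theorem map_act_mem {E : Subgroup G} {d : G} (hdE : ∀ x ∈ E, d * x * d⁻¹ ∈ E) {a : Γ} (ha : σ a ∈ E) :
    σ (h.act d a) ∈ E := by
  rw [map_act]; exact hdE _ ha

theorem nrm_mul (E : Subgroup G) (r : G) (hsq : ∀ a : Γ, σ a ∈ E → a * a = 1) (hrE : ∀ x ∈ E, r * x * r⁻¹ ∈ E)
    {a b : Γ} (ha : σ a ∈ E) (hb : σ b ∈ E) : h.nrm r (a * b) = h.nrm r a * h.nrm r b := by
  unfold nrm
  simp only [map_mul]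
  have ha1 := h.map_act_mem hrE ha
  have ha2 := h.map_act_mem hrE ha1
  have hb1 := h.map_act_mem hrE hb
  have c1 := comm_of_sq E hsq hb ha1
  have c2 := comm_of_sq E hsq hb ha2
  have c3 := comm_of_sq E hsq hb1 ha2
  generalize h.act r (h.act r a) = a2 at *
  generalize h.act r (h.act r b) = b2 at *
  generalize h.act r a = a1 at *
  generalize h.act r b = b1 at *
  calc a * b * (a1 * b1) * (a2 * b2) = a * (b * a1) * (b1 * a2) * b2 := by group
    _ = a * (a1 * b) * (a2 * b1) * b2 := by rw [c1, c3]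
    _ = a * a1 * (b * a2) * b1 * b2 := by group
    _ = a * a1 * (a2 * b) * b1 * b2 := by rw [c2]
    _ = a * a1 * a2 * (b * b1 * b2) := by group

/-- the kernel of the norm map on the preimage of `E` -/
noncomputable def compl (E : Subgroup G) (r : G) (hsq : ∀ a : Γ, σ a ∈ E → a * a = 1)
    (hrE : ∀ x ∈ E, r * x * r⁻¹ ∈ E) : Subgroup Γ where
  carrier := {a | σ a ∈ E ∧ h.nrm r a = 1}
  one_mem' := ⟨by rw [map_one]; exact E.one_mem, by simp [nrm]⟩
  mul_mem' := by
    rintro a b ⟨ha, ha'⟩ ⟨hb, hb'⟩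
    exact ⟨by rw [map_mul]; exact E.mul_mem ha hb, by rw [h.nrm_mul E r hsq hrE ha hb, ha', hb', one_mul]⟩
  inv_mem' := by
    rintro a ⟨ha, ha'⟩
    have : a⁻¹ = a := inv_eq_of_mul_eq_one_left (hsq a ha)
    rw [this]; exact ⟨ha, ha'⟩

theorem mem_compl {E : Subgroup G} {r : G} {hsq : ∀ a : Γ, σ a ∈ E → a * a = 1}
    {hrE : ∀ x ∈ E, r * x * r⁻¹ ∈ E} {a : Γ} : a ∈ h.compl E r hsq hrE ↔ σ a ∈ E ∧ h.nrm r a = 1 := Iff.rfl

theorem nrm_of_mem_ker (r : G) {z : Γ} (hz : z ∈ σ.ker) : h.nrm r z = z * z * z := by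
  unfold nrm
  rw [h.act_of_mem_ker r hz, h.act_of_mem_ker r hz]

/-- the complement meets the kernel trivially -/
theorem compl_inf_ker {E : Subgroup G} {r : G} {hsq : ∀ a : Γ, σ a ∈ E → a * a = 1}
    {hrE : ∀ x ∈ E, r * x * r⁻¹ ∈ E} {a : Γ} (ha : a ∈ h.compl E r hsq hrE) (hk : a ∈ σ.ker) : a = 1 := by
  have h1 := (h.mem_compl.1 ha).2
  rw [h.nrm_of_mem_ker r hk, hsq a (h.mem_compl.1 ha).1, one_mul] at h1
  exact h1

/-- the complement covers `E` -/
theorem compl_cover {E : Subgroup G} {r : G} {hsq : ∀ a : Γ, σ a ∈ E → a * a = 1}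
    {hrE : ∀ x ∈ E, r * x * r⁻¹ ∈ E} (hN : ∀ x ∈ E, x * (r * x * r⁻¹) * (r * (r * x * r⁻¹) * r⁻¹) = 1)
    {x : G} (hx : x ∈ E) : ∃ a ∈ h.compl E r hsq hrE, σ a = x := by
  obtain ⟨a, rfl⟩ := h.surj x
  have hk : h.nrm r a ∈ σ.ker := by
    rw [MonoidHom.mem_ker]
    unfold nrm
    simp only [map_mul, map_act]
    exact hN _ hx
  have hkE : σ (h.nrm r a) ∈ E := by rw [MonoidHom.mem_ker.1 hk]; exact E.one_mem
  refine ⟨a * h.nrm r a, ⟨?_, ?_⟩, ?_⟩
  · rw [map_mul]; exact E.mul_mem hx hkE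
  · rw [h.nrm_mul E r hsq hrE hx hkE, h.nrm_of_mem_ker r hk, hsq _ hkE, one_mul, hsq _ hkE]
  · rw [map_mul, MonoidHom.mem_ker.1 hk, mul_one]

/-- the complement is invariant under elements normalizing `E` and `⟨r⟩` -/
theorem compl_invariant {E : Subgroup G} {r : G} {hsq : ∀ a : Γ, σ a ∈ E → a * a = 1}
    {hrE : ∀ x ∈ E, r * x * r⁻¹ ∈ E} (hr3 : r ^ 3 = 1) {d : G} (hdE : ∀ x ∈ E, d * x * d⁻¹ ∈ E)
    (hdr : d * r * d⁻¹ = r ∨ d * r * d⁻¹ = r⁻¹) {a : Γ} (ha : a ∈ h.compl E r hsq hrE) :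
    h.act d a ∈ h.compl E r hsq hrE := by
  obtain ⟨haE, haN⟩ := h.mem_compl.1 ha
  refine h.mem_compl.2 ⟨h.map_act_mem hdE haE, ?_⟩
  rcases hdr with hdr | hdr
  · have hrel : h.act r * h.act d = h.act d * h.act r := by
      rw [← map_mul, ← map_mul]; congr 1
      calc r * d = (d * r * d⁻¹) * d := by rw [hdr]
        _ = d * r := by group
    have e1 : ∀ b, h.act r (h.act d b) = h.act d (h.act r b) := fun b => DFunLike.congr_fun hrel b
    unfold nrm
    rw [e1, e1, ← map_mul, ← map_mul]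
    have : a * h.act r a * h.act r (h.act r a) = 1 := haN
    rw [this, map_one]
  · have hrel : h.act r * h.act d = h.act d * (h.act r * h.act r) := by
      rw [← map_mul, ← map_mul, ← map_mul]; congr 1
      have hr2 : r * r = r⁻¹ := by
        rw [eq_inv_iff_mul_eq_one, ← hr3]; simp only [pow_succ, pow_zero, one_mul]
      calc r * d = (r⁻¹)⁻¹ * d := by group
        _ = (d * r * d⁻¹)⁻¹ * d := by rw [hdr]
        _ = d * r⁻¹ := by group
        _ = d * (r * r) := by rw [hr2]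
    have e1 : ∀ b, h.act r (h.act d b) = h.act d (h.act r (h.act r b)) := fun b => DFunLike.congr_fun hrel b
    have e3 : ∀ b, h.act r (h.act r (h.act r b)) = b := by
      intro b
      have : h.act r (h.act r (h.act r b)) = (h.act r ^ 3) b := rfl
      rw [this, ← map_pow, hr3, map_one]; rfl
    unfold nrm
    rw [e1, e1, e3, ← map_mul, ← map_mul]
    have ha1 := h.map_act_mem hrE haE
    have ha2 := h.map_act_mem hrE ha1
    have : a * h.act r (h.act r a) * h.act r a = 1 := by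
      rw [mul_assoc, comm_of_sq E hsq ha2 ha1, ← mul_assoc]; exact haN
    rw [this, map_one]

omit h in
/-- one step of a chain: adjoining an element whose image avoids the image of the smaller group -/
theorem chain_step_ker (S : Set Γ) (α : Γ) (Q : Subgroup G) (h2 : α * α ∈ Subgroup.closure S)
    (h3 : ∀ x ∈ S, α⁻¹ * x * α ∈ Subgroup.closure S) (hQ : ∀ x ∈ S, σ x ∈ Q) (hα : σ α ∉ Q)
    (hS : ∀ x ∈ Subgroup.closure S, x ∈ σ.ker → x = 1) :
    ∀ x ∈ Subgroup.closure (insert α S), x ∈ σ.ker → x = 1 := by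
  intro x hx hk
  have hle : Subgroup.closure S ≤ Q.comap σ := by
    rw [Subgroup.closure_le]; exact hQ
  rcases closure_insert_two S α h2 h3 x hx with h1 | h1
  · exact hS x h1 hk
  · exfalso
    have := hle h1
    rw [Subgroup.mem_comap, map_mul, map_inv, MonoidHom.mem_ker.1 hk, mul_one] at this
    exact hα (by simpa using Q.inv_mem this)

end CExt

end Cfsg.Agent.Lib.Helper28
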