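/-
Transport of automorphism groups along isomorphisms of set systems; Aut of the octad system is M24.
-/
import Cfsg.Agent.Lib.Helper28.SteinD24
import Cfsg.Agent.Lib.Helper28.GolayStab
import Cfsg.Agent.Lib.Helper28.GolayCount

set_option autoImplicit false

namespace Cfsg.Agent.Lib.Helper28.Stein

open Finset Cfsg Cfsg.Agent.Lib.Helper28
open scoped Pointwise

section transport

variable {α β : Type*} [DecidableEq α] [DecidableEq β]

theorem permCongr_smul_image (e : α ≃ β) (g : Equiv.Perm α) (b : Finset α) :
    (e.permCongr g) • (b.image e) = (g • b).image e := by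
  ext x
  simp only [Finset.mem_smul_finset, mem_image]
  constructor
  · rintro ⟨_, ⟨y, hy, rfl⟩, rfl⟩
    exact ⟨g y, ⟨y, hy, rfl⟩, by simp [Equiv.permCongr_apply]⟩
  · rintro ⟨_, ⟨y, hy, rfl⟩, rfl⟩
    exact ⟨e y, ⟨y, hy, rfl⟩, by simp [Equiv.permCongr_apply]⟩

theorem iso_symm {e : α ≃ β} {B : Set (Finset α)} {B' : Set (Finset β)}
    (h : (fun b => b.image e) '' B = B') : (fun b => b.image e.symm) '' B' = B := by
  rw [← h, Set.image_image]
  have : (fun b : Finset α => (b.image e).image e.symm) = id := by
    funext b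
    rw [image_image]
    simp
  rw [this, Set.image_id]

theorem permCongr_mem {e : α ≃ β} {B : Set (Finset α)} {B' : Set (Finset β)}
    (h : (fun b => b.image e) '' B = B') {g : Equiv.Perm α} (hg : g ∈ setSystemAut B) :
    e.permCongr g ∈ setSystemAut B' := by
  rw [MulAction.mem_stabilizer_iff] at hg ⊢
  rw [← h]
  ext c
  constructor
  · rintro ⟨_, ⟨b, hb, rfl⟩, rfl⟩
    refine ⟨g • b, ?_, (permCongr_smul_image e g b).symm⟩
    rw [← hg]; exact Set.smul_mem_smul_set hb
  · rintro ⟨b, hb, rfl⟩
    rw [← hg] at hb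
    obtain ⟨b0, hb0, rfl⟩ := hb
    exact ⟨b0.image e, ⟨b0, hb0, rfl⟩, permCongr_smul_image e g b0⟩

/-- isomorphic set systems have isomorphic automorphism groups -/
def autCongr (e : α ≃ β) {B : Set (Finset α)} {B' : Set (Finset β)}
    (h : (fun b => b.image e) '' B = B') : setSystemAut B ≃* setSystemAut B' where
  toFun g := ⟨e.permCongr g.1, permCongr_mem h g.2⟩
  invFun g := ⟨e.symm.permCongr g.1, permCongr_mem (iso_symm h) g.2⟩
  left_inv g := by ext x; simp [Equiv.permCongr_apply]
  right_inv g := by ext x; simp [Equiv.permCongr_apply]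
  map_mul' g g' := by ext x; simp [Equiv.permCongr_apply]

theorem autCongr_apply (e : α ≃ β) {B : Set (Finset α)} {B' : Set (Finset β)}
    (h : (fun b => b.image e) '' B = B') (g : setSystemAut B) (x : α) :
    ((autCongr e h g : setSystemAut B') : Equiv.Perm β) (e x) = e ((g : Equiv.Perm α) x) := by
  simp [autCongr, Equiv.permCongr_apply]

theorem autCongr_symm_apply (e : α ≃ β) {B : Set (Finset α)} {B' : Set (Finset β)}
    (h : (fun b => b.image e) '' B = B') (g : setSystemAut B') (x : α) :
    (((autCongr e h).symm g : setSystemAut B) : Equiv.Perm α) x = e.symm ((g : Equiv.Perm β) (e x)) := by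
  simp [autCongr, Equiv.permCongr_apply]

theorem mpt_transport (e : α ≃ β) {B : Set (Finset α)} {B' : Set (Finset β)}
    (h : (fun b => b.image e) '' B = B') {n : ℕ}
    (H : MulAction.IsMultiplyPretransitive (setSystemAut B') β n) :
    MulAction.IsMultiplyPretransitive (setSystemAut B) α n := by
  constructor
  intro x y
  obtain ⟨g', hg'⟩ := H.exists_smul_eq (x.trans e.toEmbedding) (y.trans e.toEmbedding)
  refine ⟨(autCongr e h).symm g', ?_⟩
  ext i
  have h1 := congrArg (fun z : Fin n ↪ β => z i) hg'
  have h2 : (g' : Equiv.Perm β) (e (x i)) = e (y i) := h1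
  show (((autCongr e h).symm g' : setSystemAut B) : Equiv.Perm α) (x i) = y i
  rw [autCongr_symm_apply, h2, Equiv.symm_apply_apply]

end transport

theorem basis_octads : ∀ b ∈ basis, b < 2 ^ 24 ∧ isCode b = true ∧ pc 24 b = 8 := by decide +kernel

theorem aut_octads : setSystemAut octads = M24 := by
  ext g
  rw [MulAction.mem_stabilizer_iff]
  constructor
  · intro h
    apply mem_M24_of_basis
    intro b hb
    obtain ⟨h1, h2, h3⟩ := basis_octads b hb
    have hb8 : unmask b ∈ octads := by
      rw [mem_octads_iff, card_eq_pc, mask_unmask b h1]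
      exact ⟨h2, h3⟩
    have h4 : g • unmask b ∈ octads := by
      rw [← h]; exact Set.smul_mem_smul_set hb8
    have h5 := ((mem_octads_iff _).1 h4).1
    rw [mask_smul, mask_unmask b h1] at h5
    exact h5
  · intro hg
    apply Set.Subset.antisymm
    · rintro _ ⟨o, ho, rfl⟩
      exact smul_mem_octads hg ho
    · intro o ho
      exact ⟨g⁻¹ • o, smul_mem_octads (inv_mem hg) ho, by simp⟩

end Cfsg.Agent.Lib.Helper28.Stein
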