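/-
Tools for the automorphism groups of the derived designs of the octad system: duality for the length-24 code
(in terms of parities of intersections), permutations of subtypes.
-/
import Cfsg.Agent.Lib.Helper28.Stein3

set_option autoImplicit false

namespace Cfsg.Agent.Lib.Helper28.AutD

open Finset Cfsg Cfsg.Agent.Lib.Helper28
open scoped Pointwise

section general

variable {α : Type*} [DecidableEq α]

theorem mem_aut_of_forall [Finite α] {B : Set (Finset α)} {g : Equiv.Perm α} (h : ∀ b ∈ B, g • b ∈ B) :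
    g ∈ setSystemAut B := by
  rw [MulAction.mem_stabilizer_iff]
  have hfin : B.Finite := Set.toFinite _
  apply Set.eq_of_subset_of_ncard_le _ _ hfin
  · rintro _ ⟨b, hb, rfl⟩
    exact h b hb
  · have : (g • B).ncard = B.ncard := Set.ncard_image_of_injective _ (MulAction.injective g)
    rw [this]

theorem smul_mem_of_aut {B : Set (Finset α)} {g : Equiv.Perm α} (hg : g ∈ setSystemAut B) {b : Finset α}
    (hb : b ∈ B) : g • b ∈ B := by
  rw [MulAction.mem_stabilizer_iff] at hg
  rw [← hg]; exact Set.smul_mem_smul_set hb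

theorem subtype_ofSubtype_smul (p : α → Prop) [DecidablePred p] (g : Equiv.Perm (Subtype p)) (b : Finset α) :
    Finset.subtype p ((Equiv.Perm.ofSubtype g) • b) = g • Finset.subtype p b := by
  ext x
  rw [Finset.mem_subtype, ← Finset.inv_smul_mem_iff, ← Finset.inv_smul_mem_iff, Finset.mem_subtype,
    ← map_inv]
  show (Equiv.Perm.ofSubtype g⁻¹) (x : α) ∈ b ↔ ((g⁻¹ x : Subtype p) : α) ∈ b
  rw [Equiv.Perm.ofSubtype_apply_coe]

theorem eq_of_subtype_ne {p0 : α} {b b' : Finset α}
    (h : Finset.subtype (fun a => a ≠ p0) b = Finset.subtype (fun a => a ≠ p0) b') (h0 : p0 ∈ b ↔ p0 ∈ b') :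
    b = b' := by
  ext x
  by_cases hx : x = p0
  · rw [hx]; exact h0
  · have := congrArg (fun s => (⟨x, hx⟩ : {a // a ≠ p0}) ∈ s) h
    simpa [Finset.mem_subtype] using this

theorem mem_smul_iff_of_fixed {g : Equiv.Perm α} {x : α} (hx : g x = x) (b : Finset α) :
    x ∈ g • b ↔ x ∈ b := by
  rw [← Finset.inv_smul_mem_iff]
  have : g⁻¹ • x = x := by
    show g⁻¹ x = x
    rw [Equiv.Perm.inv_eq_iff_eq]; exact hx.symm
  rw [this]

theorem card_smul_inter (g : Equiv.Perm α) (s t : Finset α) : (g • s ∩ t).card = (s ∩ g⁻¹ • t).card := by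
  have : g • s ∩ t = g • (s ∩ g⁻¹ • t) := by
    rw [Finset.smul_finset_inter, smul_inv_smul]
  rw [this, Finset.card_smul_finset]

theorem even_inter_symmDiff (X Y P : Finset α) :
    (Even (X ∩ symmDiff Y P).card ↔ (Even (X ∩ Y).card ↔ Even (X ∩ P).card)) := by
  have h1 : X ∩ symmDiff Y P = symmDiff (X ∩ Y) (X ∩ P) := by
    ext x
    simp only [Finset.mem_inter, Finset.mem_symmDiff]
    tauto
  have h2 : (symmDiff (X ∩ Y) (X ∩ P)).card + 2 * ((X ∩ Y) ∩ (X ∩ P)).card = (X ∩ Y).card + (X ∩ P).card := by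
    have h1 : (symmDiff (X ∩ Y) (X ∩ P)).card = ((X ∩ Y) \ (X ∩ P)).card + ((X ∩ P) \ (X ∩ Y)).card := by
      rw [symmDiff_def, Finset.sup_eq_union, Finset.card_union_of_disjoint]
      exact Finset.disjoint_left.2 (fun x hx hx' => (Finset.mem_sdiff.1 hx).2 (Finset.mem_sdiff.1 hx').1)
    have h2 := Finset.card_sdiff_add_card_inter (X ∩ Y) (X ∩ P)
    have h3 := Finset.card_sdiff_add_card_inter (X ∩ P) (X ∩ Y)
    rw [Finset.inter_comm (X ∩ P) (X ∩ Y)] at h3
    omega
  rw [h1]
  simp only [Nat.even_iff]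
  omega

end general

/-! ### duality -/

theorem even_inter_code {s t : Finset GolayPt} (hs : isCode (mask s) = true) (ht : isCode (mask t) = true) :
    Even (s ∩ t).card := by
  have hc : isCode (mask (symmDiff s t)) = true := by
    rw [mask_symmDiff]; exact isCode_xor _ _ hs ht
  have h1 := code_weight (mask_lt _) hc
  have h2 := code_weight (mask_lt _) hs
  have h3 := code_weight (mask_lt _) ht
  rw [← card_eq_pc] at h1 h2 h3
  have := card_symmDiff_add s t
  rw [Nat.even_iff]
  omega

theorem even_inter_octads {s t : Finset GolayPt} (hs : s ∈ octads) (ht : t ∈ octads) :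
    Even (s ∩ t).card :=
  even_inter_code ((mem_octads_iff _).1 hs).1 ((mem_octads_iff _).1 ht).1

/-- every set is congruent modulo the code to a subset of the first twelve points -/
theorem exists_reduce (s : Finset GolayPt) :
    ∃ c : Finset GolayPt, isCode (mask c) = true ∧ mask (symmDiff s c) < 4096 := by
  have hj : mask s >>> 12 < 4096 := by
    rw [Nat.shiftRight_eq_div_pow]
    have := mask_lt s
    omega
  have hlt := enc_lt _ hj
  refine ⟨unmask (enc (mask s >>> 12)), ?_, ?_⟩
  · rw [mask_unmask _ hlt]; exact isCode_enc _ hj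
  · rw [mask_symmDiff, mask_unmask _ hlt]
    have h1 : (mask s ^^^ enc (mask s >>> 12)) >>> 12 = 0 := by
      rw [Nat.shiftRight_xor_distrib, enc_shiftRight _ hj, Nat.xor_self]
    rw [Nat.shiftRight_eq_div_pow] at h1
    have := (Nat.div_eq_zero_iff).1 h1
    omega

/-- twelve octads through the point `none` (bit 23) spanning the code -/
def L12 : List ℕ := [8391797, 8394986, 8398155, 8407702, 8421811, 8455014, 8521420, 8654232, 8919856, 9440193,
  10486557, 12584506]

/-- eleven octads through the points with bits 23 and 22 -/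
def L11 : List ℕ := [12584506, 12587685, 12594948, 12599513, 12624578, 12650793, 12717187, 12849992, 13108704,
  13631886, 14682450]

theorem L12_spec : ∀ b ∈ L12, b < 2 ^ 24 ∧ isCode b = true ∧ pc 24 b = 8 ∧ b.testBit 23 = true := by
  decide +kernel

theorem L11_spec : ∀ b ∈ L11, b < 2 ^ 24 ∧ isCode b = true ∧ pc 24 b = 8 ∧ b.testBit 23 = true ∧
    b.testBit 22 = true := by
  decide +kernel

def evenAll (L : List ℕ) (t : ℕ) : Bool := L.all (fun b => Nat.beq (Nat.land (pcF (Nat.land t b)) 1) 0)

theorem check12 : allBelow (fun t => cond (evenAll L12 t) (Nat.beq t 0) true) 4096 = true := by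
  decide +kernel

theorem check11 : allBelow (fun t => cond (evenAll L11 t) (Nat.beq t 0 || Nat.beq t 1594) true) 4096 = true := by
  decide +kernel

theorem evenAll_of {L : List ℕ} (hL : ∀ b ∈ L, b < 2 ^ 24) {t : Finset GolayPt}
    (h : ∀ b ∈ L, Even (t ∩ unmask b).card) : evenAll L (mask t) = true := by
  rw [evenAll, List.all_eq_true]
  intro b hb
  have h1 := h b hb
  rw [card_eq_pc, mask_inter, mask_unmask b (hL b hb)] at h1
  have h2 : mask t &&& b < 2 ^ 24 := and_lt_left _ (mask_lt t)
  rw [← pcF_eq h2] at h1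
  have h3 : Nat.land (pcF (Nat.land (mask t) b)) 1 = 0 := by
    show pcF (mask t &&& b) &&& 1 = 0
    rw [Nat.and_one_is_mod]
    exact Nat.even_iff.1 h1
  rw [h3]; rfl

theorem even_reduce {L : List ℕ} (hL : ∀ b ∈ L, b < 2 ^ 24 ∧ isCode b = true) {s c : Finset GolayPt}
    (hc : isCode (mask c) = true) (h : ∀ b ∈ L, Even (s ∩ unmask b).card) :
    ∀ b ∈ L, Even (symmDiff s c ∩ unmask b).card := by
  intro b hb
  rw [Finset.inter_comm, even_inter_symmDiff, Finset.inter_comm, Finset.inter_comm _ c]
  have h2 : Even (c ∩ unmask b).card := even_inter_code hc (by rw [mask_unmask b (hL b hb).1]; exact (hL b hb).2)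
  exact ⟨fun _ => h2, fun _ => h b hb⟩

/-- a set meeting evenly all octads through `none` is (the support of) a codeword -/
theorem dual23 {s : Finset GolayPt} (h : ∀ o ∈ octads, none ∈ o → Even (s ∩ o).card) :
    isCode (mask s) = true := by
  obtain ⟨c, hc, hlt⟩ := exists_reduce s
  have h1 : ∀ b ∈ L12, Even (s ∩ unmask b).card := by
    intro b hb
    obtain ⟨h1, h2, h3, h4⟩ := L12_spec b hb
    apply h _ (unmask_mem_octads h1 h2 h3)
    rw [mem_unmask]; exact h4
  have h2 := even_reduce (fun b hb => ⟨(L12_spec b hb).1, (L12_spec b hb).2.1⟩) hc h1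
  have h3 := evenAll_of (fun b hb => (L12_spec b hb).1) h2
  have h4 := allBelow_spec check12 _ hlt
  simp only [h3, cond_true] at h4
  have h5 : mask (symmDiff s c) = 0 := Nat.eq_of_beq_eq_true h4
  rw [← mask_empty] at h5
  have h6 := mask_injective h5
  have h7 : s = c := symmDiff_eq_bot.1 h6
  rw [h7]; exact hc

/-- a set meeting evenly all octads through `none` and `pt 22` is a codeword, or a codeword plus these two points -/
theorem dual22 {s : Finset GolayPt} (h : ∀ o ∈ octads, none ∈ o → pt 22 ∈ o → Even (s ∩ o).card) :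
    isCode (mask s) = true ∨ isCode (mask (symmDiff s {none, pt 22})) = true := by
  obtain ⟨c, hc, hlt⟩ := exists_reduce s
  have h1 : ∀ b ∈ L11, Even (s ∩ unmask b).card := by
    intro b hb
    obtain ⟨h1, h2, h3, h4, h5⟩ := L11_spec b hb
    apply h _ (unmask_mem_octads h1 h2 h3)
    · rw [mem_unmask]; exact h4
    · rw [mem_unmask]; exact h5
  have h2 := even_reduce (fun b hb => ⟨(L11_spec b hb).1, (L11_spec b hb).2.1⟩) hc h1
  have h3 := evenAll_of (fun b hb => (L11_spec b hb).1) h2
  have h4 := allBelow_spec check11 _ hlt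
  simp only [h3, cond_true, Bool.or_eq_true] at h4
  rcases h4 with h4 | h4
  · left
    have h5 : mask (symmDiff s c) = 0 := Nat.eq_of_beq_eq_true h4
    rw [← mask_empty] at h5
    have h6 := mask_injective h5
    have h7 : s = c := symmDiff_eq_bot.1 h6
    rw [h7]; exact hc
  · right
    have h5 : mask (symmDiff s c) = 1594 := Nat.eq_of_beq_eq_true h4
    have h6 : mask ({none, pt 22} : Finset GolayPt) = 12582912 := by decide +kernel
    rw [mask_symmDiff] at h5 ⊢
    rw [h6]
    have h7 : mask s = 1594 ^^^ mask c := by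
      rw [← h5, Nat.xor_assoc, Nat.xor_self, Nat.xor_zero]
    rw [h7]
    have h8 : 1594 ^^^ mask c ^^^ 12582912 = (1594 ^^^ 12582912) ^^^ mask c := by
      rw [Nat.xor_assoc, Nat.xor_comm (mask c), Nat.xor_assoc]
    rw [h8]
    exact isCode_xor _ _ (by decide +kernel) hc

end Cfsg.Agent.Lib.Helper28.AutD
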