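/-
The automorphism group of the derived design of the octad system at the point `none` is the point stabiliser.
-/
import Cfsg.Agent.Lib.Helper28.AutD1
import Cfsg.Agent.S0351
import Cfsg.Agent.S0377
import Cfsg.Prelude.Def_Sporadic

set_option autoImplicit false

namespace Cfsg.Agent.Lib.Helper28.AutD

open Finset Cfsg Cfsg.Agent.Lib.Helper28
open scoped Pointwise

abbrev S23 : Type := {a : GolayPt // a ≠ none}

def D23 : Set (Finset S23) :=
  {b' | ∃ b ∈ octads, none ∈ b ∧ b' = Finset.subtype (fun a => a ≠ none) b}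

theorem D23_steiner : IsSteinerSystem 4 7 D23 := Cfsg.Agent.S0351.result octads_steiner none

theorem card_S23 : Fintype.card S23 = 23 := by
  rw [Fintype.card_subtype_compl]
  simp

theorem ofSubtype_none (h : Equiv.Perm S23) : Equiv.Perm.ofSubtype h none = none :=
  Equiv.Perm.ofSubtype_apply_of_not_mem h (by simp)

theorem smul_octad_none {h : Equiv.Perm S23} (hh : h ∈ setSystemAut D23) {o : Finset GolayPt}
    (ho : o ∈ octads) (h0 : none ∈ o) :
    Equiv.Perm.ofSubtype h • o ∈ octads ∧ none ∈ Equiv.Perm.ofSubtype h • o := by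
  have h1 : Finset.subtype (fun a => a ≠ none) o ∈ D23 := ⟨o, ho, h0, rfl⟩
  obtain ⟨o2, ho2, h02, h2⟩ := smul_mem_of_aut hh h1
  rw [← subtype_ofSubtype_smul] at h2
  have h3 : none ∈ Equiv.Perm.ofSubtype h • o := (mem_smul_iff_of_fixed (ofSubtype_none h) o).2 h0
  have h4 := eq_of_subtype_ne h2 ⟨fun _ => h02, fun _ => h3⟩
  rw [h4]; exact ⟨ho2, h02⟩

theorem ofSubtype_mem_M24 {h : Equiv.Perm S23} (hh : h ∈ setSystemAut D23) :
    Equiv.Perm.ofSubtype h ∈ M24 := by
  rw [← Stein.aut_octads]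
  apply mem_aut_of_forall
  intro o ho
  by_cases h0 : none ∈ o
  · exact (smul_octad_none hh ho h0).1
  · rw [mem_octads_iff]
    refine ⟨dual23 ?_, by rw [Finset.card_smul_finset]; exact ((mem_octads_iff _).1 ho).2⟩
    intro o1 ho1 h01
    rw [card_smul_inter, ← map_inv]
    exact even_inter_octads ho (smul_octad_none (inv_mem hh) ho1 h01).1

/-- the stabiliser of `none` in `M24`, as a group of permutations -/
def K23 : Subgroup (Equiv.Perm GolayPt) := M24 ⊓ MulAction.stabilizer (Equiv.Perm GolayPt) (none : GolayPt)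

theorem mem_K23 {g : Equiv.Perm GolayPt} : g ∈ K23 ↔ g ∈ M24 ∧ g none = none := by
  rw [K23, Subgroup.mem_inf, MulAction.mem_stabilizer_iff]; rfl

theorem exists_of_mem_K23 {g : Equiv.Perm GolayPt} (hg : g ∈ K23) :
    ∃ h ∈ setSystemAut D23, Equiv.Perm.ofSubtype h = g := by
  obtain ⟨hg1, hg2⟩ := mem_K23.1 hg
  have hp : ∀ x, (g x ≠ none) ↔ (x ≠ none) := by
    intro x
    constructor
    · intro hx h; apply hx; rw [h, hg2]
    · intro hx h; apply hx; apply g.injective; rw [h, hg2]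
  have hof : Equiv.Perm.ofSubtype (g.subtypePerm (p := fun a => a ≠ none) hp) = g := by
    apply Equiv.Perm.ofSubtype_subtypePerm
    intro x hx h
    apply hx; rw [h, hg2]
  refine ⟨g.subtypePerm (p := fun a => a ≠ none) hp, ?_, hof⟩
  apply mem_aut_of_forall
  rintro _ ⟨o, ho, h0, rfl⟩
  rw [← subtype_ofSubtype_smul, hof]
  exact ⟨g • o, smul_mem_octads hg1 ho, (mem_smul_iff_of_fixed hg2 o).2 h0, rfl⟩

theorem map_aut_D23 : (setSystemAut D23).map Equiv.Perm.ofSubtype = K23 := by
  ext g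
  constructor
  · rintro ⟨h, hh, rfl⟩
    exact mem_K23.2 ⟨ofSubtype_mem_M24 hh, ofSubtype_none h⟩
  · intro hg
    obtain ⟨h, hh, rfl⟩ := exists_of_mem_K23 hg
    exact ⟨h, hh, rfl⟩

theorem map_stab_none : (MulAction.stabilizer M24 (none : GolayPt)).map M24.subtype = K23 := by
  ext g
  constructor
  · rintro ⟨h, hh, rfl⟩
    exact mem_K23.2 ⟨h.2, hh⟩
  · intro hg
    obtain ⟨hg1, hg2⟩ := mem_K23.1 hg
    exact ⟨⟨g, hg1⟩, hg2, rfl⟩

noncomputable def autD23Equiv : setSystemAut D23 ≃* MulAction.stabilizer M24 (none : GolayPt) :=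
  ((Subgroup.equivMapOfInjective _ _ Equiv.Perm.ofSubtype_injective).trans
    (MulEquiv.subgroupCongr (map_aut_D23.trans map_stab_none.symm))).trans
    (Subgroup.equivMapOfInjective _ _ (Subgroup.subtype_injective _)).symm

theorem isM23_aut_D23 : IsM23 (setSystemAut D23) := by
  constructor
  · haveI := Cfsg.Agent.S0377.result none
    exact autD23Equiv.isSimpleGroup
  · rw [Nat.card_congr autD23Equiv.toEquiv]
    exact card_stab_pt none

theorem mpt_aut_D23 : MulAction.IsMultiplyPretransitive (setSystemAut D23) S23 4 := by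
  constructor
  intro x y
  have hinj : ∀ z : Fin 4 ↪ S23, Function.Injective (Fin.cons none (fun i => ((z i : S23) : GolayPt)) : Fin 5 → GolayPt) := by
    intro z
    rw [Fin.cons_injective_iff]
    refine ⟨?_, fun i j hij => z.injective (Subtype.ext hij)⟩
    rintro ⟨i, hi⟩
    exact (z i).2 hi
  obtain ⟨g, hg, hgx⟩ := M24_trans_tuple (k := 5) le_rfl _ _ (hinj x) (hinj y)
  have h0 : g none = none := hgx 0
  obtain ⟨h, hh, rfl⟩ := exists_of_mem_K23 (mem_K23.2 ⟨hg, h0⟩)
  refine ⟨⟨h, hh⟩, ?_⟩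
  apply DFunLike.ext
  intro i
  have h1 : Equiv.Perm.ofSubtype h (x i : GolayPt) = (y i : GolayPt) := hgx i.succ
  rw [Equiv.Perm.ofSubtype_apply_coe] at h1
  exact Subtype.ext h1

end Cfsg.Agent.Lib.Helper28.AutD
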