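/-
The automorphism group of the twice derived design of the octad system (an S(3,6,22)).
-/
import Cfsg.Agent.Lib.Helper28.AutD2
import Cfsg.Agent.S0379

set_option autoImplicit false

namespace Cfsg.Agent.Lib.Helper28.AutD

open Finset Cfsg Cfsg.Agent.Lib.Helper28
open scoped Pointwise

theorem pt22_ne : pt 22 ≠ none := by decide

def q1 : S23 := ⟨pt 22, pt22_ne⟩

abbrev S22 : Type := {a : S23 // a ≠ q1}

def D22 : Set (Finset S22) :=
  {b' | ∃ b ∈ D23, q1 ∈ b ∧ b' = Finset.subtype (fun a => a ≠ q1) b}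

theorem D22_steiner : IsSteinerSystem 3 6 D22 := Cfsg.Agent.S0351.result D23_steiner q1

theorem card_S22 : Fintype.card S22 = 22 := by
  rw [Fintype.card_subtype_compl, card_S23]
  simp

/-- extension of a permutation of the 22 points to the 24 points -/
noncomputable def hat : Equiv.Perm S22 →* Equiv.Perm GolayPt :=
  (Equiv.Perm.ofSubtype (p := fun a : GolayPt => a ≠ none)).comp (Equiv.Perm.ofSubtype (p := fun a : S23 => a ≠ q1))

theorem hat_apply (h : Equiv.Perm S22) : hat h = Equiv.Perm.ofSubtype (Equiv.Perm.ofSubtype h : Equiv.Perm S23) := rfl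

theorem hat_injective : Function.Injective hat :=
  Equiv.Perm.ofSubtype_injective.comp Equiv.Perm.ofSubtype_injective

theorem hat_none (h : Equiv.Perm S22) : hat h none = none := ofSubtype_none _

theorem ofSubtype_q1 (h : Equiv.Perm S22) : (Equiv.Perm.ofSubtype h : Equiv.Perm S23) q1 = q1 :=
  Equiv.Perm.ofSubtype_apply_of_not_mem h (by simp)

theorem hat_pt22 (h : Equiv.Perm S22) : hat h (pt 22) = pt 22 := by
  have : hat h ((q1 : S23) : GolayPt) = ((Equiv.Perm.ofSubtype h : Equiv.Perm S23) q1 : S23) :=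
    Equiv.Perm.ofSubtype_apply_coe _ _
  rw [ofSubtype_q1] at this
  exact this

theorem mem_D22_of {o : Finset GolayPt} (ho : o ∈ octads) (h0 : none ∈ o) (h1 : pt 22 ∈ o) :
    Finset.subtype (fun a => a ≠ q1) (Finset.subtype (fun a => a ≠ none) o) ∈ D22 :=
  ⟨_, ⟨o, ho, h0, rfl⟩, by rw [Finset.mem_subtype]; exact h1, rfl⟩

theorem subtype_hat_smul (h : Equiv.Perm S22) (o : Finset GolayPt) :
    Finset.subtype (fun a => a ≠ q1) (Finset.subtype (fun a => a ≠ none) (hat h • o)) =
      h • Finset.subtype (fun a => a ≠ q1) (Finset.subtype (fun a => a ≠ none) o) := by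
  rw [hat_apply, subtype_ofSubtype_smul, subtype_ofSubtype_smul]

theorem eq_of_subtype2 {b b' : Finset GolayPt}
    (h : Finset.subtype (fun a => a ≠ q1) (Finset.subtype (fun a => a ≠ none) b) =
      Finset.subtype (fun a => a ≠ q1) (Finset.subtype (fun a => a ≠ none) b'))
    (h0 : none ∈ b ↔ none ∈ b') (h1 : pt 22 ∈ b ↔ pt 22 ∈ b') : b = b' := by
  apply eq_of_subtype_ne _ h0
  apply eq_of_subtype_ne h
  rw [Finset.mem_subtype, Finset.mem_subtype]; exact h1

theorem smul_octad2 {h : Equiv.Perm S22} (hh : h ∈ setSystemAut D22) {o : Finset GolayPt}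
    (ho : o ∈ octads) (h0 : none ∈ o) (h1 : pt 22 ∈ o) :
    hat h • o ∈ octads ∧ none ∈ hat h • o ∧ pt 22 ∈ hat h • o := by
  obtain ⟨b3, ⟨o3, ho3, h03, rfl⟩, h13, h2⟩ := smul_mem_of_aut hh (mem_D22_of ho h0 h1)
  rw [← subtype_hat_smul] at h2
  have h3 : none ∈ hat h • o := (mem_smul_iff_of_fixed (hat_none h) o).2 h0
  have h4 : pt 22 ∈ hat h • o := (mem_smul_iff_of_fixed (hat_pt22 h) o).2 h1
  rw [Finset.mem_subtype] at h13
  have h5 := eq_of_subtype2 h2 ⟨fun _ => h03, fun _ => h3⟩ ⟨fun _ => h13, fun _ => h4⟩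
  rw [h5]; exact ⟨ho3, h03, h13⟩

def PP : Finset GolayPt := {none, pt 22}

noncomputable def sw : Equiv.Perm GolayPt := Equiv.swap none (pt 22)

theorem card_inter_PP (X : Finset GolayPt) :
    (X ∩ PP).card = (if none ∈ X then 1 else 0) + (if pt 22 ∈ X then 1 else 0) := by
  have hne : (none : GolayPt) ≠ pt 22 := pt22_ne.symm
  unfold PP
  by_cases h0 : none ∈ X <;> by_cases h1 : pt 22 ∈ X
  · rw [Finset.inter_insert_of_mem h0, Finset.inter_singleton_of_mem h1, Finset.card_pair hne]
    simp [h0, h1]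
  · rw [Finset.inter_insert_of_mem h0, Finset.inter_singleton_of_notMem h1]
    simp [h0, h1]
  · rw [Finset.inter_insert_of_notMem h0, Finset.inter_singleton_of_mem h1]
    simp [h0, h1]
  · rw [Finset.inter_insert_of_notMem h0, Finset.inter_singleton_of_notMem h1]
    simp [h0, h1]

theorem mem_sw_smul (X : Finset GolayPt) (x : GolayPt) : x ∈ sw • X ↔ sw x ∈ X := by
  rw [← Finset.inv_smul_mem_iff]
  have : sw⁻¹ = sw := Equiv.swap_inv _ _
  rw [this]; rfl

theorem sw_smul_bal {X : Finset GolayPt} (h : none ∈ X ↔ pt 22 ∈ X) : sw • X = X := by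
  ext x
  rw [mem_sw_smul]
  by_cases h0 : x = none
  · rw [h0, sw, Equiv.swap_apply_left]; exact h.symm
  · by_cases h1 : x = pt 22
    · rw [h1, sw, Equiv.swap_apply_right]; exact h
    · rw [sw, Equiv.swap_apply_of_ne_of_ne h0 h1]

theorem sw_smul_unbal {X : Finset GolayPt} (h : ¬ (none ∈ X ↔ pt 22 ∈ X)) : sw • X = symmDiff X PP := by
  ext x
  rw [mem_sw_smul, Finset.mem_symmDiff]
  unfold PP
  by_cases h0 : x = none
  · rw [h0, sw, Equiv.swap_apply_left]
    simp only [Finset.mem_insert, true_or, not_true_eq_false, and_false, true_and, false_or]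
    tauto
  · by_cases h1 : x = pt 22
    · rw [h1, sw, Equiv.swap_apply_right]
      simp only [Finset.mem_insert, Finset.mem_singleton, or_true, not_true_eq_false, and_false, true_and,
        false_or]
      tauto
    · rw [sw, Equiv.swap_apply_of_ne_of_ne h0 h1]
      simp [h0, h1]

theorem card_PP : PP.card = 2 := Finset.card_pair pt22_ne.symm

/-- the image of an octad is an octad, up to the transposition -/
theorem image_octad {h : Equiv.Perm S22} (hh : h ∈ setSystemAut D22) {o : Finset GolayPt} (ho : o ∈ octads) :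
    ((none ∈ o ↔ pt 22 ∈ o) → hat h • o ∈ octads) ∧ (hat h • o ∈ octads ∨ sw • hat h • o ∈ octads) := by
  have hcard : (hat h • o).card = 8 := by rw [Finset.card_smul_finset]; exact ((mem_octads_iff _).1 ho).2
  have hd : isCode (mask (hat h • o)) = true ∨ isCode (mask (symmDiff (hat h • o) {none, pt 22})) = true := by
    apply dual22
    intro o1 ho1 h01 h11
    rw [card_smul_inter, ← map_inv]
    exact even_inter_octads ho (smul_octad2 (inv_mem hh) ho1 h01 h11).1
  have hb0 : none ∈ hat h • o ↔ none ∈ o := mem_smul_iff_of_fixed (hat_none h) o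
  have hb1 : pt 22 ∈ hat h • o ↔ pt 22 ∈ o := mem_smul_iff_of_fixed (hat_pt22 h) o
  have hsd := card_symmDiff_add (hat h • o) PP
  rw [card_inter_PP, card_PP, hcard] at hsd
  have key : (none ∈ o ↔ pt 22 ∈ o) → hat h • o ∈ octads := by
    intro hbal
    rcases hd with hd | hd
    · exact (mem_octads_iff _).2 ⟨hd, hcard⟩
    · exfalso
      have hw := code_weight (mask_lt _) hd
      rw [← card_eq_pc] at hw
      have hPP : ({none, pt 22} : Finset GolayPt) = PP := rfl
      rw [hPP] at hw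
      by_cases h0 : none ∈ o
      · have h1 := hbal.1 h0
        simp only [hb0.2 h0, hb1.2 h1, if_true] at hsd
        omega
      · have h1 : pt 22 ∉ o := fun h1 => h0 (hbal.2 h1)
        have h0' : none ∉ hat h • o := fun h => h0 (hb0.1 h)
        have h1' : pt 22 ∉ hat h • o := fun h => h1 (hb1.1 h)
        simp only [h0', h1', if_false] at hsd
        omega
  refine ⟨key, ?_⟩
  by_cases hbal : (none ∈ o ↔ pt 22 ∈ o)
  · exact Or.inl (key hbal)
  · rcases hd with hd | hd
    · exact Or.inl ((mem_octads_iff _).2 ⟨hd, hcard⟩)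
    · right
      rw [mem_octads_iff]
      refine ⟨?_, by rw [Finset.card_smul_finset]; exact hcard⟩
      rw [sw_smul_unbal (by rw [hb0, hb1]; exact hbal)]
      exact hd

theorem not_both {h : Equiv.Perm S22} {o o' : Finset GolayPt} (ho : o ∈ octads)
    (ho' : o' ∈ octads) (hu : ¬ (none ∈ o ↔ pt 22 ∈ o)) (hu' : ¬ (none ∈ o' ↔ pt 22 ∈ o'))
    (h1 : hat h • o ∈ octads) (h2 : sw • hat h • o' ∈ octads) : False := by
  have hb0 : ∀ o : Finset GolayPt, none ∈ hat h • o ↔ none ∈ o := fun o => mem_smul_iff_of_fixed (hat_none h) o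
  have hb1 : ∀ o : Finset GolayPt, pt 22 ∈ hat h • o ↔ pt 22 ∈ o := fun o => mem_smul_iff_of_fixed (hat_pt22 h) o
  rw [sw_smul_unbal (by rw [hb0, hb1]; exact hu')] at h2
  have h3 := even_inter_octads h1 h2
  rw [even_inter_symmDiff] at h3
  have h4 : Even (hat h • o ∩ hat h • o').card := by
    rw [← Finset.smul_finset_inter, Finset.card_smul_finset]
    exact even_inter_octads ho ho'
  have h5 := h3.1 h4
  rw [card_inter_PP, Nat.even_iff] at h5
  by_cases h0 : none ∈ o <;> by_cases h1 : pt 22 ∈ o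
  · exact hu ⟨fun _ => h1, fun _ => h0⟩
  · simp [hb0, hb1, h0, h1] at h5
  · simp [hb0, hb1, h0, h1] at h5
  · exact hu ⟨fun h => absurd h h0, fun h => absurd h h1⟩

theorem dichotomy {h : Equiv.Perm S22} (hh : h ∈ setSystemAut D22) : hat h ∈ M24 ∨ sw * hat h ∈ M24 := by
  by_cases hex : ∃ o ∈ octads, ¬ (none ∈ o ↔ pt 22 ∈ o) ∧ hat h • o ∈ octads
  · obtain ⟨o, ho, hu, h1⟩ := hex
    left
    rw [← Stein.aut_octads]
    apply mem_aut_of_forall
    intro o' ho'
    by_cases hbal : (none ∈ o' ↔ pt 22 ∈ o')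
    · exact (image_octad hh ho').1 hbal
    · rcases (image_octad hh ho').2 with h2 | h2
      · exact h2
      · exact (not_both ho ho' hu hbal h1 h2).elim
  · right
    rw [← Stein.aut_octads]
    apply mem_aut_of_forall
    intro o' ho'
    rw [mul_smul]
    by_cases hbal : (none ∈ o' ↔ pt 22 ∈ o')
    · rw [sw_smul_bal]
      · exact (image_octad hh ho').1 hbal
      · rw [mem_smul_iff_of_fixed (hat_none h), mem_smul_iff_of_fixed (hat_pt22 h)]; exact hbal
    · rcases (image_octad hh ho').2 with h2 | h2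
      · exact (hex ⟨o', ho', hbal, h2⟩).elim
      · exact h2

theorem sw_notMem : sw ∉ M24 := by
  intro hsw
  -- an octad through `none` and not through `pt 22`
  have h1 : (8391797 : ℕ) < 2 ^ 24 ∧ isCode 8391797 = true ∧ pc 24 8391797 = 8 ∧
    Nat.testBit 8391797 23 = true ∧ Nat.testBit 8391797 22 = false := by decide +kernel
  obtain ⟨a1, a2, a3, a4, a5⟩ := h1
  have ho : unmask 8391797 ∈ octads := unmask_mem_octads a1 a2 a3
  have h0 : none ∈ unmask 8391797 := by rw [mem_unmask]; exact a4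
  have h22 : pt 22 ∉ unmask 8391797 := by
    rw [mem_unmask]
    have : idx (pt 22) = 22 := by decide
    rw [this, a5]; simp
  have hu : ¬ (none ∈ unmask 8391797 ↔ pt 22 ∈ unmask 8391797) := fun h => h22 (h.1 h0)
  have h2 := smul_mem_octads hsw ho
  have h3 := even_inter_octads ho h2
  rw [sw_smul_unbal hu, even_inter_symmDiff, Finset.inter_self, card_inter_PP] at h3
  have h4 : (unmask 8391797).card = 8 := ((mem_octads_iff _).1 ho).2
  rw [h4] at h3
  simp [h0, h22] at h3
  exact absurd h3 (by decide)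

theorem exists_hat {g : Equiv.Perm GolayPt} (hg0 : g none = none) (hg1 : g (pt 22) = pt 22)
    (hg : ∀ o ∈ octads, none ∈ o → pt 22 ∈ o → g • o ∈ octads) : ∃ h ∈ setSystemAut D22, hat h = g := by
  have hp : ∀ x, (g x ≠ none) ↔ (x ≠ none) := by
    intro x
    constructor
    · intro hx h; apply hx; rw [h, hg0]
    · intro hx h; apply hx; apply g.injective; rw [h, hg0]
  have hof : Equiv.Perm.ofSubtype (g.subtypePerm (p := fun a => a ≠ none) hp) = g := by
    apply Equiv.Perm.ofSubtype_subtypePerm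
    intro x hx h
    apply hx; rw [h, hg0]
  set g1 : Equiv.Perm S23 := g.subtypePerm (p := fun a => a ≠ none) hp with hg1def
  have hg1q : g1 q1 = q1 := Subtype.ext hg1
  have hp1 : ∀ x, (g1 x ≠ q1) ↔ (x ≠ q1) := by
    intro x
    constructor
    · intro hx h; apply hx; rw [h, hg1q]
    · intro hx h; apply hx; apply g1.injective; rw [h, hg1q]
  have hof1 : Equiv.Perm.ofSubtype (g1.subtypePerm (p := fun a => a ≠ q1) hp1) = g1 := by
    apply Equiv.Perm.ofSubtype_subtypePerm
    intro x hx h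
    apply hx; rw [h, hg1q]
  have hhat : hat (g1.subtypePerm (p := fun a => a ≠ q1) hp1) = g := by
    rw [hat_apply, hof1, hof]
  refine ⟨g1.subtypePerm (p := fun a => a ≠ q1) hp1, ?_, hhat⟩
  apply mem_aut_of_forall
  rintro _ ⟨_, ⟨o, ho, h0, rfl⟩, h1, rfl⟩
  rw [Finset.mem_subtype] at h1
  rw [← subtype_hat_smul, hhat]
  exact mem_D22_of (hg o ho h0 h1) ((mem_smul_iff_of_fixed hg0 o).2 h0) ((mem_smul_iff_of_fixed hg1 o).2 h1)

end Cfsg.Agent.Lib.Helper28.AutD
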