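/-
Structure of the automorphism group of the twice derived design of the octad system.
-/
import Cfsg.Agent.Lib.Helper28.AutD3

set_option autoImplicit false

namespace Cfsg.Agent.Lib.Helper28.AutD

open Finset Cfsg Cfsg.Agent.Lib.Helper28
open scoped Pointwise

noncomputable def hatA : setSystemAut D22 →* Equiv.Perm GolayPt := hat.comp (setSystemAut D22).subtype

theorem hatA_injective : Function.Injective hatA :=
  hat_injective.comp (Subgroup.subtype_injective _)

/-- the automorphisms extending to elements of `M24` fixing the two points -/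
noncomputable def H22 : Subgroup (setSystemAut D22) := M24.comap hatA

theorem mem_H22 {b : setSystemAut D22} : b ∈ H22 ↔ hat b.1 ∈ M24 := Iff.rfl

def K22 : Subgroup (Equiv.Perm GolayPt) :=
  M24 ⊓ (MulAction.stabilizer (Equiv.Perm GolayPt) (none : GolayPt) ⊓
    MulAction.stabilizer (Equiv.Perm GolayPt) (pt 22))

theorem mem_K22 {g : Equiv.Perm GolayPt} : g ∈ K22 ↔ g ∈ M24 ∧ g none = none ∧ g (pt 22) = pt 22 := by
  rw [K22, Subgroup.mem_inf, Subgroup.mem_inf, MulAction.mem_stabilizer_iff, MulAction.mem_stabilizer_iff]; rfl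

theorem map_H22 : H22.map hatA = K22 := by
  ext g
  constructor
  · rintro ⟨h, hh, rfl⟩
    exact mem_K22.2 ⟨hh, hat_none _, hat_pt22 _⟩
  · intro hg
    obtain ⟨hg1, hg2, hg3⟩ := mem_K22.1 hg
    obtain ⟨h, hh, rfl⟩ := exists_hat hg2 hg3 (fun o ho _ _ => smul_mem_octads hg1 ho)
    exact ⟨⟨h, hh⟩, hg1, rfl⟩

theorem map_stab2 : (MulAction.stabilizer M24 (none : GolayPt) ⊓ MulAction.stabilizer M24 (pt 22)).map M24.subtype
    = K22 := by
  ext g
  constructor
  · rintro ⟨h, hh, rfl⟩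
    exact mem_K22.2 ⟨h.2, hh.1, hh.2⟩
  · intro hg
    obtain ⟨hg1, hg2, hg3⟩ := mem_K22.1 hg
    exact ⟨⟨g, hg1⟩, ⟨hg2, hg3⟩, rfl⟩

noncomputable def H22Equiv :
    H22 ≃* ↥(MulAction.stabilizer M24 (none : GolayPt) ⊓ MulAction.stabilizer M24 (pt 22)) :=
  ((Subgroup.equivMapOfInjective _ _ hatA_injective).trans
    (MulEquiv.subgroupCongr (map_H22.trans map_stab2.symm))).trans
    (Subgroup.equivMapOfInjective _ _ (Subgroup.subtype_injective _)).symm

theorem isM22_H22 : IsM22 H22 := by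
  constructor
  · have := Cfsg.Agent.S0379.result none (pt 22) pt22_ne.symm
    exact H22Equiv.isSimpleGroup
  · rw [Nat.card_congr H22Equiv.toEquiv]
    exact card_stab_pt2 pt22_ne.symm

theorem comm_sw {f : Equiv.Perm GolayPt} (h0 : f none = none) (h1 : f (pt 22) = pt 22) : f * sw = sw * f := by
  have := Equiv.mul_swap_eq_swap_mul f none (pt 22)
  rw [h0, h1] at this
  exact this

theorem sw_mul_sw : sw * sw = 1 := Equiv.swap_mul_self _ _

theorem index_H22 : H22.index = 2 := by
  rw [Subgroup.index_eq_two_iff]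
  obtain ⟨g, hg, hg0, hg1⟩ := M24_trans_pt2 (p := none) (q := pt 22) (p' := pt 22) (q' := none) pt22_ne.symm pt22_ne
  have ht0 : (g * sw) none = none := by
    show g (sw none) = none
    rw [sw, Equiv.swap_apply_left, hg1]
  have ht1 : (g * sw) (pt 22) = pt 22 := by
    show g (sw (pt 22)) = pt 22
    rw [sw, Equiv.swap_apply_right, hg0]
  obtain ⟨τ, hτ, hτg⟩ := exists_hat ht0 ht1 (by
    intro o ho h0 h1
    rw [mul_smul, sw_smul_bal ⟨fun _ => h1, fun _ => h0⟩]
    exact smul_mem_octads hg ho)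
  have hτ2 : hat τ = sw * g := by
    have h1 := comm_sw ht0 ht1
    rw [mul_assoc, sw_mul_sw, mul_one] at h1
    rw [hτg]
    calc g * sw = (sw * sw) * (g * sw) := by rw [sw_mul_sw, one_mul]
      _ = sw * (sw * (g * sw)) := by rw [mul_assoc]
      _ = sw * g := by rw [← h1]
  refine ⟨⟨τ, hτ⟩, fun b => ?_⟩
  have hmul : hat (b * ⟨τ, hτ⟩ : setSystemAut D22).1 = hat b.1 * hat τ := map_mul hat _ _
  by_cases hb : hat b.1 ∈ M24
  · right
    refine ⟨hb, fun h => ?_⟩
    rw [mem_H22, hmul, hτg, ← mul_assoc] at h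
    have h2 : hat b.1 * g ∈ M24 := mul_mem hb hg
    exact sw_notMem ((Subgroup.mul_mem_cancel_left _ h2).1 h)
  · left
    refine ⟨?_, hb⟩
    have h1 : sw * hat b.1 ∈ M24 := (dichotomy b.2).resolve_left hb
    rw [mem_H22, hmul, hτ2, ← mul_assoc, comm_sw (hat_none _) (hat_pt22 _)]
    exact mul_mem h1 hg

theorem card_aut_D22 : Nat.card (setSystemAut D22) = 887040 := by
  rw [← Subgroup.card_mul_index H22, index_H22, isM22_H22.2]

theorem mpt_aut_D22 : MulAction.IsMultiplyPretransitive (setSystemAut D22) S22 3 := by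
  constructor
  intro x y
  have hinj : ∀ z : Fin 3 ↪ S22, Function.Injective
      (Fin.cons none (Fin.cons (pt 22) (fun i => (((z i : S22) : S23) : GolayPt))) : Fin 5 → GolayPt) := by
    intro z
    rw [Fin.cons_injective_iff, Fin.cons_injective_iff]
    refine ⟨?_, ?_, fun i j hij => z.injective (Subtype.ext (Subtype.ext hij))⟩
    · rintro ⟨i, hi⟩
      refine Fin.cases ?_ (fun j => ?_) i hi
      · intro hi; exact pt22_ne hi
      · intro hi; exact (z j).1.2 hi
    · rintro ⟨i, hi⟩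
      exact (z i).2 (Subtype.ext hi)
  obtain ⟨g, hg, hgx⟩ := M24_trans_tuple (k := 5) le_rfl _ _ (hinj x) (hinj y)
  have h0 : g none = none := hgx 0
  have h1 : g (pt 22) = pt 22 := hgx 1
  obtain ⟨h, hh, rfl⟩ := exists_hat h0 h1 (fun o ho _ _ => smul_mem_octads hg ho)
  refine ⟨⟨h, hh⟩, ?_⟩
  apply DFunLike.ext
  intro i
  have h1 : hat h (((x i : S22) : S23) : GolayPt) = (((y i : S22) : S23) : GolayPt) := hgx i.succ.succ
  rw [hat_apply, Equiv.Perm.ofSubtype_apply_coe, Equiv.Perm.ofSubtype_apply_coe] at h1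
  exact Subtype.ext (Subtype.ext h1)

end Cfsg.Agent.Lib.Helper28.AutD
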