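/-
Rigidity of the hexad system on the standard dodecad: a permutation preserving the hexads (or only those
through the point `none`) and fixing five points is trivial.
-/
import Cfsg.Agent.Lib.Helper28.AutD1
import Cfsg.Agent.Lib.Helper28.GolaySix

set_option autoImplicit false

namespace Cfsg.Agent.Lib.Helper28.AutD

open Finset Cfsg Cfsg.Agent.Lib.Helper28
open scoped Pointwise

/-- masks of the 132 hexads of the standard dodecad -/
def hexL : List ℕ := [461, 591, 903, 970, 4239, 4430, 4547, 4806, 4809, 4875, 4933, 5004, 16590, 16711, 16779, 17037, 17091, 17166, 17225, 17348, 20555, 20677, 20749, 20870, 20936, 20999, 21068, 21130, 21314, 21377, 32971, 33039, 33222, 33422, 33477, 33603, 33612, 33673, 36935, 37068, 37193, 37253, 37258, 37389, 37450, 37507, 37638, 37824, 49229, 49287, 49482, 49548, 49601, 49675, 49734, 49864, 49925, 50050, 53262, 53385, 53442, 53507, 53572, 53825, 53892, 54024, 8388807, 8388939, 8389006, 8389259, 8389324, 8389389, 8389446,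 8389569, 8392781, 8392906, 8392967, 8393097, 8393156, 8393230, 8393283, 8393349, 8393544, 8393602, 8405007, 8405193, 8405324, 8405381, 8405442, 8405573, 8405578, 8405638, 8405763, 8405896, 8409158, 8409219, 8409228, 8409354, 8409409, 8409609, 8409792, 8409860, 8421454, 8421517, 8421701, 8421763, 8421832, 8421895, 8421961, 8422082, 8422154, 8422276, 8425483, 8425606, 8425665, 8425740, 8425794, 8426052, 8426120, 8426241, 8437827, 8437898, 8437956, 8438022, 8438025, 8438284, 8438401, 8438592, 8441861, 8441928, 8442240, 8442370]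

/-- the hexads through the point `none` -/
def hexL' : List ℕ := hexL.filter (fun m => m.testBit 23)

/-- the 4-subsets of the hexad `{0, 1, 2, 3, 14, 23}` -/
def Qall : List ℕ := [15, 16391, 8388615, 16395, 8388619, 8404995, 16397, 8388621, 8404997, 8405001, 16398, 8388622,
  8404998, 8405002, 8405004]

def Qall' : List ℕ := Qall.filter (fun m => m.testBit 23)

def phi (a : Equiv.Perm GolayPt) (i : ℕ) : ℕ := idx (a (pt i))

theorem phi_lt (a : Equiv.Perm GolayPt) (i : ℕ) : phi a i < 24 := idx_lt _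

theorem pm_pow (a : Equiv.Perm GolayPt) {i : ℕ} (hi : i < 24) : pm a (2 ^ i) = 2 ^ phi a i := by
  have := pm_two_pow a (pt i)
  rwa [idx_pt i hi] at this

theorem apply_pt_of_phi {a : Equiv.Perm GolayPt} {i : ℕ} (h : phi a i = i) : a (pt i) = pt i := by
  rw [← pt_idx (a (pt i))]
  exact congrArg pt h

theorem pm_fixed {a : Equiv.Perm GolayPt} {Q : ℕ} (hQ : Q < 2 ^ 24) (h : ∀ p ∈ unmask Q, a p = p) :
    pm a Q = Q := by
  have h1 : a • unmask Q = unmask Q := smul_eq_of_maps (fun p hp => by rw [h p hp]; exact hp)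
  have h2 := mask_smul a (unmask Q)
  rw [h1, mask_unmask Q hQ] at h2
  exact h2.symm

def pairOK (HL QA : List ℕ) (x y : ℕ) : Bool :=
  (List.range 24).all fun x' => (List.range 24).all fun y' =>
    (!(QA.all fun Q => !(HL.contains (Q ||| 2 ^ x ||| 2 ^ y)) || HL.contains (Q ||| 2 ^ x' ||| 2 ^ y'))) ||
      ((x' == x && y' == y) || (x' == y && y' == x))

theorem pairOK_spec {HL QA : List ℕ} {a : Equiv.Perm GolayPt} (H1 : ∀ m ∈ HL, pm a m ∈ HL)
    (HQ : ∀ Q ∈ QA, pm a Q = Q) {x y : ℕ} (hx : x < 24) (hy : y < 24) (h : pairOK HL QA x y = true) :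
    (phi a x = x ∧ phi a y = y) ∨ (phi a x = y ∧ phi a y = x) := by
  rw [pairOK, List.all_eq_true] at h
  have h1 := h (phi a x) (List.mem_range.2 (phi_lt a x))
  rw [List.all_eq_true] at h1
  have h2 := h1 (phi a y) (List.mem_range.2 (phi_lt a y))
  rw [Bool.or_eq_true] at h2
  rcases h2 with h2 | h2
  · exfalso
    rw [Bool.not_eq_true', ← Bool.not_eq_true] at h2
    apply h2
    rw [List.all_eq_true]
    intro Q hQ
    by_cases hm : (Q ||| 2 ^ x ||| 2 ^ y) ∈ HL
    · have h3 := H1 _ hm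
      rw [pm_or, pm_or, HQ Q hQ, pm_pow a hx, pm_pow a hy] at h3
      simp [h3]
    · simp [hm]
  · simpa using h2

def ptOK (HL QA : List ℕ) (c : ℕ × ℕ × ℕ) : Bool :=
  pairOK HL QA c.1 c.2.1 && pairOK HL QA c.1 c.2.2 && (c.2.1 != c.2.2) && decide (c.1 < 24) &&
    decide (c.2.1 < 24) && decide (c.2.2 < 24)

theorem ptOK_spec {HL QA : List ℕ} {a : Equiv.Perm GolayPt} (H1 : ∀ m ∈ HL, pm a m ∈ HL)
    (HQ : ∀ Q ∈ QA, pm a Q = Q) {c : ℕ × ℕ × ℕ} (h : ptOK HL QA c = true) : phi a c.1 = c.1 := by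
  simp only [ptOK, Bool.and_eq_true, decide_eq_true_eq, bne_iff_ne] at h
  obtain ⟨⟨⟨⟨⟨h1, h2⟩, h3⟩, h4⟩, h5⟩, h6⟩ := h
  rcases pairOK_spec H1 HQ h4 h5 h1 with h7 | h7
  · exact h7.1
  · rcases pairOK_spec H1 HQ h4 h6 h2 with h8 | h8
    · exact h8.1
    · exact absurd (h7.1.symm.trans h8.1) h3

def triples : List (ℕ × ℕ × ℕ) := [(6, 7, 8), (7, 6, 8), (8, 6, 7), (9, 6, 7), (12, 6, 7), (15, 6, 7)]

def rigidCheck (HL QA : List ℕ) : Bool :=
  triples.all (ptOK HL QA) && HL.contains 8405007 &&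
    ((List.range 24).all fun j => !(HL.contains (8388623 ||| 2 ^ j)) || j == 14) &&
    (QA.all fun Q => Q &&& 8405007 == Q)

theorem rigidCheck_hexL : rigidCheck hexL Qall = true := by decide +kernel

theorem rigidCheck_hexL' : rigidCheck hexL' Qall' = true := by decide +kernel

theorem rigid {HL QA : List ℕ} (hc : rigidCheck HL QA = true) {a : Equiv.Perm GolayPt}
    (H1 : ∀ m ∈ HL, pm a m ∈ HL) (hfix : ∀ i ∈ [23, 0, 1, 2, 3], a (pt i) = pt i)
    (hout : ∀ p, p ∉ stdDodecad → a p = p) : a = 1 := by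
  simp only [rigidCheck, Bool.and_eq_true] at hc
  obtain ⟨⟨⟨c1, c2⟩, c3⟩, c4⟩ := hc
  rw [List.all_eq_true] at c1 c3 c4
  have hb5 : pm a 8388623 = 8388623 := by
    apply pm_fixed (by norm_num)
    intro p hp
    rw [mem_unmask] at hp
    have h1 : ∀ p : GolayPt, Nat.testBit 8388623 (idx p) = true → idx p ∈ [23, 0, 1, 2, 3] := by decide
    have := hfix _ (h1 p hp)
    rwa [pt_idx] at this
  have h14 : phi a 14 = 14 := by
    have h1 := H1 _ (List.contains_iff_mem.1 c2)
    have h2 : (8405007 : ℕ) = 8388623 ||| 2 ^ 14 := by decide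
    rw [h2, pm_or, hb5, pm_pow a (by norm_num)] at h1
    have h3 := c3 _ (List.mem_range.2 (phi_lt a 14))
    simpa [h1] using h3
  have hfix6 : ∀ i ∈ [23, 0, 1, 2, 3, 14], a (pt i) = pt i := by
    intro i hi
    rw [show [23, 0, 1, 2, 3, 14] = [23, 0, 1, 2, 3] ++ [14] from rfl, List.mem_append] at hi
    rcases hi with hi | hi
    · exact hfix i hi
    · rw [List.mem_singleton.1 hi]; exact apply_pt_of_phi h14
  have HQ : ∀ Q ∈ QA, pm a Q = Q := by
    intro Q hQ
    have hQ1 : Q &&& 8405007 = Q := by simpa using c4 Q hQ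
    apply pm_fixed
    · rw [← hQ1]
      exact lt_of_le_of_lt Nat.and_le_right (by norm_num)
    · intro p hp
      rw [mem_unmask, ← hQ1, Nat.testBit_and, Bool.and_eq_true] at hp
      have h1 : ∀ p : GolayPt, Nat.testBit 8405007 (idx p) = true → idx p ∈ [23, 0, 1, 2, 3, 14] := by decide
      have := hfix6 _ (h1 p hp.2)
      rwa [pt_idx] at this
  have hC : ∀ i ∈ [6, 7, 8, 9, 12, 15], a (pt i) = pt i := by
    intro i hi
    have h1 : ∀ i ∈ [6, 7, 8, 9, 12, 15], ∃ c ∈ triples, c.1 = i := by decide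
    obtain ⟨c, hc, rfl⟩ := h1 i hi
    exact apply_pt_of_phi (ptOK_spec H1 HQ (c1 c hc))
  ext1 p
  have h1 : ∀ p : GolayPt, idx p ∈ [23, 0, 1, 2, 3, 14] ∨ idx p ∈ [6, 7, 8, 9, 12, 15] ∨ p ∉ stdDodecad := by
    decide +kernel
  rcases h1 p with h | h | h
  · have := hfix6 _ h
    rwa [pt_idx] at this
  · have := hC _ h
    rwa [pt_idx] at this
  · exact hout p h

end Cfsg.Agent.Lib.Helper28.AutD
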