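/-
The automorphism group of the hexad system on the standard dodecad is the dodecad stabiliser.
-/
import Cfsg.Agent.Lib.Helper28.AutD5
import Cfsg.Agent.S0383
import Cfsg.Prelude.Def_Sporadic

set_option autoImplicit false

namespace Cfsg.Agent.Lib.Helper28.AutD

open Finset Cfsg Cfsg.Agent.Lib.Helper28
open scoped Pointwise

abbrev T12 : Type := {p : GolayPt // p ∈ stdDodecad}

def D12 : Set (Finset T12) :=
  {h | ∃ o ∈ octads, (o ∩ stdDodecad).card = 6 ∧ h = Finset.subtype (fun p => p ∈ stdDodecad) o}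

theorem D12_steiner : IsSteinerSystem 5 6 D12 := steiner_5_6_12 stdDodecad_mem

theorem card_T12 : Fintype.card T12 = 12 := by
  rw [Fintype.card_coe]; exact card_of_mem_dodecads stdDodecad_mem

/-- octads meeting the standard dodecad in the hexads of `hexL` -/
def octHexL : List ℕ := [262637, 4196943, 140167, 525274, 5279, 2232654, 4264387, 1315526, 2110153, 1053483, 530245, 72588, 90318, 1065303, 2115979, 1589901, 18147, 280334, 213833, 6308804, 806987, 153797, 4223245, 545190, 1070536, 2183687, 21116, 4346506, 31554, 283537, 1212619, 622863, 36294, 2130606, 99029, 2392899, 1090380, 4229001, 45159, 4755660, 39257, 3182981, 307594, 430605, 104010, 563843, 4231958, 168928, 2147405, 4505735, 4243818, 180636, 582081, 57883, 705094, 314056, 52005, 1164162, 1103886, 118953, 2150610, 185603, 381252, 5296705, 63108, 2675464, 11010247, 8398155, 13631886, 8716939, 8521420, 10486557, 8455014, 9440193, 9506893, 8394986, 8657159, 9048457, 8401364, 8925710, 8524371, 12587685, 12849992, 10491778, 8536111,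 12599513, 8931660, 8471941, 8798658, 8675909, 11551306, 8407702, 13124355, 8414120, 12604486, 9465987, 10768524, 8474906, 10506593, 8412681, 8999616, 9589508, 8683614, 8431757, 12747077, 8421811, 10584520, 9471495, 8946281, 12624578, 8555274, 9208708, 14716939, 8622214, 8688833, 8426796, 9998658, 10525252, 9474712, 8499969, 8505411, 8963210, 9486564, 10543366, 9748745, 12698124, 10666625, 8439632, 8966165, 8581192, 12638592, 8704546]

theorem octHexL_map : octHexL.map (fun o => o &&& 8442831) = hexL := by decide +kernel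

theorem octHexL_spec : ∀ o ∈ octHexL, o < 2 ^ 24 ∧ isCode o = true ∧ pc 24 o = 8 ∧ pc 24 (o &&& 8442831) = 6 := by
  decide +kernel

theorem exists_octad_of_hexL {m : ℕ} (hm : m ∈ hexL) :
    ∃ o ∈ octads, (o ∩ stdDodecad).card = 6 ∧ mask o &&& 8442831 = m := by
  rw [← octHexL_map, List.mem_map] at hm
  obtain ⟨o, ho, rfl⟩ := hm
  obtain ⟨h1, h2, h3, h4⟩ := octHexL_spec o ho
  refine ⟨unmask o, unmask_mem_octads h1 h2 h3, ?_, by rw [mask_unmask o h1]⟩
  rw [card_eq_pc, mask_inter, mask_unmask o h1, mask_stdDodecad]; exact h4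

theorem mem_hexL_of_octad {o : Finset GolayPt} (ho : o ∈ octads) (h6 : (o ∩ stdDodecad).card = 6) :
    mask o &&& 8442831 ∈ hexL := by
  have := forall_octads_of_check (f := fun m => or (not (Nat.beq (pcF (Nat.land m 8442831)) 6))
    (hexL.contains (Nat.land m 8442831))) (by decide +kernel) ho
  rw [card_eq_pcF, mask_inter, mask_stdDodecad] at h6
  have h7 : pcF (Nat.land (mask o) 8442831) = 6 := h6
  rw [h7] at this
  simpa using this

theorem ofSubtype_smul_dod (a1 : Equiv.Perm T12) : Equiv.Perm.ofSubtype a1 • stdDodecad = stdDodecad := by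
  apply smul_eq_of_maps
  intro p hp
  rw [Equiv.Perm.ofSubtype_apply_of_mem a1 hp]
  exact (a1 ⟨p, hp⟩).2

theorem inter_eq_of_subtype_eq {X Y : Finset GolayPt}
    (h : Finset.subtype (fun p => p ∈ stdDodecad) X = Finset.subtype (fun p => p ∈ stdDodecad) Y) :
    X ∩ stdDodecad = Y ∩ stdDodecad := by
  have := congrArg (fun s => s.map (Function.Embedding.subtype _)) h
  simp only [Finset.subtype_map, Finset.filter_mem_eq_inter] at this
  exact this

theorem pm_hex {a1 : Equiv.Perm T12} {o o3 : Finset GolayPt}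
    (h : a1 • Finset.subtype (fun p => p ∈ stdDodecad) o = Finset.subtype (fun p => p ∈ stdDodecad) o3) :
    pm (Equiv.Perm.ofSubtype a1) (mask o &&& 8442831) = mask o3 &&& 8442831 := by
  rw [← subtype_ofSubtype_smul] at h
  have h1 := inter_eq_of_subtype_eq h
  have h2 := congrArg mask h1
  rw [mask_inter, mask_inter, mask_smul, mask_stdDodecad] at h2
  rw [pm_and, ← h2]
  congr 1
  have h3 := mask_smul (Equiv.Perm.ofSubtype a1) stdDodecad
  rw [ofSubtype_smul_dod, mask_stdDodecad] at h3
  exact h3.symm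

theorem ofSubtype_out (a1 : Equiv.Perm T12) (p : GolayPt) (hp : p ∉ stdDodecad) :
    Equiv.Perm.ofSubtype a1 p = p := Equiv.Perm.ofSubtype_apply_of_not_mem a1 hp

theorem H1_of_aut {a1 : Equiv.Perm T12} (ha : a1 ∈ setSystemAut D12) :
    ∀ m ∈ hexL, pm (Equiv.Perm.ofSubtype a1) m ∈ hexL := by
  intro m hm
  obtain ⟨o, ho, h6, rfl⟩ := exists_octad_of_hexL hm
  obtain ⟨o3, ho3, h63, h3⟩ := smul_mem_of_aut ha (⟨o, ho, h6, rfl⟩ : _ ∈ D12)
  rw [pm_hex h3]
  exact mem_hexL_of_octad ho3 h63

theorem subtypePerm_smul_subtype {α : Type*} [DecidableEq α] (p : α → Prop) [DecidablePred p]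
    (g : Equiv.Perm α) (hp : ∀ x, p (g x) ↔ p x) (b : Finset α) :
    (g.subtypePerm hp) • Finset.subtype p b = Finset.subtype p (g • b) := by
  ext x
  rw [Finset.mem_subtype, ← Finset.inv_smul_mem_iff, ← Finset.inv_smul_mem_iff, Finset.mem_subtype]
  rfl

theorem restrict_mem_aut (g : MulAction.stabilizer M24 stdDodecad) :
    restrictHom M24 stdDodecad g ∈ setSystemAut D12 := by
  apply mem_aut_of_forall
  rintro _ ⟨o, ho, h6, rfl⟩
  have h1 : restrictHom M24 stdDodecad g • Finset.subtype (fun p => p ∈ stdDodecad) o =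
      Finset.subtype (fun p => p ∈ stdDodecad) (g.1.1 • o) :=
    subtypePerm_smul_subtype _ g.1.1 (fun x => apply_mem_iff_of_smul_eq g.2 x) o
  rw [h1]
  refine ⟨g.1.1 • o, smul_mem_octads g.1.2 ho, ?_, rfl⟩
  have h2 : g.1.1 • stdDodecad = stdDodecad := g.2
  have h3 : g.1.1 • o ∩ stdDodecad = g.1.1 • (o ∩ stdDodecad) := by
    rw [Finset.smul_finset_inter, h2]
  rw [h3, Finset.card_smul_finset, h6]

theorem stdFive_mem : ∀ i, stdFive i ∈ stdDodecad := by decide +kernel

theorem restrict_injective : Function.Injective (restrictHom M24 stdDodecad) := by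
  rw [injective_iff_map_eq_one]
  intro g hg
  have h1 : g.1.1 = 1 := by
    apply eq_one_of_fix_dodecad_five stdDodecad_mem stdFive stdFive_injective stdFive_mem g.1.2 g.2
    intro i
    have := congrArg (fun σ : Equiv.Perm T12 => ((σ ⟨stdFive i, stdFive_mem i⟩ : T12) : GolayPt)) hg
    exact this
  exact Subtype.ext (Subtype.ext h1)

theorem exists_restrict {x y : Fin 5 → T12} (hx : Function.Injective x) (hy : Function.Injective y) :
    ∃ g : MulAction.stabilizer M24 stdDodecad, ∀ i, restrictHom M24 stdDodecad g (x i) = y i := by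
  obtain ⟨g, hg, hgd, h⟩ := dodecad_five_trans stdDodecad_mem (fun i => (x i).1) (fun i => (y i).1)
    (fun i j hij => hx (Subtype.ext hij)) (fun i j hij => hy (Subtype.ext hij)) (fun i => (x i).2)
    (fun i => (y i).2)
  exact ⟨⟨⟨g, hg⟩, hgd⟩, fun i => Subtype.ext (h i)⟩

def stdFive' : Fin 5 → T12 := fun i => ⟨stdFive i, stdFive_mem i⟩

theorem stdFive'_injective : Function.Injective stdFive' := fun i j hij =>
  stdFive_injective (congrArg Subtype.val hij)

theorem hfix_of {b : Equiv.Perm T12} (hb : ∀ i, b (stdFive' i) = stdFive' i) :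
    ∀ i ∈ [23, 0, 1, 2, 3], Equiv.Perm.ofSubtype b (pt i) = pt i := by
  intro i hi
  have h1 : ∀ i ∈ [23, 0, 1, 2, 3], ∃ k, stdFive k = pt i := by decide +kernel
  obtain ⟨k, hk⟩ := h1 i hi
  rw [← hk, Equiv.Perm.ofSubtype_apply_of_mem b (stdFive_mem k)]
  exact congrArg Subtype.val (hb k)

theorem restrict_surj {a : Equiv.Perm T12} (ha : a ∈ setSystemAut D12) :
    ∃ g : MulAction.stabilizer M24 stdDodecad, restrictHom M24 stdDodecad g = a := by
  obtain ⟨g, hg⟩ := exists_restrict stdFive'_injective (a.injective.comp stdFive'_injective)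
  refine ⟨g, ?_⟩
  have hb : (restrictHom M24 stdDodecad g)⁻¹ * a ∈ setSystemAut D12 :=
    mul_mem (inv_mem (restrict_mem_aut g)) ha
  have h1 : Equiv.Perm.ofSubtype ((restrictHom M24 stdDodecad g)⁻¹ * a) = 1 := by
    apply rigid rigidCheck_hexL (H1_of_aut hb) _ (ofSubtype_out _)
    apply hfix_of
    intro i
    rw [Equiv.Perm.mul_apply, Equiv.Perm.inv_eq_iff_eq]
    exact (hg i).symm
  have h2 : (restrictHom M24 stdDodecad g)⁻¹ * a = 1 :=
    Equiv.Perm.ofSubtype_injective (h1.trans (map_one _).symm)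
  exact (inv_mul_eq_one.1 h2)

noncomputable def autD12Equiv : MulAction.stabilizer M24 stdDodecad ≃* setSystemAut D12 :=
  MulEquiv.ofBijective ((restrictHom M24 stdDodecad).codRestrict (setSystemAut D12) restrict_mem_aut)
    ⟨fun g g' h => restrict_injective (congrArg Subtype.val h), fun a => by
      obtain ⟨g, hg⟩ := restrict_surj a.2
      exact ⟨g, Subtype.ext hg⟩⟩

theorem isM12_aut_D12 : IsM12 (setSystemAut D12) := by
  constructor
  · have := Cfsg.Agent.S0383.result stdDodecad stdDodecad_mem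
    exact autD12Equiv.symm.isSimpleGroup
  · rw [← Nat.card_congr autD12Equiv.toEquiv]
    exact card_stab_dodecad stdDodecad_mem

theorem mpt_aut_D12 : MulAction.IsMultiplyPretransitive (setSystemAut D12) T12 5 := by
  constructor
  intro x y
  obtain ⟨g, hg⟩ := exists_restrict x.injective y.injective
  refine ⟨⟨_, restrict_mem_aut g⟩, ?_⟩
  apply DFunLike.ext
  intro i
  exact hg i

theorem sharp_aut_D12 (x : Fin 5 ↪ T12) : MulAction.stabilizer (setSystemAut D12) x = ⊥ := by
  rw [eq_bot_iff]
  intro a ha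
  rw [MulAction.mem_stabilizer_iff] at ha
  obtain ⟨g, hg⟩ := restrict_surj a.2
  have h1 : g.1.1 = 1 := by
    apply eq_one_of_fix_dodecad_five stdDodecad_mem (fun i => (x i).1)
      (fun i j hij => x.injective (Subtype.ext hij)) (fun i => (x i).2) g.1.2 g.2
    intro i
    have h2 := congrArg (fun z : Fin 5 ↪ T12 => ((z i : T12) : GolayPt)) ha
    have h3 : ((a.1 (x i) : T12) : GolayPt) = (x i).1 := h2
    rw [← hg] at h3
    exact h3
  have h2 : g = 1 := Subtype.ext (Subtype.ext h1)
  rw [Subgroup.mem_bot]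
  apply Subtype.ext
  rw [← hg, h2, map_one]; rfl

theorem sharp_transport {α β : Type*} [DecidableEq α] [DecidableEq β] (e : α ≃ β) {B : Set (Finset α)}
    {B' : Set (Finset β)} (h : (fun b => b.image e) '' B = B') {n : ℕ}
    (H : ∀ x : Fin n ↪ β, MulAction.stabilizer (setSystemAut B') x = ⊥) (x : Fin n ↪ α) :
    MulAction.stabilizer (setSystemAut B) x = ⊥ := by
  rw [eq_bot_iff]
  intro g hg
  rw [MulAction.mem_stabilizer_iff] at hg
  have h1 : Stein.autCongr e h g ∈ MulAction.stabilizer (setSystemAut B') (x.trans e.toEmbedding) := by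
    rw [MulAction.mem_stabilizer_iff]
    apply DFunLike.ext
    intro i
    show ((Stein.autCongr e h g : setSystemAut B') : Equiv.Perm β) (e (x i)) = e (x i)
    rw [Stein.autCongr_apply]
    congr 1
    exact congrArg (fun z : Fin n ↪ α => z i) hg
  rw [H, Subgroup.mem_bot] at h1
  rw [Subgroup.mem_bot]
  exact (MulEquiv.map_eq_one_iff _).1 h1

end Cfsg.Agent.Lib.Helper28.AutD
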