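/-
The automorphism group of the derived design (an S(4,5,11)) of the hexad system on the standard dodecad.
-/
import Cfsg.Agent.Lib.Helper28.AutD6
import Cfsg.Agent.S0351
import Cfsg.Agent.S0388

set_option autoImplicit false

namespace Cfsg.Agent.Lib.Helper28.AutD

open Finset Cfsg Cfsg.Agent.Lib.Helper28
open scoped Pointwise

theorem none_mem_dod : (none : GolayPt) ∈ stdDodecad := by decide +kernel

def p0 : T12 := ⟨none, none_mem_dod⟩

abbrev T11 : Type := {a : T12 // a ≠ p0}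

def D11 : Set (Finset T11) :=
  {b' | ∃ b ∈ D12, p0 ∈ b ∧ b' = Finset.subtype (fun a => a ≠ p0) b}

theorem D11_steiner : IsSteinerSystem 4 5 D11 := Cfsg.Agent.S0351.result D12_steiner p0

theorem card_T11 : Fintype.card T11 = 11 := by
  rw [Fintype.card_subtype_compl, card_T12]
  simp

theorem ofSubtype_p0 (h : Equiv.Perm T11) : (Equiv.Perm.ofSubtype h : Equiv.Perm T12) p0 = p0 :=
  Equiv.Perm.ofSubtype_apply_of_not_mem h (by simp)

/-- permutations of the dodecad fixing `p0` and mapping hexads through `p0` to hexads -/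
def IsG11 (a : Equiv.Perm T12) : Prop := a p0 = p0 ∧ ∀ b ∈ D12, p0 ∈ b → a • b ∈ D12

theorem isG11_ofSubtype {h : Equiv.Perm T11} (hh : h ∈ setSystemAut D11) : IsG11 (Equiv.Perm.ofSubtype h) := by
  refine ⟨ofSubtype_p0 h, ?_⟩
  intro b hb h0
  obtain ⟨b3, hb3, h03, h2⟩ := smul_mem_of_aut hh (⟨b, hb, h0, rfl⟩ : _ ∈ D11)
  rw [← subtype_ofSubtype_smul] at h2
  have h3 : p0 ∈ (Equiv.Perm.ofSubtype h : Equiv.Perm T12) • b := (mem_smul_iff_of_fixed (ofSubtype_p0 h) b).2 h0
  rw [eq_of_subtype_ne h2 ⟨fun _ => h03, fun _ => h3⟩]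
  exact hb3

theorem exists_of_isG11 {a : Equiv.Perm T12} (ha : IsG11 a) : ∃ h ∈ setSystemAut D11, Equiv.Perm.ofSubtype h = a := by
  obtain ⟨ha0, ha1⟩ := ha
  have hp : ∀ x, (a x ≠ p0) ↔ (x ≠ p0) := by
    intro x
    constructor
    · intro hx h; apply hx; rw [h, ha0]
    · intro hx h; apply hx; apply a.injective; rw [h, ha0]
  have hof : Equiv.Perm.ofSubtype (a.subtypePerm (p := fun a => a ≠ p0) hp) = a := by
    apply Equiv.Perm.ofSubtype_subtypePerm
    intro x hx h
    apply hx; rw [h, ha0]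
  refine ⟨a.subtypePerm (p := fun a => a ≠ p0) hp, ?_, hof⟩
  apply mem_aut_of_forall
  rintro _ ⟨b, hb, h0, rfl⟩
  rw [← subtype_ofSubtype_smul, hof]
  exact ⟨a • b, ha1 b hb h0, (mem_smul_iff_of_fixed ha0 b).2 h0, rfl⟩

theorem mem_hexL'_iff {m : ℕ} : m ∈ hexL' ↔ m ∈ hexL ∧ m.testBit 23 = true := by
  rw [hexL', List.mem_filter]

theorem testBit_23 (o : Finset GolayPt) : (mask o &&& 8442831).testBit 23 = true ↔ none ∈ o := by
  rw [Nat.testBit_and, Bool.and_eq_true]
  have h1 : Nat.testBit 8442831 23 = true := by decide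
  have h2 := testBit_mask_idx o none
  have h3 : idx none = 23 := rfl
  rw [h3] at h2
  rw [h2, h1]
  simp

theorem H1'_of_isG11 {a : Equiv.Perm T12} (ha : IsG11 a) :
    ∀ m ∈ hexL', pm (Equiv.Perm.ofSubtype a) m ∈ hexL' := by
  intro m hm
  rw [mem_hexL'_iff] at hm
  obtain ⟨hm1, hm2⟩ := hm
  obtain ⟨o, ho, h6, rfl⟩ := exists_octad_of_hexL hm1
  rw [testBit_23] at hm2
  have hb : Finset.subtype (fun p => p ∈ stdDodecad) o ∈ D12 := ⟨o, ho, h6, rfl⟩
  have h0 : p0 ∈ Finset.subtype (fun p => p ∈ stdDodecad) o := by rw [Finset.mem_subtype]; exact hm2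
  obtain ⟨o3, ho3, h63, h3⟩ := ha.2 _ hb h0
  have h4 : p0 ∈ a • Finset.subtype (fun p => p ∈ stdDodecad) o := (mem_smul_iff_of_fixed ha.1 _).2 h0
  rw [h3, Finset.mem_subtype] at h4
  rw [pm_hex h3, mem_hexL'_iff, testBit_23]
  exact ⟨mem_hexL_of_octad ho3 h63, h4⟩

theorem stdFive'_zero : stdFive' 0 = p0 := rfl

theorem isG11_mem_aut {a : Equiv.Perm T12} (ha : IsG11 a) : a ∈ setSystemAut D12 := by
  obtain ⟨g, hg⟩ := exists_restrict stdFive'_injective (a.injective.comp stdFive'_injective)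
  have hg0 : restrictHom M24 stdDodecad g p0 = p0 := by
    have := hg 0
    rw [stdFive'_zero] at this
    rw [this]; exact ha.1
  have hgi : (restrictHom M24 stdDodecad g)⁻¹ p0 = p0 := by
    rw [Equiv.Perm.inv_eq_iff_eq]; exact hg0.symm
  have hb : IsG11 ((restrictHom M24 stdDodecad g)⁻¹ * a) := by
    refine ⟨by rw [Equiv.Perm.mul_apply, ha.1, hgi], ?_⟩
    intro b hb h0
    rw [mul_smul]
    exact smul_mem_of_aut (inv_mem (restrict_mem_aut g)) (ha.2 b hb h0)
  have h1 : Equiv.Perm.ofSubtype ((restrictHom M24 stdDodecad g)⁻¹ * a) = 1 := by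
    apply rigid rigidCheck_hexL' (H1'_of_isG11 hb) _ (ofSubtype_out _)
    apply hfix_of
    intro i
    rw [Equiv.Perm.mul_apply, Equiv.Perm.inv_eq_iff_eq]
    exact (hg i).symm
  have h2 : (restrictHom M24 stdDodecad g)⁻¹ * a = 1 :=
    Equiv.Perm.ofSubtype_injective (h1.trans (map_one _).symm)
  rw [← inv_mul_eq_one.1 h2]
  exact restrict_mem_aut g

/-- the stabiliser of `p0` in the automorphism group of the hexad system -/
def G11 : Subgroup (Equiv.Perm T12) := setSystemAut D12 ⊓ MulAction.stabilizer (Equiv.Perm T12) p0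

theorem mem_G11 {a : Equiv.Perm T12} : a ∈ G11 ↔ a ∈ setSystemAut D12 ∧ a p0 = p0 := by
  rw [G11, Subgroup.mem_inf, MulAction.mem_stabilizer_iff]; rfl

theorem mem_G11_iff {a : Equiv.Perm T12} : a ∈ G11 ↔ IsG11 a := by
  rw [mem_G11]
  constructor
  · rintro ⟨h1, h2⟩
    exact ⟨h2, fun b hb _ => smul_mem_of_aut h1 hb⟩
  · intro h
    exact ⟨isG11_mem_aut h, h.1⟩

theorem map_aut_D11 : (setSystemAut D11).map Equiv.Perm.ofSubtype = G11 := by
  ext a
  rw [mem_G11_iff]
  constructor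
  · rintro ⟨h, hh, rfl⟩
    exact isG11_ofSubtype hh
  · intro ha
    obtain ⟨h, hh, rfl⟩ := exists_of_isG11 ha
    exact ⟨h, hh, rfl⟩

/-- restriction to the dodecad of the stabiliser of the dodecad and of the point `none` -/
def rho : ↥(MulAction.stabilizer M24 stdDodecad ⊓ MulAction.stabilizer M24 (none : GolayPt)) →* Equiv.Perm T12 :=
  (restrictHom M24 stdDodecad).comp (Subgroup.inclusion inf_le_left)

theorem rho_injective : Function.Injective rho :=
  restrict_injective.comp (Subgroup.inclusion_injective _)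

theorem range_rho : rho.range = G11 := by
  ext a
  rw [mem_G11]
  constructor
  · rintro ⟨g, rfl⟩
    refine ⟨restrict_mem_aut _, ?_⟩
    apply Subtype.ext
    exact g.2.2
  · rintro ⟨h1, h2⟩
    obtain ⟨g, rfl⟩ := restrict_surj h1
    have h3 : g.1.1 none = none := congrArg Subtype.val h2
    exact ⟨⟨g.1, g.2, h3⟩, rfl⟩

noncomputable def autD11Equiv : setSystemAut D11 ≃*
    ↥(MulAction.stabilizer M24 stdDodecad ⊓ MulAction.stabilizer M24 (none : GolayPt)) :=
  ((Subgroup.equivMapOfInjective _ _ Equiv.Perm.ofSubtype_injective).trans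
    (MulEquiv.subgroupCongr (map_aut_D11.trans range_rho.symm))).trans
    (MonoidHom.ofInjective rho_injective).symm

theorem isM11_aut_D11 : IsM11 (setSystemAut D11) := by
  constructor
  · have := Cfsg.Agent.S0388.result stdDodecad stdDodecad_mem none none_mem_dod
    exact autD11Equiv.isSimpleGroup
  · rw [Nat.card_congr autD11Equiv.toEquiv]
    exact card_stab_dodecad_pt stdDodecad_mem none_mem_dod

theorem cons_inj (z : Fin 4 ↪ T11) : Function.Injective (Fin.cons p0 (fun i => ((z i : T11) : T12)) : Fin 5 → T12) := by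
  rw [Fin.cons_injective_iff]
  refine ⟨?_, fun i j hij => z.injective (Subtype.ext hij)⟩
  rintro ⟨i, hi⟩
  exact (z i).2 hi

theorem mpt_aut_D11 : MulAction.IsMultiplyPretransitive (setSystemAut D11) T11 4 := by
  constructor
  intro x y
  obtain ⟨g, hg⟩ := exists_restrict (cons_inj x) (cons_inj y)
  have h0 : restrictHom M24 stdDodecad g p0 = p0 := hg 0
  obtain ⟨h, hh, hhg⟩ := exists_of_isG11 (mem_G11_iff.1 (mem_G11.2 ⟨restrict_mem_aut g, h0⟩))
  refine ⟨⟨h, hh⟩, ?_⟩
  apply DFunLike.ext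
  intro i
  have h1 : restrictHom M24 stdDodecad g (x i : T12) = (y i : T12) := hg i.succ
  rw [← hhg, Equiv.Perm.ofSubtype_apply_coe] at h1
  exact Subtype.ext h1

theorem sharp_aut_D11 (x : Fin 4 ↪ T11) : MulAction.stabilizer (setSystemAut D11) x = ⊥ := by
  rw [eq_bot_iff]
  intro a ha
  rw [MulAction.mem_stabilizer_iff] at ha
  have h1 := isG11_ofSubtype a.2
  have h2 : (⟨Equiv.Perm.ofSubtype a.1, isG11_mem_aut h1⟩ : setSystemAut D12) ∈
      MulAction.stabilizer (setSystemAut D12) (⟨_, cons_inj x⟩ : Fin 5 ↪ T12) := by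
    rw [MulAction.mem_stabilizer_iff]
    apply DFunLike.ext
    intro i
    refine Fin.cases ?_ (fun j => ?_) i
    · exact h1.1
    · show Equiv.Perm.ofSubtype a.1 ((x j : T11) : T12) = ((x j : T11) : T12)
      rw [Equiv.Perm.ofSubtype_apply_coe]
      exact congrArg (fun z : Fin 4 ↪ T11 => ((z j : T11) : T12)) ha
  rw [sharp_aut_D12, Subgroup.mem_bot] at h2
  have h3 : Equiv.Perm.ofSubtype a.1 = (1 : Equiv.Perm T12) := congrArg Subtype.val h2
  rw [Subgroup.mem_bot]
  apply Subtype.ext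
  exact Equiv.Perm.ofSubtype_injective (h3.trans (map_one _).symm)

end Cfsg.Agent.Lib.Helper28.AutD
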