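/-
Abstract self-dual binary codes of length 24 and minimum weight at least 8: coset leaders.
-/
import Mathlib
import Cfsg.Prelude.Def_Sporadic_a

set_option autoImplicit false

namespace Cfsg.Agent.Lib.Helper28.Code24

open Finset Cfsg

abbrev V : Type := Fin 24 → ZMod 2

/-- support of a word -/
def supp (w : V) : Finset (Fin 24) := univ.filter fun i => w i ≠ 0

theorem norm_eq (w : V) : hammingNorm w = (supp w).card := rfl

theorem mem_supp {w : V} {i : Fin 24} : i ∈ supp w ↔ w i ≠ 0 := by simp [supp]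

theorem z2 : ∀ a : ZMod 2, a ≠ 0 ↔ a = 1 := by decide

theorem z2_sub : ∀ a b : ZMod 2, a - b ≠ 0 ↔ ((a ≠ 0 ∧ b = 0) ∨ (a = 0 ∧ b ≠ 0)) := by decide

theorem z2_add : ∀ a b : ZMod 2, a + b ≠ 0 ↔ ((a ≠ 0 ∧ b = 0) ∨ (a = 0 ∧ b ≠ 0)) := by decide

/-- indicator word of a set -/
def ind (s : Finset (Fin 24)) : V := fun i => if i ∈ s then 1 else 0

theorem supp_ind (s : Finset (Fin 24)) : supp (ind s) = s := by
  ext i; simp [supp, ind]

theorem ind_supp (w : V) : ind (supp w) = w := by
  funext i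
  by_cases h : w i = 0
  · simp [ind, supp, h]
  · simp [ind, supp, h, (z2 _).1 h]

theorem supp_sub (u v : V) : supp (u - v) = symmDiff (supp u) (supp v) := by
  ext i
  rw [mem_supp, mem_symmDiff, mem_supp, mem_supp, Pi.sub_apply, z2_sub]
  simp only [ne_eq, not_not]
  tauto

theorem supp_add (u v : V) : supp (u + v) = symmDiff (supp u) (supp v) := by
  ext i
  rw [mem_supp, mem_symmDiff, mem_supp, mem_supp, Pi.add_apply, z2_add]
  simp only [ne_eq, not_not]
  tauto

theorem card_symmDiff_add (s t : Finset (Fin 24)) :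
    (symmDiff s t).card + 2 * (s ∩ t).card = s.card + t.card := by
  have h1 : symmDiff s t = (s \ t) ∪ (t \ s) := rfl
  have h2 : Disjoint (s \ t) (t \ s) := by
    rw [disjoint_left]; intro x hx hx2
    exact (mem_sdiff.1 hx).2 (mem_sdiff.1 hx2).1
  rw [h1, card_union_of_disjoint h2]
  have h3 := card_sdiff_add_card_inter s t
  have h4 := card_sdiff_add_card_inter t s
  rw [inter_comm t s] at h4
  omega

theorem card_norm_eq (j : ℕ) : (univ.filter fun u : V => hammingNorm u = j).card = Nat.choose 24 j := by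
  have : (univ.filter fun u : V => hammingNorm u = j).card = (powersetCard j (univ : Finset (Fin 24))).card := by
    apply card_nbij' supp ind
    · intro u hu
      simp only [coe_filter, mem_univ, true_and, Set.mem_setOf_eq] at hu
      simp only [mem_coe, mem_powersetCard]
      exact ⟨subset_univ _, hu⟩
    · intro s hs
      simp only [mem_coe, mem_powersetCard] at hs
      simp only [coe_filter, mem_univ, true_and, Set.mem_setOf_eq]
      rw [norm_eq, supp_ind]; exact hs.2
    · intro u _; exact ind_supp u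
    · intro s _; exact supp_ind s
  rw [this, card_powersetCard, card_univ, Fintype.card_fin]

section

open scoped Classical

variable (C : Submodule (ZMod 2) V) (hdim : Module.finrank (ZMod 2) C = 12)
  (hmin : ∀ w ∈ C, w ≠ 0 → 8 ≤ hammingNorm w)

include hmin in
theorem key {u u' : V} (h : u - u' ∈ C) (hne : u ≠ u') (h1 : hammingNorm u ≤ 4) (h2 : hammingNorm u' ≤ 4) :
    hammingNorm u = 4 ∧ hammingNorm u' = 4 ∧ Disjoint (supp u) (supp u') := by
  have h3 := hmin _ h (sub_ne_zero.2 hne)
  rw [norm_eq, supp_sub] at h3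
  rw [norm_eq] at h1 h2 ⊢
  rw [norm_eq]
  have h4 := card_symmDiff_add (supp u) (supp u')
  refine ⟨by omega, by omega, ?_⟩
  rw [disjoint_iff_inter_eq_empty, ← card_eq_zero]
  omega

/-- low weight words in the coset `q` -/
noncomputable def fib (q : V ⧸ C) : Finset V :=
  (univ.filter fun u : V => hammingNorm u ≤ 4).filter fun u => (Submodule.Quotient.mk u : V ⧸ C) = q

/-- weights for the counting argument -/
def cw (u : V) : ℕ := if hammingNorm u ≤ 3 then 6 else 1

theorem mem_fib {q : V ⧸ C} {u : V} :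
    u ∈ fib C q ↔ hammingNorm u ≤ 4 ∧ (Submodule.Quotient.mk u : V ⧸ C) = q := by
  simp [fib]

include hmin in
theorem fib_cases (q : V ⧸ C) :
    (∃ u, fib C q = {u} ∧ hammingNorm u ≤ 3) ∨
      ((∀ u ∈ fib C q, hammingNorm u = 4) ∧ (fib C q).card ≤ 6 ∧
        ∀ u ∈ fib C q, ∀ u' ∈ fib C q, u ≠ u' → Disjoint (supp u) (supp u')) := by
  have hk : ∀ u ∈ fib C q, ∀ u' ∈ fib C q, u ≠ u' →
      hammingNorm u = 4 ∧ hammingNorm u' = 4 ∧ Disjoint (supp u) (supp u') := by
    intro u hu u' hu' hne
    obtain ⟨a1, a2⟩ := (mem_fib C).1 hu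
    obtain ⟨b1, b2⟩ := (mem_fib C).1 hu'
    exact key C hmin ((Submodule.Quotient.eq C).1 (a2.trans b2.symm)) hne a1 b1
  by_cases hex : ∃ u ∈ fib C q, hammingNorm u ≤ 3
  · left
    obtain ⟨u, hu, hu3⟩ := hex
    refine ⟨u, ?_, hu3⟩
    rw [eq_singleton_iff_unique_mem]
    refine ⟨hu, ?_⟩
    intro x hx
    by_contra hne
    have := (hk x hx u hu hne).2.1
    omega
  · right
    push_neg at hex
    have h4 : ∀ u ∈ fib C q, hammingNorm u = 4 := by
      intro u hu
      have := hex u hu
      have := ((mem_fib C).1 hu).1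
      omega
    refine ⟨h4, ?_, fun u hu u' hu' hne => (hk u hu u' hu' hne).2.2⟩
    have hd : ((fib C q : Finset V) : Set V).PairwiseDisjoint supp := by
      intro u hu u' hu' hne
      exact (hk u hu u' hu' hne).2.2
    have h5 := card_biUnion hd
    have h6 : ∑ u ∈ fib C q, (supp u).card = 4 * (fib C q).card := by
      rw [sum_congr rfl (fun u hu => show (supp u).card = 4 from h4 u hu), sum_const, smul_eq_mul, mul_comm]
    have h7 := card_le_univ ((fib C q).biUnion supp)
    rw [Fintype.card_fin] at h7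
    omega

include hmin in
theorem sum_fib_le (q : V ⧸ C) : ∑ u ∈ fib C q, cw u ≤ 6 := by
  rcases fib_cases C hmin q with ⟨u, hu, hu3⟩ | ⟨h4, h6, -⟩
  · rw [hu, sum_singleton, cw, if_pos hu3]
  · have : ∑ u ∈ fib C q, cw u = ∑ u ∈ fib C q, 1 := by
      apply sum_congr rfl
      intro u hu
      rw [cw, if_neg (by rw [h4 u hu]; norm_num)]
    rw [this, sum_const, smul_eq_mul, mul_one]; exact h6

theorem sum_low : ∑ u ∈ (univ.filter fun u : V => hammingNorm u ≤ 4), cw u = 24576 := by
  have hm : ∀ u ∈ (univ.filter fun u : V => hammingNorm u ≤ 4), hammingNorm u ∈ range 5 := by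
    intro u hu
    rw [mem_filter] at hu
    rw [mem_range]; omega
  rw [← sum_fiberwise_of_maps_to hm]
  have : ∀ j ∈ range 5, ∑ u ∈ (univ.filter fun u : V => hammingNorm u ≤ 4) with hammingNorm u = j, cw u =
      Nat.choose 24 j * (if j ≤ 3 then 6 else 1) := by
    intro j hj
    rw [mem_range] at hj
    have e : ((univ.filter fun u : V => hammingNorm u ≤ 4).filter fun u => hammingNorm u = j) =
        univ.filter fun u : V => hammingNorm u = j := by
      ext u
      simp only [mem_filter, mem_univ, true_and]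
      constructor
      · rintro ⟨_, h⟩; exact h
      · intro h; exact ⟨by omega, h⟩
    rw [e, ← card_norm_eq j, ← smul_eq_mul, ← sum_const]
    apply sum_congr rfl
    intro u hu
    rw [mem_filter] at hu
    rw [cw, hu.2]
  rw [sum_congr rfl this]
  simp only [sum_range_succ, sum_range_zero]
  norm_num [Nat.choose]

include hdim in
theorem card_quot : Fintype.card (V ⧸ C) = 4096 := by
  have h1 := Submodule.card_eq_card_quotient_mul_card C
  have h2 : Nat.card C = 2 ^ 12 := by
    haveI : Fintype C := Fintype.ofFinite C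
    rw [Nat.card_eq_fintype_card, Module.card_eq_pow_finrank (K := ZMod 2), hdim, ZMod.card]
  have h3 : Nat.card V = 2 ^ 24 := by
    rw [Nat.card_eq_fintype_card, Fintype.card_fun, ZMod.card, Fintype.card_fin]
  rw [h2, h3, Nat.card_eq_fintype_card] at h1
  omega

include hdim hmin in
theorem sum_fib_eq (q : V ⧸ C) : ∑ u ∈ fib C q, cw u = 6 := by
  have h1 : ∑ q : V ⧸ C, ∑ u ∈ fib C q, cw u = ∑ _q : V ⧸ C, 6 := by
    have := sum_fiberwise (univ.filter fun u : V => hammingNorm u ≤ 4)
      (fun u => (Submodule.Quotient.mk u : V ⧸ C)) cw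
    rw [sum_low] at this
    rw [sum_const, card_univ, card_quot C hdim]
    exact this
  exact (sum_eq_sum_iff_of_le (fun q _ => sum_fib_le C hmin q)).1 h1 q (mem_univ q)

include hdim hmin in
theorem fib_final (q : V ⧸ C) :
    (∃ u, fib C q = {u} ∧ hammingNorm u ≤ 3) ∨
      ((∀ u ∈ fib C q, hammingNorm u = 4) ∧ (fib C q).card = 6 ∧
        ∀ u ∈ fib C q, ∀ u' ∈ fib C q, u ≠ u' → Disjoint (supp u) (supp u')) := by
  rcases fib_cases C hmin q with h | ⟨h4, h6, hd⟩
  · exact Or.inl h
  · right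
    refine ⟨h4, ?_, hd⟩
    have h1 := sum_fib_eq C hdim hmin q
    have : ∑ u ∈ fib C q, cw u = ∑ u ∈ fib C q, 1 := by
      apply sum_congr rfl
      intro u hu
      rw [cw, if_neg (by rw [h4 u hu]; norm_num)]
    rw [this, sum_const, smul_eq_mul, mul_one] at h1
    exact h1

theorem coe_fib (w : V) :
    ((fib C (Submodule.Quotient.mk w) : Finset V) : Set V) = {u | u - w ∈ C ∧ hammingNorm u ≤ 4} := by
  ext u
  rw [mem_coe, mem_fib, Submodule.Quotient.eq]
  exact and_comm

include hdim hmin in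
theorem coset_leaders (w : V) :
    (∃ u : V, {u : V | u - w ∈ C ∧ hammingNorm u ≤ 4} = {u} ∧ hammingNorm u ≤ 3) ∨
      ({u : V | u - w ∈ C ∧ hammingNorm u ≤ 4}.ncard = 6 ∧
        ∀ u ∈ {u : V | u - w ∈ C ∧ hammingNorm u ≤ 4}, hammingNorm u = 4 ∧
          ∀ u' ∈ {u : V | u - w ∈ C ∧ hammingNorm u ≤ 4}, u ≠ u' → Disjoint (supp u) (supp u')) := by
  rw [← coe_fib C w]
  rcases fib_final C hdim hmin (Submodule.Quotient.mk w) with ⟨u, hu, hu3⟩ | ⟨h4, h6, hd⟩
  · left
    exact ⟨u, by rw [hu, coe_singleton], hu3⟩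
  · right
    refine ⟨by rw [Set.ncard_coe_finset]; exact h6, ?_⟩
    intro u hu
    exact ⟨h4 u hu, fun u' hu' hne => hd u hu u' hu' hne⟩

end

end Cfsg.Agent.Lib.Helper28.Code24
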