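/-
Abstract self-dual binary codes of length 24 and minimum weight at least 8: octads form a Steiner
system, span the code, and the code is doubly even.
-/
import Cfsg.Agent.Lib.Helper28.Code24a

set_option autoImplicit false

namespace Cfsg.Agent.Lib.Helper28.Code24

open Finset Cfsg

section

open scoped Classical

variable (C : Submodule (ZMod 2) V) (hdim : Module.finrank (ZMod 2) C = 12)
  (hmin : ∀ w ∈ C, w ≠ 0 → 8 ≤ hammingNorm w)

include hdim hmin in
theorem exists_octad {s : Finset (Fin 24)} (hs : s.card = 5) :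
    ∃ o ∈ C, hammingNorm o = 8 ∧ s ⊆ supp o := by
  have hne : s.Nonempty := by rw [← card_pos]; omega
  obtain ⟨x, hx⟩ := hne
  have hT : (s.erase x).card = 4 := by rw [card_erase_of_mem hx, hs]
  have hTm : ind (s.erase x) ∈ fib C (Submodule.Quotient.mk (ind (s.erase x))) := by
    rw [mem_fib]; exact ⟨by rw [norm_eq, supp_ind, hT], rfl⟩
  rcases fib_final C hdim hmin (Submodule.Quotient.mk (ind (s.erase x))) with ⟨u, hu, hu3⟩ | ⟨h4, h6, hd⟩
  · exfalso
    rw [hu, mem_singleton] at hTm
    rw [← hTm, norm_eq, supp_ind, hT] at hu3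
    omega
  · have hpd : ((fib C (Submodule.Quotient.mk (ind (s.erase x))) : Finset V) : Set V).PairwiseDisjoint supp := by
      intro u hu u' hu' hne
      exact hd u hu u' hu' hne
    have h5 := card_biUnion hpd
    rw [sum_congr rfl (fun u hu => show (supp u).card = 4 from h4 u hu), sum_const, smul_eq_mul, h6] at h5
    have huniv : (fib C (Submodule.Quotient.mk (ind (s.erase x)))).biUnion supp = univ := by
      apply eq_univ_of_card
      rw [h5, Fintype.card_fin]
    have hxu : x ∈ (fib C (Submodule.Quotient.mk (ind (s.erase x)))).biUnion supp := by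
      rw [huniv]; exact mem_univ x
    obtain ⟨u, hu, hxu⟩ := mem_biUnion.1 hxu
    have hune : u ≠ ind (s.erase x) := by
      intro h
      rw [h, supp_ind] at hxu
      exact (mem_erase.1 hxu).1 rfl
    have hdis := hd u hu _ hTm hune
    rw [supp_ind] at hdis
    have hmem : u - ind (s.erase x) ∈ C := (Submodule.Quotient.eq C).1 ((mem_fib C).1 hu).2
    have hsupp : supp (u - ind (s.erase x)) = supp u ∪ s.erase x := by
      rw [supp_sub, supp_ind]
      exact hdis.symmDiff_eq_sup
    refine ⟨_, hmem, ?_, ?_⟩
    · rw [norm_eq, hsupp, card_union_of_disjoint hdis, hT]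
      have := h4 u hu
      rw [norm_eq] at this
      omega
    · rw [hsupp]
      intro y hy
      by_cases hyx : y = x
      · rw [hyx]; exact mem_union_left _ hxu
      · exact mem_union_right _ (mem_erase.2 ⟨hyx, hy⟩)

include hmin in
theorem octad_unique {o o' : V} (ho : o ∈ C) (ho' : o' ∈ C) (h8 : hammingNorm o = 8)
    (h8' : hammingNorm o' = 8) {s : Finset (Fin 24)} (hs : s.card = 5) (h1 : s ⊆ supp o)
    (h2 : s ⊆ supp o') : o = o' := by
  by_contra hne
  have h3 := hmin _ (C.sub_mem ho ho') (sub_ne_zero.2 hne)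
  rw [norm_eq, supp_sub] at h3
  rw [norm_eq] at h8 h8'
  have h4 := card_symmDiff_add (supp o) (supp o')
  have h5 : s.card ≤ (supp o ∩ supp o').card := card_le_card (subset_inter h1 h2)
  omega

include hdim hmin in
theorem steiner : IsSteinerSystem 5 8 (wordsOfWeight (C : Set V) 8) := by
  refine ⟨fun b hb => hb.2, ?_⟩
  intro s hs
  obtain ⟨o, ho, h8, hso⟩ := exists_octad C hdim hmin hs
  refine ⟨supp o, ⟨⟨⟨o, ho, rfl⟩, h8⟩, hso⟩, ?_⟩
  rintro b ⟨⟨⟨o', ho', rfl⟩, h8'⟩, hso'⟩
  have : o' = o := octad_unique C hmin ho' ho h8' h8 hs hso' hso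
  rw [this]; rfl

/-- induction principle: every word is obtained from `0` by adding octads meeting it in at least 5 points -/
theorem z2_add_self (a : V) : a + a = 0 := by
  funext i
  have : ∀ x : ZMod 2, x + x = 0 := by decide
  exact this (a i)

include hdim hmin in
theorem code_induction {p : V → Prop} (h0 : p 0)
    (hstep : ∀ c ∈ C, ∀ o ∈ C, hammingNorm o = 8 → p (c + o) → p c) : ∀ c ∈ C, p c := by
  have : ∀ n : ℕ, ∀ c ∈ C, hammingNorm c = n → p c := by
    intro n
    induction n using Nat.strong_induction_on with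
    | _ n ih =>
      intro c hc hn
      by_cases hc0 : c = 0
      · rw [hc0]; exact h0
      · have h8 := hmin c hc hc0
        rw [norm_eq] at h8
        obtain ⟨s, hs, hs5⟩ := exists_subset_card_eq (s := supp c) (n := 5) (by omega)
        obtain ⟨o, ho, ho8, hso⟩ := exists_octad C hdim hmin hs5
        apply hstep c hc o ho ho8
        apply ih (hammingNorm (c + o)) _ (c + o) (C.add_mem hc ho) rfl
        rw [norm_eq, supp_add, ← hn, norm_eq]
        rw [norm_eq] at ho8
        have h4 := card_symmDiff_add (supp c) (supp o)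
        have h5 : s.card ≤ (supp c ∩ supp o).card := card_le_card (subset_inter hs hso)
        omega
  intro c hc
  exact this _ c hc rfl

include hdim hmin in
theorem span_octads : Submodule.span (ZMod 2) {w : V | w ∈ C ∧ hammingNorm w = 8} = C := by
  apply le_antisymm
  · rw [Submodule.span_le]
    intro w hw; exact hw.1
  · intro c hc
    refine code_induction C hdim hmin (p := fun c => c ∈ Submodule.span (ZMod 2) {w : V | w ∈ C ∧ hammingNorm w = 8})
      (Submodule.zero_mem _) ?_ c hc
    intro c _ o ho ho8 h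
    have : c = (c + o) + o := by rw [add_assoc, z2_add_self, add_zero]
    rw [this]
    exact Submodule.add_mem _ h (Submodule.subset_span ⟨ho, ho8⟩)

theorem dot_eq_card (a b : V) : ∑ i, a i * b i = ((supp a ∩ supp b).card : ZMod 2) := by
  have : ∀ i, a i * b i = if i ∈ supp a ∩ supp b then 1 else 0 := by
    intro i
    by_cases ha : a i = 0
    · simp [mem_supp, ha]
    · by_cases hb : b i = 0
      · simp [mem_supp, hb]
      · simp [mem_supp, ha, hb, (z2 _).1 ha, (z2 _).1 hb]
  rw [sum_congr rfl (fun i _ => this i), sum_boole]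
  congr 2
  ext i; simp

include hdim hmin in
theorem doubly_even (horth : ∀ v ∈ C, ∀ w ∈ C, ∑ i, v i * w i = 0) : ∀ w ∈ C, 4 ∣ hammingNorm w := by
  refine code_induction C hdim hmin (p := fun c => 4 ∣ hammingNorm c) (by simp) ?_
  intro c hc o ho ho8 h
  have h1 := horth c hc o ho
  rw [dot_eq_card, ZMod.natCast_eq_zero_iff] at h1
  rw [norm_eq, supp_add] at h
  rw [norm_eq] at ho8 ⊢
  have h4 := card_symmDiff_add (supp c) (supp o)
  omega

end

end Cfsg.Agent.Lib.Helper28.Code24
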