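/-
Uniqueness of the binary Golay code.
-/
import Cfsg.Agent.Lib.Helper28.Code24b
import Cfsg.Agent.Lib.Helper28.Stein3

set_option autoImplicit false

namespace Cfsg.Agent.Lib.Helper28.Code24

open Finset Cfsg Cfsg.Agent.Lib.Helper28

theorem z2_eq_of_ne_iff : ∀ a b : ZMod 2, (a ≠ 0 ↔ b ≠ 0) → a = b := by decide

theorem golay_unique (C : Submodule (ZMod 2) V) (hdim : Module.finrank (ZMod 2) C = 12)
    (hmin : ∀ w ∈ C, w ≠ 0 → 8 ≤ hammingNorm w) :
    ∃ e : Fin 24 ≃ GolayPt, ∀ w : GolayPt → ZMod 2, w ∈ golayCode ↔ (fun i => w (e i)) ∈ C := by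
  obtain ⟨e, he⟩ := Stein.iso24 (by simp : Fintype.card (Fin 24) = 24)
    (by decide : Fintype.card GolayPt = 24) (steiner C hdim hmin) octads_steiner
  refine ⟨e, ?_⟩
  -- the comap of `C`
  let T : (GolayPt → ZMod 2) →ₗ[ZMod 2] V := LinearMap.funLeft (ZMod 2) (ZMod 2) e
  have hT : ∀ w i, T w i = w (e i) := fun w i => rfl
  have h1 : ∀ w ∈ golayCode, T w ∈ C := by
    intro w hw
    have hw2 := (mem_golayCode_iff w).1 hw
    simp only [isCode, beq_iff_eq] at hw2
    rw [← ofMask_maskV w, ← hw2]
    have := ofMask_encAux_mem (C.comap T) basis ?_ (maskV w >>> 12)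
    · exact this
    · intro b hb
      obtain ⟨b1, b2, b3⟩ := Stein.basis_octads b hb
      have hb8 : unmask b ∈ octads := by
        rw [mem_octads_iff, card_eq_pc, mask_unmask b b1]
        exact ⟨b2, b3⟩
      rw [← he] at hb8
      obtain ⟨s, ⟨⟨c, hc, rfl⟩, -⟩, hs2⟩ := hb8
      show T (ofMask b) ∈ C
      have : T (ofMask b) = c := by
        funext i
        apply z2_eq_of_ne_iff
        rw [hT]
        have e1 : ofMask b (e i) ≠ 0 ↔ e i ∈ unmask b := by
          rw [← support₂_ofMask]; simp [support₂]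
        rw [e1, ← hs2]
        simp [support₂]
      rw [this]; exact hc
  have h2 : ∀ c ∈ C, (fun p => c (e.symm p)) ∈ golayCode := by
    intro c hc
    rw [← span_octads C hdim hmin] at hc
    induction hc using Submodule.span_induction with
    | mem c hc =>
      have ho : (supp c).image e ∈ octads := by
        rw [← he]; exact ⟨supp c, ⟨⟨c, hc.1, rfl⟩, hc.2⟩, rfl⟩
      obtain ⟨⟨g, hg, hg2⟩, -⟩ := ho
      have : (fun p => c (e.symm p)) = g := by
        funext p
        apply z2_eq_of_ne_iff
        have e1 : g p ≠ 0 ↔ p ∈ support₂ g := by simp [support₂]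
        rw [e1, hg2, mem_image]
        constructor
        · intro h; exact ⟨e.symm p, mem_supp.2 h, by simp⟩
        · rintro ⟨i, hi, rfl⟩
          rw [Equiv.symm_apply_apply]; exact mem_supp.1 hi
      rw [this]; exact hg
    | zero => exact golayCode.zero_mem
    | add x y _ _ hx hy => exact golayCode.add_mem hx hy
    | smul a x _ hx => exact golayCode.smul_mem a hx
  intro w
  constructor
  · intro hw; exact h1 w hw
  · intro hw
    have := h2 _ hw
    simpa using this

end Cfsg.Agent.Lib.Helper28.Code24
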