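/-
A kernel-checkable search machine for Steiner systems: a state consists of `m` labelled points,
a list `K` of completely known blocks (bit masks over the labels), and a current partially known
block (`I` = labels known to be in it, `O` = labels known to be outside).  A tape of tokens drives
the case analysis; `run_sound` says that a successful run proves that the system contains a
labelled copy of the standard list of blocks `Std`.
-/
import Mathlib
import Cfsg.Prelude.Def_Sporadic_a
import Cfsg.Agent.Lib.Helper28.GolayFast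
import Cfsg.Agent.Lib.Helper3.Steiner

set_option autoImplicit false

namespace Cfsg.Agent.Lib.Helper28.Stein

open Finset Cfsg Cfsg.Agent.Lib.Helper28

/-- the set of (the first 24) bits of a mask -/
def bits (I : ℕ) : Finset ℕ := (range 24).filter (fun i => I.testBit i = true)

theorem mem_bits {I i : ℕ} : i ∈ bits I ↔ i < 24 ∧ I.testBit i = true := by
  simp [bits]

theorem card_bits (I : ℕ) : (bits I).card = pc 24 I := by
  rw [pc_eq_sum, bits, card_filter]
  apply sum_congr rfl
  intro i _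
  cases I.testBit i <;> simp

theorem lt_of_testBit {I m i : ℕ} (hI : I < 2 ^ m) (h : I.testBit i = true) : i < m := by
  by_contra hc
  have h2 : I < 2 ^ i := lt_of_lt_of_le hI (Nat.pow_le_pow_right (by norm_num) (not_lt.1 hc))
  rw [Nat.testBit_lt_two_pow h2] at h
  cases h

/-- search state -/
structure St where
  m : ℕ
  K : List ℕ
  I : ℕ
  O : ℕ

/-- `i`-th entry of a list, `0` by default -/
def nth : List ℕ → ℕ → ℕ
  | [], _ => 0
  | a :: _, 0 => a
  | _ :: l, i + 1 => nth l i

theorem nth_mem (l : List ℕ) (i : ℕ) : nth l i ∈ l ∨ nth l i = 0 := by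
  induction l generalizing i with
  | nil => right; rfl
  | cons a l ih =>
    cases i with
    | zero => left; simp [nth]
    | succ i =>
      rcases ih i with h | h
      · left; simp [nth, h]
      · right; simpa [nth] using h

/-- the value of the packed permutation `σ` at `i` -/
def sg (σ i : ℕ) : ℕ := Nat.land (Nat.shiftRight σ (Nat.mul 5 i)) 31

/-- image of a mask under a packed permutation -/
def mapMask (σ s : ℕ) : ℕ :=
  (List.range 24).foldl (fun acc i => cond (s.testBit i) (Nat.lor acc (Nat.shiftLeft 1 (sg σ i))) acc) 0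

theorem testBit_foldl (σ s : ℕ) (l : List ℕ) (a j : ℕ) :
    (l.foldl (fun acc i => cond (s.testBit i) (Nat.lor acc (Nat.shiftLeft 1 (sg σ i))) acc) a).testBit j = true ↔
      a.testBit j = true ∨ ∃ i ∈ l, s.testBit i = true ∧ sg σ i = j := by
  induction l generalizing a with
  | nil => simp
  | cons x l ih =>
    rw [List.foldl_cons, ih]
    cases hx : s.testBit x with
    | false =>
      simp only [cond_false, List.mem_cons]
      constructor
      · rintro (h | ⟨i, hi, h1, h2⟩)
        · exact Or.inl h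
        · exact Or.inr ⟨i, Or.inr hi, h1, h2⟩
      · rintro (h | ⟨i, hi | hi, h1, h2⟩)
        · exact Or.inl h
        · subst hi; rw [hx] at h1; cases h1
        · exact Or.inr ⟨i, hi, h1, h2⟩
    | true =>
      simp only [cond_true, List.mem_cons]
      have e : (Nat.lor a (Nat.shiftLeft 1 (sg σ x))).testBit j = true ↔ a.testBit j = true ∨ sg σ x = j := by
        show (a ||| (1 <<< sg σ x)).testBit j = true ↔ _
        rw [Nat.testBit_or, Nat.one_shiftLeft, Nat.testBit_two_pow]
        simp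
      rw [e]
      constructor
      · rintro ((h | h) | ⟨i, hi, h1, h2⟩)
        · exact Or.inl h
        · exact Or.inr ⟨x, Or.inl rfl, hx, h⟩
        · exact Or.inr ⟨i, Or.inr hi, h1, h2⟩
      · rintro (h | ⟨i, hi | hi, h1, h2⟩)
        · exact Or.inl (Or.inl h)
        · subst hi; exact Or.inl (Or.inr h2)
        · exact Or.inr ⟨i, hi, h1, h2⟩

theorem testBit_mapMask (σ s j : ℕ) :
    (mapMask σ s).testBit j = true ↔ ∃ i < 24, s.testBit i = true ∧ sg σ i = j := by
  unfold mapMask
  rw [testBit_foldl]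
  simp

/-- call by value application (forces the kernel to evaluate `n` once) -/
def force {β : Type} (n : ℕ) (f : ℕ → β) : β := Nat.rec (f 0) (fun k _ => f (Nat.succ k)) n

theorem force_eq {β : Type} (n : ℕ) (f : ℕ → β) : force n f = f n := by
  cases n <;> rfl

/-- membership test -/
def memB (x : ℕ) : List ℕ → Bool
  | [] => false
  | a :: l => cond (Nat.beq x a) true (memB x l)

theorem memB_spec {x : ℕ} {l : List ℕ} (h : memB x l = true) : x ∈ l := by
  induction l with
  | nil => simp [memB] at h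
  | cons a l ih =>
    unfold memB at h
    cases hx : Nat.beq x a with
    | true => rw [Nat.eq_of_beq_eq_true hx]; exact List.mem_cons_self
    | false => rw [hx] at h; exact List.mem_cons_of_mem _ (ih h)

/-- bijectivity check for a packed permutation of `n` labels -/
def sgOK (σ n : ℕ) : Bool :=
  Nat.beq (mapMask σ (Nat.sub (Nat.pow 2 n) 1)) (Nat.sub (Nat.pow 2 n) 1)

theorem sgOK_spec {σ n : ℕ} (hn : n ≤ 24) (h : sgOK σ n = true) :
    (∀ i < n, sg σ i < n) ∧ ∀ i < n, ∀ j < n, sg σ i = sg σ j → i = j := by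
  have h1 : mapMask σ (2 ^ n - 1) = 2 ^ n - 1 := Nat.eq_of_beq_eq_true h
  have h2 : ∀ i < n, sg σ i < n := by
    intro i hi
    have : (mapMask σ (2 ^ n - 1)).testBit (sg σ i) = true :=
      (testBit_mapMask _ _ _).2 ⟨i, by omega, by rw [Nat.testBit_two_pow_sub_one]; simpa using hi, rfl⟩
    rw [h1, Nat.testBit_two_pow_sub_one] at this
    simpa using this
  refine ⟨h2, ?_⟩
  have hsurj : Function.Surjective (fun i : Fin n => (⟨sg σ i, h2 i i.2⟩ : Fin n)) := by
    intro j
    have : (mapMask σ (2 ^ n - 1)).testBit j = true := by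
      rw [h1, Nat.testBit_two_pow_sub_one]; simpa using j.2
    obtain ⟨i, _, hi2, hi3⟩ := (testBit_mapMask _ _ _).1 this
    rw [Nat.testBit_two_pow_sub_one] at hi2
    exact ⟨⟨i, by simpa using hi2⟩, Fin.ext hi3⟩
  have hinj := Finite.injective_iff_surjective.2 hsurj
  intro i hi j hj hij
  have := @hinj ⟨i, hi⟩ ⟨j, hj⟩ (Fin.ext hij)
  exact congrArg Fin.val this

/-- parameters -/
structure Par where
  t : ℕ
  k : ℕ
  n : ℕ
  Std : List ℕ

def clashOK (P : Par) (s : St) (a : ℕ) : Bool :=
  force (Nat.land s.I (nth s.K a)) fun x =>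
  Nat.ble P.t (pcF x) && (!(Nat.beq x s.I) || !(Nat.beq (Nat.land s.O (nth s.K a)) 0))

def doneOK (P : Par) (s : St) (σ : ℕ) : Bool :=
  Nat.beq s.m P.n && sgOK σ P.n && P.Std.all (fun c => force (mapMask σ c) fun x => memB x s.K)

/-- exclude all points that would force the current block to coincide with a known block -/
def prune (t I : ℕ) (K : List ℕ) (O : ℕ) : ℕ :=
  K.foldl (fun o c => cond (Nat.ble t (Nat.succ (pcF (Nat.land I c))) && !(Nat.beq (Nat.land I c) I))
    (Nat.lor o (Nat.xor c (Nat.land I c))) o) O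

/-- type of the machine (after the fuel argument) -/
abbrev Rec : Type := ℕ → List ℕ → List St → ℕ → List ℕ → ℕ → ℕ → Bool

def popS (rec : Rec) (cur : ℕ) (rest : List ℕ) : List St → Bool
  | [] => true
  | ⟨m', K', I', O'⟩ :: stk' => rec cur rest stk' m' K' I' O'

def opStart (P : Par) (rec : Rec) (a cur' : ℕ) (rest : List ℕ) (stk : List St) (m : ℕ) (K : List ℕ) : Bool :=
  Nat.blt a (Nat.pow 2 m) && Nat.beq (pcF a) P.t && rec cur' rest stk m K a 0

def opTest (rec : Rec) (a cur' : ℕ) (rest : List ℕ) (stk : List St) (m : ℕ) (K : List ℕ) (I O : ℕ) : Bool :=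
  Nat.blt a m &&
    force (Nat.lor O (Nat.pow 2 a)) fun O' => force (Nat.lor I (Nat.pow 2 a)) fun I' =>
      rec cur' rest (⟨m, K, I, O'⟩ :: stk) m K I' O

def opClash (P : Par) (rec : Rec) (a cur' : ℕ) (rest : List ℕ) (stk : List St) (m : ℕ) (K : List ℕ) (I O : ℕ) : Bool :=
  clashOK P ⟨m, K, I, O⟩ a && popS rec cur' rest stk

def opOver (P : Par) (rec : Rec) (cur' : ℕ) (rest : List ℕ) (stk : List St) (I : ℕ) : Bool :=
  Nat.blt P.k (pcF I) && popS rec cur' rest stk

def opUnder (P : Par) (rec : Rec) (cur' : ℕ) (rest : List ℕ) (stk : List St) (O : ℕ) : Bool :=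
  Nat.blt P.n (Nat.add P.k (pcF O)) && popS rec cur' rest stk

def opPush (P : Par) (rec : Rec) (cur' : ℕ) (rest : List ℕ) (stk : List St) (m : ℕ) (K : List ℕ) (I O : ℕ) : Bool :=
  Nat.beq (pcF I) P.k && rec cur' rest stk m (I :: K) I O

def opFresh (P : Par) (rec : Rec) (cur' : ℕ) (rest : List ℕ) (stk : List St) (m : ℕ) (K : List ℕ) (I O : ℕ) : Bool :=
  Nat.beq (Nat.lor I O) (Nat.sub (Nat.pow 2 m) 1) && Nat.blt (pcF I) P.k &&
    force (Nat.lor I (Nat.pow 2 m)) fun I' => force (Nat.succ m) fun m' => rec cur' rest stk m' K I' O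

def opNewpt (P : Par) (rec : Rec) (cur' : ℕ) (rest : List ℕ) (stk : List St) (m : ℕ) (K : List ℕ) (I O : ℕ) : Bool :=
  Nat.blt m P.n && force (Nat.succ m) fun m' => rec cur' rest stk m' K I O

def opDone (P : Par) (rec : Rec) (cur' : ℕ) (rest : List ℕ) (stk : List St) (m : ℕ) (K : List ℕ) (I O : ℕ) : Bool :=
  (force (Nat.land cur' 340282366920938463463374607431768211455) fun σ => doneOK P ⟨m, K, I, O⟩ σ) &&
    force (Nat.shiftRight cur' 128) fun cur'' => popS rec cur'' rest stk

def opPrune (P : Par) (rec : Rec) (cur' : ℕ) (rest : List ℕ) (stk : List St) (m : ℕ) (K : List ℕ) (I O : ℕ) : Bool :=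
  force (prune P.t I K O) fun O' => rec cur' rest stk m K I O'

def opFill (P : Par) (rec : Rec) (cur' : ℕ) (rest : List ℕ) (stk : List St) (m : ℕ) (K : List ℕ) (O : ℕ) : Bool :=
  Nat.beq m P.n && Nat.beq (Nat.add P.k (pcF O)) P.n &&
    force (Nat.xor (Nat.sub (Nat.pow 2 m) 1) O) fun I' => rec cur' rest stk m K I' O

def opTestN (rec : Rec) (a cur' : ℕ) (rest : List ℕ) (stk : List St) (m : ℕ) (K : List ℕ) (I O : ℕ) : Bool :=
  Nat.blt a m &&
    force (Nat.lor O (Nat.pow 2 a)) fun O' => force (Nat.lor I (Nat.pow 2 a)) fun I' =>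
      rec cur' rest (⟨m, K, I', O⟩ :: stk) m K I O'

/-- after relabelling by `σ`, the state `s` is a special case of the state `s'` -/
def symOK (s : St) (σ : ℕ) (s' : St) : Bool :=
  Nat.beq s'.m s.m && sgOK σ s.m && Nat.blt s'.I (Nat.pow 2 s.m) && Nat.blt s'.O (Nat.pow 2 s.m) &&
  s'.K.all (fun c => Nat.blt c (Nat.pow 2 s.m) && force (mapMask σ c) fun x => memB x s.K) &&
  (force (mapMask σ s'.I) fun x => Nat.beq (Nat.land x s.I) x) &&
  (force (mapMask σ s'.O) fun x => Nat.beq (Nat.land x s.O) x)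

def symAt (s : St) (σ : ℕ) : ℕ → List St → Bool
  | _, [] => false
  | 0, s' :: _ => symOK s σ s'
  | j + 1, _ :: l => symAt s σ j l

theorem symAt_spec {s : St} {σ : ℕ} {j : ℕ} {l : List St} (h : symAt s σ j l = true) :
    ∃ s' ∈ l, symOK s σ s' = true := by
  induction l generalizing j with
  | nil => simp [symAt] at h
  | cons a l ih =>
    cases j with
    | zero => exact ⟨a, List.mem_cons_self, h⟩
    | succ j =>
      obtain ⟨s', h1, h2⟩ := ih (j := j) h
      exact ⟨s', List.mem_cons_of_mem _ h1, h2⟩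

def opSym (rec : Rec) (a cur' : ℕ) (rest : List ℕ) (stk : List St) (m : ℕ) (K : List ℕ) (I O : ℕ) : Bool :=
  (force (Nat.land cur' 340282366920938463463374607431768211455) fun σ => symAt ⟨m, K, I, O⟩ σ a stk) &&
    force (Nat.shiftRight cur' 128) fun cur'' => popS rec cur'' rest stk

def dispatch (P : Par) (rec : Rec) (op a cur' : ℕ) (rest : List ℕ) (stk : List St) (m : ℕ) (K : List ℕ)
    (I O : ℕ) : Bool :=
  match op with
  | 0 => opStart P rec a cur' rest stk m K
  | 1 => opTest rec a cur' rest stk m K I O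
  | 2 => opClash P rec a cur' rest stk m K I O
  | 3 => opOver P rec cur' rest stk I
  | 4 => opUnder P rec cur' rest stk O
  | 5 => opPush P rec cur' rest stk m K I O
  | 6 => opFresh P rec cur' rest stk m K I O
  | 7 => opNewpt P rec cur' rest stk m K I O
  | 8 => opDone P rec cur' rest stk m K I O
  | 9 => opPrune P rec cur' rest stk m K I O
  | 10 => opFill P rec cur' rest stk m K O
  | 11 => opTestN rec a cur' rest stk m K I O
  | 12 => opSym rec a cur' rest stk m K I O
  | _ => false

def nextChunk (rec : Rec) (stk : List St) (m : ℕ) (K : List ℕ) (I O : ℕ) : List ℕ → Bool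
  | [] => false
  | c :: r => rec c r stk m K I O

def step (P : Par) (rec : Rec) : Rec := fun cur rest stk m K I O =>
  cond (Nat.ble cur 1) (nextChunk rec stk m K I O rest)
    (force (Nat.shiftRight cur 64) fun cur' =>
      force (Nat.land (Nat.shiftRight cur 4) 268435455) fun a =>
        dispatch P rec (Nat.land cur 15) a cur' rest stk m K I O)

/-- the machine -/
def run (P : Par) (fuel : ℕ) : Rec :=
  Nat.rec (fun _ _ _ _ _ _ _ => false) (fun _ ih => step P ih) fuel

section sound

variable {α : Type*} [Fintype α] [DecidableEq α]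

/-- image of a mask under a labelling -/
def img (f : ℕ → α) (I : ℕ) : Finset α := (bits I).image f

/-- a labelled copy of the list of blocks `L` inside `B` -/
def Frame (n : ℕ) (L : List ℕ) (B : Set (Finset α)) : Prop :=
  ∃ g : ℕ → α, (∀ i < n, ∀ j < n, g i = g j → i = j) ∧ ∀ c ∈ L, img g c ∈ B

structure Inv (B : Set (Finset α)) (f : ℕ → α) (s : St) (b : Finset α) : Prop where
  inj : ∀ i < s.m, ∀ j < s.m, f i = f j → i = j
  hK : ∀ c ∈ s.K, c < 2 ^ s.m ∧ img f c ∈ B
  hI : s.I < 2 ^ s.m
  hO : s.O < 2 ^ s.m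
  hb : b ∈ B
  hIb : ∀ i, s.I.testBit i = true → f i ∈ b
  hOb : ∀ i, s.O.testBit i = true → f i ∉ b

variable (P : Par) (B : Set (Finset α))

/-- a state is sound if every realisation of it yields the goal -/
def Snd (s : St) : Prop := ∀ f b, Inv B f s b → Frame P.n P.Std B

variable {P B}
variable (hB : IsSteinerSystem P.t P.k B) (hα : Fintype.card α = P.n) (hn : P.n ≤ 24) (ht : 1 ≤ P.t)

include hα in
theorem m_le {f : ℕ → α} {m : ℕ} (inj : ∀ i < m, ∀ j < m, f i = f j → i = j) : m ≤ P.n := by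
  have h1 : ((range m).image f).card = m := by
    rw [card_image_of_injOn, card_range]
    intro i hi j hj hij
    exact inj i (by simpa using hi) j (by simpa using hj) hij
  rw [← h1, ← hα]
  exact card_le_univ _

include hα hn in
theorem lt24 {f : ℕ → α} {m c : ℕ} (inj : ∀ i < m, ∀ j < m, f i = f j → i = j) (hc : c < 2 ^ m) :
    c < 2 ^ 24 :=
  lt_of_lt_of_le hc (Nat.pow_le_pow_right (by norm_num) ((m_le hα inj).trans hn))

theorem card_img {f : ℕ → α} {m c : ℕ} (inj : ∀ i < m, ∀ j < m, f i = f j → i = j) (hc : c < 2 ^ m) :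
    (img f c).card = pc 24 c := by
  rw [img, card_image_of_injOn, card_bits]
  intro i hi j hj hij
  exact inj i (lt_of_testBit hc (mem_bits.1 hi).2) j (lt_of_testBit hc (mem_bits.1 hj).2) hij

include hα hn in
theorem mem_img {f : ℕ → α} {m c i : ℕ} (inj : ∀ i < m, ∀ j < m, f i = f j → i = j) (hc : c < 2 ^ m)
    (h : c.testBit i = true) : f i ∈ img f c :=
  mem_image_of_mem f (mem_bits.2 ⟨lt_of_lt_of_le (lt_of_testBit hc h) ((m_le hα inj).trans hn), h⟩)

theorem img_subset {f : ℕ → α} {c : ℕ} {b : Finset α} (h : ∀ i, c.testBit i = true → f i ∈ b) :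
    img f c ⊆ b := by
  intro x hx
  obtain ⟨i, hi, rfl⟩ := mem_image.1 hx
  exact h i (mem_bits.1 hi).2

include hB hα hn in
theorem snd_start {s : St} {a : ℕ} (h1 : a < 2 ^ s.m) (h2 : pcF a = P.t)
    (h : Snd P B ⟨s.m, s.K, a, 0⟩) : Snd P B s := by
  intro f b hi
  have hc : (img f a).card = P.t := by
    rw [card_img hi.inj h1, ← pcF_eq (lt24 hα hn hi.inj h1), h2]
  obtain ⟨b', ⟨hb', hs⟩, -⟩ := hB.2 _ hc
  refine h f b' ⟨hi.inj, hi.hK, h1, Nat.pow_pos (by norm_num), hb', ?_, ?_⟩
  · intro i hia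
    exact hs (mem_img hα hn hi.inj h1 hia)
  · intro i hia
    simp at hia

theorem testBit_lor_pow (I p i : ℕ) :
    (Nat.lor I (2 ^ p)).testBit i = true ↔ I.testBit i = true ∨ p = i := by
  show (I ||| 2 ^ p).testBit i = true ↔ _
  rw [Nat.testBit_or, Nat.testBit_two_pow]
  simp

theorem lor_pow_lt {I p m : ℕ} (hI : I < 2 ^ m) (hp : p < m) : Nat.lor I (2 ^ p) < 2 ^ m :=
  Nat.or_lt_two_pow hI (Nat.pow_lt_pow_right (by norm_num) hp)

theorem snd_test {s : St} {a : ℕ} (h1 : a < s.m)
    (hy : Snd P B ⟨s.m, s.K, Nat.lor s.I (2 ^ a), s.O⟩)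
    (hnn : Snd P B ⟨s.m, s.K, s.I, Nat.lor s.O (2 ^ a)⟩) : Snd P B s := by
  intro f b hi
  by_cases hab : f a ∈ b
  · refine hy f b ⟨hi.inj, hi.hK, lor_pow_lt hi.hI h1, hi.hO, hi.hb, ?_, hi.hOb⟩
    intro i h
    rcases (testBit_lor_pow _ _ _).1 h with h | h
    · exact hi.hIb i h
    · rw [← h]; exact hab
  · refine hnn f b ⟨hi.inj, hi.hK, hi.hI, lor_pow_lt hi.hO h1, hi.hb, hi.hIb, ?_⟩
    intro i h
    rcases (testBit_lor_pow _ _ _).1 h with h | h
    · exact hi.hOb i h
    · rw [← h]; exact hab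

include hB hα hn ht in
theorem snd_clash {s : St} {a : ℕ} (h : clashOK P s a = true) : Snd P B s := by
  intro f b hi
  exfalso
  unfold clashOK at h
  rw [force_eq, Bool.and_eq_true] at h
  obtain ⟨h1, h2⟩ := h
  have h1 := Nat.le_of_ble_eq_true h1
  set c := nth s.K a with hc
  have hIc : Nat.land s.I c < 2 ^ s.m := lt_of_le_of_lt Nat.and_le_left hi.hI
  rw [pcF_eq (lt24 hα hn hi.inj hIc)] at h1
  have hcK : c ∈ s.K := by
    rcases nth_mem s.K a with h | h
    · exact h
    · exfalso
      rw [← hc] at h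
      rw [h] at h1
      have : Nat.land s.I 0 = 0 := Nat.and_zero _
      rw [this] at h1
      have : pc 24 0 = 0 := by decide
      omega
  obtain ⟨hc1, hc2⟩ := hi.hK c hcK
  have tb : ∀ i, (Nat.land s.I c).testBit i = (s.I.testBit i && c.testBit i) := fun i => Nat.testBit_and _ _ _
  have hsub : img f (Nat.land s.I c) ⊆ img f c ∩ b := by
    apply img_subset
    intro i h
    rw [tb, Bool.and_eq_true] at h
    exact mem_inter.2 ⟨mem_img hα hn hi.inj hc1 h.2, hi.hIb i h.1⟩
  have hcard : P.t ≤ (img f c ∩ b).card := by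
    refine le_trans ?_ (card_le_card hsub)
    rw [card_img hi.inj hIc]; exact h1
  have heq : img f c = b := Cfsg.Agent.Lib.Helper3.eq_of_le_card_inter hB hi.hb hc2 hcard
  rw [Bool.or_eq_true] at h2
  rcases h2 with h2 | h2
  · have hne : Nat.land s.I c ≠ s.I := by
      intro h
      rw [h] at h2
      simp at h2
    apply hne
    apply Nat.eq_of_testBit_eq
    intro i
    rw [tb]
    cases hIi : s.I.testBit i with
    | false => simp
    | true =>
      have : f i ∈ img f c := by rw [heq]; exact hi.hIb i hIi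
      obtain ⟨j, hj, hji⟩ := mem_image.1 this
      have hj2 := (mem_bits.1 hj).2
      have := hi.inj j (lt_of_testBit hc1 hj2) i (lt_of_testBit hi.hI hIi) hji
      rw [← this, hj2]; rfl
  · have hne : Nat.land s.O c ≠ 0 := by
      intro h
      rw [h] at h2
      simp at h2
    apply hne
    apply Nat.eq_of_testBit_eq
    intro i
    have tb2 : (Nat.land s.O c).testBit i = (s.O.testBit i && c.testBit i) := Nat.testBit_and _ _ _
    rw [tb2, Nat.zero_testBit]
    cases hOi : s.O.testBit i with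
    | false => simp
    | true =>
      cases hci : c.testBit i with
      | false => simp
      | true =>
        exfalso
        apply hi.hOb i hOi
        rw [← heq]
        exact mem_img hα hn hi.inj hc1 hci

include hB hα hn in
theorem snd_over {s : St} (h : P.k < pcF s.I) : Snd P B s := by
  intro f b hi
  exfalso
  rw [pcF_eq (lt24 hα hn hi.inj hi.hI), ← card_img hi.inj hi.hI] at h
  have := card_le_card (img_subset hi.hIb)
  rw [hB.1 b hi.hb] at this
  omega

include hB hα hn in
theorem snd_under {s : St} (h : P.n < P.k + pcF s.O) : Snd P B s := by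
  intro f b hi
  exfalso
  rw [pcF_eq (lt24 hα hn hi.inj hi.hO), ← card_img hi.inj hi.hO, ← hB.1 b hi.hb] at h
  have hd : Disjoint b (img f s.O) := by
    rw [disjoint_left]
    intro x hx hx2
    obtain ⟨i, hi2, rfl⟩ := mem_image.1 hx2
    exact hi.hOb i (mem_bits.1 hi2).2 hx
  have := card_le_univ (b ∪ img f s.O)
  rw [card_union_of_disjoint hd, hα] at this
  omega

include hB hα hn in
theorem snd_push {s : St} (h1 : pcF s.I = P.k) (h : Snd P B ⟨s.m, s.I :: s.K, s.I, s.O⟩) :
    Snd P B s := by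
  intro f b hi
  have heq : img f s.I = b := by
    apply eq_of_subset_of_card_le (img_subset hi.hIb)
    rw [card_img hi.inj hi.hI, ← pcF_eq (lt24 hα hn hi.inj hi.hI), h1, hB.1 b hi.hb]
  refine h f b ⟨hi.inj, ?_, hi.hI, hi.hO, hi.hb, hi.hIb, hi.hOb⟩
  intro c hc
  rcases List.mem_cons.1 hc with h | h
  · rw [h]; exact ⟨hi.hI, by rw [heq]; exact hi.hb⟩
  · exact hi.hK c h

theorem img_update {f : ℕ → α} {m c : ℕ} (x : α) (hc : c < 2 ^ m) :
    img (Function.update f m x) c = img f c := by
  unfold img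
  apply image_congr
  intro i hi
  have : i < m := lt_of_testBit hc (mem_bits.1 hi).2
  exact Function.update_of_ne (by omega) _ _

theorem inj_update {f : ℕ → α} {m : ℕ} (inj : ∀ i < m, ∀ j < m, f i = f j → i = j) {x : α}
    (hx : ∀ i < m, f i ≠ x) :
    ∀ i < m + 1, ∀ j < m + 1, Function.update f m x i = Function.update f m x j → i = j := by
  intro i hi j hj hij
  by_cases h1 : i = m
  · by_cases h2 : j = m
    · omega
    · exfalso
      rw [h1, Function.update_self, Function.update_of_ne h2] at hij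
      exact hx j (by omega) hij.symm
  · by_cases h2 : j = m
    · exfalso
      rw [h2, Function.update_self, Function.update_of_ne h1] at hij
      exact hx i (by omega) hij
    · rw [Function.update_of_ne h1, Function.update_of_ne h2] at hij
      exact inj i (by omega) j (by omega) hij

theorem lt_succ_pow {c m : ℕ} (h : c < 2 ^ m) : c < 2 ^ (m + 1) :=
  lt_of_lt_of_le h (Nat.pow_le_pow_right (by norm_num) (by omega))

include hB hα hn in
theorem snd_fresh {s : St} (h1 : Nat.lor s.I s.O = 2 ^ s.m - 1) (h2 : pcF s.I < P.k)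
    (h : Snd P B ⟨s.m + 1, s.K, Nat.lor s.I (2 ^ s.m), s.O⟩) : Snd P B s := by
  intro f b hi
  have hlt : (img f s.I).card < b.card := by
    rw [card_img hi.inj hi.hI, ← pcF_eq (lt24 hα hn hi.inj hi.hI), hB.1 b hi.hb]; exact h2
  obtain ⟨x, hxb, hx⟩ := exists_mem_notMem_of_card_lt_card hlt
  have hxf : ∀ i < s.m, f i ≠ x := by
    intro i him hfi
    have : (Nat.lor s.I s.O).testBit i = true := by
      rw [h1, Nat.testBit_two_pow_sub_one]; simpa using him
    have e : (Nat.lor s.I s.O).testBit i = (s.I.testBit i || s.O.testBit i) := Nat.testBit_or _ _ _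
    rw [e, Bool.or_eq_true] at this
    rcases this with h | h
    · apply hx; rw [← hfi]; exact mem_img hα hn hi.inj hi.hI h
    · apply hi.hOb i h; rw [hfi]; exact hxb
  refine h (Function.update f s.m x) b ⟨inj_update hi.inj hxf, ?_, ?_, lt_succ_pow hi.hO, hi.hb, ?_, ?_⟩
  · intro c hc
    obtain ⟨a1, a2⟩ := hi.hK c hc
    exact ⟨lt_succ_pow a1, by rw [img_update x a1]; exact a2⟩
  · exact lor_pow_lt (lt_succ_pow hi.hI) (by show s.m < s.m + 1; omega)
  · intro i hii
    rcases (testBit_lor_pow _ _ _).1 hii with h | h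
    · have : i < s.m := lt_of_testBit hi.hI h
      rw [Function.update_of_ne (by omega)]; exact hi.hIb i h
    · rw [← h, Function.update_self]; exact hxb
  · intro i hii
    have : i < s.m := lt_of_testBit hi.hO hii
    rw [Function.update_of_ne (by omega)]; exact hi.hOb i hii

include hα in
theorem snd_newpt {s : St} (h1 : s.m < P.n)
    (h : Snd P B ⟨s.m + 1, s.K, s.I, s.O⟩) : Snd P B s := by
  intro f b hi
  have hlt : ((range s.m).image f).card < (univ : Finset α).card := by
    refine lt_of_le_of_lt card_image_le ?_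
    rw [card_range, card_univ, hα]; exact h1
  obtain ⟨x, -, hx⟩ := exists_mem_notMem_of_card_lt_card hlt
  have hxf : ∀ i < s.m, f i ≠ x := by
    intro i him hfi
    apply hx; rw [← hfi]; exact mem_image_of_mem f (mem_range.2 him)
  refine h (Function.update f s.m x) b ⟨inj_update hi.inj hxf, ?_, lt_succ_pow hi.hI, lt_succ_pow hi.hO, hi.hb, ?_, ?_⟩
  · intro c hc
    obtain ⟨a1, a2⟩ := hi.hK c hc
    exact ⟨lt_succ_pow a1, by rw [img_update x a1]; exact a2⟩
  · intro i hii
    have : i < s.m := lt_of_testBit hi.hI hii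
    rw [Function.update_of_ne (by omega)]; exact hi.hIb i hii
  · intro i hii
    have : i < s.m := lt_of_testBit hi.hO hii
    rw [Function.update_of_ne (by omega)]; exact hi.hOb i hii

include hn in
theorem snd_done {s : St} {σ : ℕ} (h : doneOK P s σ = true) (hStd : ∀ c ∈ P.Std, c < 2 ^ P.n) :
    Snd P B s := by
  intro f b hi
  unfold doneOK at h
  rw [Bool.and_eq_true, Bool.and_eq_true] at h
  obtain ⟨⟨h1, h2⟩, h3⟩ := h
  have hm : s.m = P.n := Nat.eq_of_beq_eq_true h1
  obtain ⟨g1, g2⟩ := sgOK_spec hn h2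
  refine ⟨fun i => f (sg σ i), ?_, ?_⟩
  · intro i hi' j hj hij
    exact g2 i hi' j hj (hi.inj _ (hm ▸ g1 i hi') _ (hm ▸ g1 j hj) hij)
  · intro c hc
    rw [List.all_eq_true] at h3
    have h4 := h3 c hc
    have h5 : mapMask σ c ∈ s.K := by rw [force_eq] at h4; exact memB_spec h4
    have h6 := (hi.hK _ h5).2
    have : img (fun i => f (sg σ i)) c = img f (mapMask σ c) := by
      ext x
      unfold img
      simp only [mem_image, mem_bits]
      constructor
      · rintro ⟨i, ⟨hi1, hi2⟩, rfl⟩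
        have hin : i < P.n := lt_of_testBit (hStd c hc) hi2
        exact ⟨sg σ i, ⟨lt_of_lt_of_le (g1 i hin) hn, (testBit_mapMask _ _ _).2 ⟨i, hi1, hi2, rfl⟩⟩, rfl⟩
      · rintro ⟨j, ⟨hj1, hj2⟩, rfl⟩
        obtain ⟨i, hi1, hi2, rfl⟩ := (testBit_mapMask _ _ _).1 hj2
        exact ⟨i, ⟨hi1, hi2⟩, rfl⟩
    rw [this]; exact h6

include hB hα hn in
theorem inv_excl {s : St} {f : ℕ → α} {b : Finset α} (hi : Inv B f s b) {o c : ℕ} (hc : c ∈ s.K)
    (ho : o < 2 ^ s.m) (hob : ∀ i, o.testBit i = true → f i ∉ b)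
    (h1 : P.t ≤ pcF (Nat.land s.I c) + 1) (h2 : Nat.land s.I c ≠ s.I) :
    Nat.lor o (Nat.xor c (Nat.land s.I c)) < 2 ^ s.m ∧
      ∀ i, (Nat.lor o (Nat.xor c (Nat.land s.I c))).testBit i = true → f i ∉ b := by
  obtain ⟨hc1, hc2⟩ := hi.hK c hc
  have hIc : Nat.land s.I c < 2 ^ s.m := lt_of_le_of_lt Nat.and_le_left hi.hI
  refine ⟨Nat.or_lt_two_pow ho (Nat.xor_lt_two_pow hc1 hIc), ?_⟩
  intro i hii hfb
  have e : (Nat.lor o (Nat.xor c (Nat.land s.I c))).testBit i =
      (o.testBit i || (c.testBit i ^^ (s.I.testBit i && c.testBit i))) := by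
    show (o ||| (c ^^^ (s.I &&& c))).testBit i = _
    rw [Nat.testBit_or, Nat.testBit_xor, Nat.testBit_and]
  rw [e, Bool.or_eq_true] at hii
  rcases hii with hii | hii
  · exact hob i hii hfb
  · have hci : c.testBit i = true := by
      cases h : c.testBit i with
      | true => rfl
      | false => rw [h] at hii; simp at hii
    have hIi : s.I.testBit i = false := by
      cases h : s.I.testBit i with
      | false => rfl
      | true => rw [h, hci] at hii; simp at hii
    rw [pcF_eq (lt24 hα hn hi.inj hIc)] at h1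
    have tb : ∀ i, (Nat.land s.I c).testBit i = (s.I.testBit i && c.testBit i) :=
      fun i => Nat.testBit_and _ _ _
    have hsub : insert (f i) (img f (Nat.land s.I c)) ⊆ img f c ∩ b := by
      intro x hx
      rcases mem_insert.1 hx with hx | hx
      · rw [hx]; exact mem_inter.2 ⟨mem_img hα hn hi.inj hc1 hci, hfb⟩
      · refine img_subset (c := Nat.land s.I c) ?_ hx
        intro j h
        rw [tb, Bool.and_eq_true] at h
        exact mem_inter.2 ⟨mem_img hα hn hi.inj hc1 h.2, hi.hIb j h.1⟩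
    have hnot : f i ∉ img f (Nat.land s.I c) := by
      intro h
      obtain ⟨j, hj, hji⟩ := mem_image.1 h
      have hj2 := (mem_bits.1 hj).2
      have := hi.inj j (lt_of_testBit hIc hj2) i (lt_of_testBit hc1 hci) hji
      rw [this, tb, hIi] at hj2
      simp at hj2
    have hcard : P.t ≤ (img f c ∩ b).card := by
      refine le_trans ?_ (card_le_card hsub)
      rw [card_insert_of_notMem hnot, card_img hi.inj hIc]; exact h1
    have heq : img f c = b := Cfsg.Agent.Lib.Helper3.eq_of_le_card_inter hB hi.hb hc2 hcard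
    apply h2
    apply Nat.eq_of_testBit_eq
    intro j
    rw [tb]
    cases hIj : s.I.testBit j with
    | false => simp
    | true =>
      have : f j ∈ img f c := by rw [heq]; exact hi.hIb j hIj
      obtain ⟨l, hl, hlj⟩ := mem_image.1 this
      have hl2 := (mem_bits.1 hl).2
      have := hi.inj l (lt_of_testBit hc1 hl2) j (lt_of_testBit hi.hI hIj) hlj
      rw [← this, hl2]; rfl

include hB hα hn in
theorem snd_prune {s : St} (h : Snd P B ⟨s.m, s.K, s.I, prune P.t s.I s.K s.O⟩) : Snd P B s := by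
  intro f b hi
  have key : ∀ (L : List ℕ) (o : ℕ), (∀ c ∈ L, c ∈ s.K) → o < 2 ^ s.m →
      (∀ i, o.testBit i = true → f i ∉ b) →
      prune P.t s.I L o < 2 ^ s.m ∧ ∀ i, (prune P.t s.I L o).testBit i = true → f i ∉ b := by
    intro L
    induction L with
    | nil => intro o _ h1 h2; exact ⟨h1, h2⟩
    | cons c L ih =>
      intro o hL h1 h2
      unfold prune
      rw [List.foldl_cons]
      cases hcond : (Nat.ble P.t (Nat.succ (pcF (Nat.land s.I c))) && !(Nat.beq (Nat.land s.I c) s.I)) with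
      | false =>
        simp only [cond_false]
        exact ih o (fun c' hc' => hL c' (List.mem_cons_of_mem _ hc')) h1 h2
      | true =>
        simp only [cond_true]
        rw [Bool.and_eq_true] at hcond
        have hne : Nat.land s.I c ≠ s.I := by
          intro h
          have h3 := hcond.2
          rw [h] at h3
          simp at h3
        obtain ⟨a1, a2⟩ := inv_excl hB hα hn hi (hL c List.mem_cons_self) h1 h2
          (Nat.le_of_ble_eq_true hcond.1) hne
        exact ih _ (fun c' hc' => hL c' (List.mem_cons_of_mem _ hc')) a1 a2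
  obtain ⟨k1, k2⟩ := key s.K s.O (fun _ h => h) hi.hO hi.hOb
  exact h f b ⟨hi.inj, hi.hK, hi.hI, k1, hi.hb, hi.hIb, k2⟩

theorem lt_of_blt {a b : ℕ} (h : Nat.blt a b = true) : a < b := Nat.le_of_ble_eq_true h

include hB hα hn in
theorem snd_fill {s : St} (h1 : s.m = P.n) (h2 : P.k + pcF s.O = P.n)
    (h : Snd P B ⟨s.m, s.K, Nat.xor (Nat.sub (Nat.pow 2 s.m) 1) s.O, s.O⟩) : Snd P B s := by
  intro f b hi
  have hpos : 0 < 2 ^ s.m := Nat.pow_pos (by norm_num)
  have hlt : Nat.sub (Nat.pow 2 s.m) 1 < 2 ^ s.m := by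
    show 2 ^ s.m - 1 < 2 ^ s.m
    omega
  refine h f b ⟨hi.inj, hi.hK, Nat.xor_lt_two_pow hlt hi.hO, hi.hO, hi.hb, ?_, hi.hOb⟩
  intro i hii
  have e : (Nat.xor (Nat.sub (Nat.pow 2 s.m) 1) s.O).testBit i =
      ((2 ^ s.m - 1).testBit i ^^ s.O.testBit i) := Nat.testBit_xor _ _ _
  rw [e, Nat.testBit_two_pow_sub_one] at hii
  have him : i < s.m := by
    by_contra hc
    have h0 : s.O.testBit i = false := by
      cases h : s.O.testBit i with
      | false => rfl
      | true => exact absurd (lt_of_testBit hi.hO h) hc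
    rw [h0] at hii
    simp [hc] at hii
  have hOi : s.O.testBit i = false := by
    cases h : s.O.testBit i with
    | false => rfl
    | true => rw [h] at hii; simp [him] at hii
  have hd : b ⊆ univ \ img f s.O := by
    intro x hx
    rw [mem_sdiff]
    refine ⟨mem_univ _, ?_⟩
    intro hx2
    obtain ⟨j, hj, rfl⟩ := mem_image.1 hx2
    exact hi.hOb j (mem_bits.1 hj).2 hx
  have hcard : (univ \ img f s.O).card ≤ b.card := by
    rw [card_sdiff_of_subset (subset_univ _), card_univ, hα, card_img hi.inj hi.hO,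
      ← pcF_eq (lt24 hα hn hi.inj hi.hO), hB.1 b hi.hb]
    omega
  have heq := eq_of_subset_of_card_le hd hcard
  rw [heq, mem_sdiff]
  refine ⟨mem_univ _, ?_⟩
  intro hx2
  obtain ⟨j, hj, hji⟩ := mem_image.1 hx2
  have hj2 := (mem_bits.1 hj).2
  have := hi.inj j (lt_of_testBit hi.hO hj2) i him hji
  rw [this, hOi] at hj2
  cases hj2

theorem img_comp_sg {f : ℕ → α} {σ c m : ℕ} (hm : m ≤ 24) (g1 : ∀ i < m, sg σ i < m) (hc : c < 2 ^ m) :
    img (fun i => f (sg σ i)) c = img f (mapMask σ c) := by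
  ext x
  unfold img
  simp only [mem_image, mem_bits]
  constructor
  · rintro ⟨i, ⟨hi1, hi2⟩, rfl⟩
    have hin : i < m := lt_of_testBit hc hi2
    exact ⟨sg σ i, ⟨lt_of_lt_of_le (g1 i hin) hm, (testBit_mapMask _ _ _).2 ⟨i, hi1, hi2, rfl⟩⟩, rfl⟩
  · rintro ⟨j, ⟨hj1, hj2⟩, rfl⟩
    obtain ⟨i, hi1, hi2, rfl⟩ := (testBit_mapMask _ _ _).1 hj2
    exact ⟨i, ⟨hi1, hi2⟩, rfl⟩

include hα hn in
theorem snd_sym {s s' : St} {σ : ℕ} (h : symOK s σ s' = true) (hs' : Snd P B s') : Snd P B s := by
  intro f b hi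
  unfold symOK at h
  simp only [Bool.and_eq_true, force_eq] at h
  obtain ⟨⟨⟨⟨⟨⟨h1, h2⟩, h3⟩, h4⟩, h5⟩, h6⟩, h7⟩ := h
  have hm : s'.m = s.m := Nat.eq_of_beq_eq_true h1
  have hm24 : s.m ≤ 24 := (m_le hα hi.inj).trans hn
  obtain ⟨g1, g2⟩ := sgOK_spec hm24 h2
  have h3 : s'.I < 2 ^ s.m := lt_of_blt h3
  have h4 : s'.O < 2 ^ s.m := lt_of_blt h4
  have sub : ∀ {x y : ℕ}, Nat.beq (Nat.land x y) x = true → ∀ i, x.testBit i = true → y.testBit i = true := by
    intro x y hxy i hx
    have e := Nat.eq_of_beq_eq_true hxy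
    have e2 : (Nat.land x y).testBit i = (x.testBit i && y.testBit i) := Nat.testBit_and _ _ _
    rw [e, hx] at e2
    simpa using e2.symm
  refine hs' (fun i => f (sg σ i)) b ⟨?_, ?_, hm ▸ h3, hm ▸ h4, hi.hb, ?_, ?_⟩
  · intro i hi' j hj hij
    rw [hm] at hi' hj
    exact g2 i hi' j hj (hi.inj _ (g1 i hi') _ (g1 j hj) hij)
  · intro c hc
    rw [List.all_eq_true] at h5
    have h8 := h5 c hc
    rw [Bool.and_eq_true] at h8
    have hc2 : c < 2 ^ s.m := lt_of_blt h8.1
    refine ⟨hm ▸ hc2, ?_⟩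
    rw [img_comp_sg hm24 g1 hc2]
    exact (hi.hK _ (memB_spec h8.2)).2
  · intro i hii
    have him : i < s.m := lt_of_testBit h3 hii
    exact hi.hIb _ (sub h6 _ ((testBit_mapMask _ _ _).2 ⟨i, by omega, hii, rfl⟩))
  · intro i hii
    have him : i < s.m := lt_of_testBit h4 hii
    exact hi.hOb _ (sub h7 _ ((testBit_mapMask _ _ _).2 ⟨i, by omega, hii, rfl⟩))

/-- the property of the machine that is proved by induction on the fuel -/
def Good (P : Par) (B : Set (Finset α)) (rec : Rec) : Prop :=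
  ∀ (cur : ℕ) (rest : List ℕ) (stk : List St) (m : ℕ) (K : List ℕ) (I O : ℕ),
    rec cur rest stk m K I O = true → Snd P B ⟨m, K, I, O⟩ ∧ ∀ s' ∈ stk, Snd P B s'

theorem pop_good {rec : Rec} (ih : Good P B rec) {cur : ℕ} {rest : List ℕ} {stk : List St}
    (h : popS rec cur rest stk = true) : ∀ s' ∈ stk, Snd P B s' := by
  cases stk with
  | nil => intro s' hs'; simp at hs'
  | cons s1 stk' =>
    obtain ⟨m1, K1, I1, O1⟩ := s1
    have := ih _ _ _ _ _ _ _ h
    intro s' hs'
    rcases List.mem_cons.1 hs' with h | h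
    · rw [h]; exact this.1
    · exact this.2 s' h

include hB hα hn ht in
theorem step_good (hStd : ∀ c ∈ P.Std, c < 2 ^ P.n) {rec : Rec} (ih : Good P B rec) :
    Good P B (step P rec) := by
  intro cur rest stk m K I O h
  unfold step at h
  cases hcur : Nat.ble cur 1 with
  | true =>
    rw [hcur] at h
    simp only [cond_true] at h
    cases rest with
    | nil => simp [nextChunk] at h
    | cons c r => exact ih _ _ _ _ _ _ _ h
  | false =>
    rw [hcur] at h
    simp only [cond_false, force_eq] at h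
    unfold dispatch at h
    split at h
    · unfold opStart at h
      rw [Bool.and_eq_true, Bool.and_eq_true] at h
      obtain ⟨⟨h1, h2⟩, h3⟩ := h
      have := ih _ _ _ _ _ _ _ h3
      exact ⟨snd_start hB hα hn (s := ⟨m, K, I, O⟩) (lt_of_blt h1) (Nat.eq_of_beq_eq_true h2) this.1, this.2⟩
    · unfold opTest at h
      simp only [force_eq] at h
      rw [Bool.and_eq_true] at h
      obtain ⟨h1, h3⟩ := h
      have := ih _ _ _ _ _ _ _ h3
      exact ⟨snd_test (s := ⟨m, K, I, O⟩) (lt_of_blt h1) this.1 (this.2 _ (List.mem_cons_self)),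
        fun s' hs' => this.2 s' (List.mem_cons_of_mem _ hs')⟩
    · unfold opClash at h
      rw [Bool.and_eq_true] at h
      exact ⟨snd_clash hB hα hn ht h.1, pop_good ih h.2⟩
    · unfold opOver at h
      rw [Bool.and_eq_true] at h
      exact ⟨snd_over hB hα hn (s := ⟨m, K, I, O⟩) (lt_of_blt h.1), pop_good ih h.2⟩
    · unfold opUnder at h
      rw [Bool.and_eq_true] at h
      exact ⟨snd_under hB hα hn (s := ⟨m, K, I, O⟩) (lt_of_blt h.1), pop_good ih h.2⟩
    · unfold opPush at h
      rw [Bool.and_eq_true] at h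
      have := ih _ _ _ _ _ _ _ h.2
      exact ⟨snd_push hB hα hn (s := ⟨m, K, I, O⟩) (Nat.eq_of_beq_eq_true h.1) this.1, this.2⟩
    · unfold opFresh at h
      simp only [force_eq] at h
      rw [Bool.and_eq_true, Bool.and_eq_true] at h
      obtain ⟨⟨h1, h2⟩, h3⟩ := h
      have := ih _ _ _ _ _ _ _ h3
      exact ⟨snd_fresh hB hα hn (s := ⟨m, K, I, O⟩) (Nat.eq_of_beq_eq_true h1) (lt_of_blt h2) this.1, this.2⟩
    · unfold opNewpt at h
      simp only [force_eq] at h
      rw [Bool.and_eq_true] at h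
      have := ih _ _ _ _ _ _ _ h.2
      exact ⟨snd_newpt hα (s := ⟨m, K, I, O⟩) (lt_of_blt h.1) this.1, this.2⟩
    · unfold opDone at h
      simp only [force_eq] at h
      rw [Bool.and_eq_true] at h
      exact ⟨snd_done hn h.1 hStd, pop_good ih h.2⟩
    · unfold opPrune at h
      simp only [force_eq] at h
      have := ih _ _ _ _ _ _ _ h
      exact ⟨snd_prune hB hα hn (s := ⟨m, K, I, O⟩) this.1, this.2⟩
    · unfold opFill at h
      simp only [force_eq] at h
      rw [Bool.and_eq_true, Bool.and_eq_true] at h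
      obtain ⟨⟨h1, h2⟩, h3⟩ := h
      have := ih _ _ _ _ _ _ _ h3
      exact ⟨snd_fill hB hα hn (s := ⟨m, K, I, O⟩) (Nat.eq_of_beq_eq_true h1) (Nat.eq_of_beq_eq_true h2) this.1, this.2⟩
    · unfold opTestN at h
      simp only [force_eq] at h
      rw [Bool.and_eq_true] at h
      obtain ⟨h1, h3⟩ := h
      have := ih _ _ _ _ _ _ _ h3
      exact ⟨snd_test (s := ⟨m, K, I, O⟩) (lt_of_blt h1) (this.2 _ (List.mem_cons_self)) this.1,
        fun s' hs' => this.2 s' (List.mem_cons_of_mem _ hs')⟩
    · unfold opSym at h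
      simp only [force_eq] at h
      rw [Bool.and_eq_true] at h
      have hp := pop_good ih h.2
      obtain ⟨s', hs1, hs2⟩ := symAt_spec h.1
      exact ⟨snd_sym hα hn hs2 (hp s' hs1), hp⟩
    · simp at h

include hB hα hn ht in
theorem run_sound (hStd : ∀ c ∈ P.Std, c < 2 ^ P.n) (fuel : ℕ) : Good P B (run P fuel) := by
  induction fuel with
  | zero => intro cur rest stk m K I O h; simp [run] at h
  | succ fuel ih => exact step_good hB hα hn ht hStd ih

end sound

end Cfsg.Agent.Lib.Helper28.Stein
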