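/-
Top level consequences of the search machine of `Stein1`: frames, derived designs, isomorphisms.
-/
import Cfsg.Agent.Lib.Helper28.Stein1
import Cfsg.Agent.S0350
import Cfsg.Agent.S0351

set_option autoImplicit false

namespace Cfsg.Agent.Lib.Helper28.Stein

open Finset Cfsg Cfsg.Agent.Lib.Helper28

section

variable {α : Type*} [Fintype α] [DecidableEq α]

theorem exists_block {t k : ℕ} {B : Set (Finset α)} (hB : IsSteinerSystem t k B)
    (h : t ≤ Fintype.card α) : ∃ b, b ∈ B := by
  obtain ⟨T, -, hT⟩ := exists_subset_card_eq (s := (univ : Finset α)) (n := t) (by rwa [card_univ])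
  obtain ⟨b, ⟨hb, -⟩, -⟩ := hB.2 T hT
  exact ⟨b, hb⟩

theorem frame_of_run {P : Par} {B : Set (Finset α)} (hB : IsSteinerSystem P.t P.k B)
    (hα : Fintype.card α = P.n) (hn : P.n ≤ 24) (ht : 1 ≤ P.t) (htn : P.t ≤ P.n)
    (hStd : ∀ c ∈ P.Std, c < 2 ^ P.n) {K : List ℕ} (hK : ∀ c ∈ K, c < 2 ^ P.n) (hF : Frame P.n K B)
    {fuel cur : ℕ} {rest : List ℕ} (h : run P fuel cur rest [] P.n K 0 0 = true) :
    Frame P.n P.Std B := by
  obtain ⟨g, ginj, gK⟩ := hF
  obtain ⟨b, hb⟩ := exists_block hB (by rw [hα]; exact htn)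
  exact (run_sound hB hα hn ht hStd _ _ _ _ _ _ _ _ h).1 g b
    ⟨ginj, fun c hc => ⟨hK c hc, gK c hc⟩, Nat.pow_pos (by norm_num), Nat.pow_pos (by norm_num), hb,
      by intro i hi; simp at hi, by intro i hi; simp at hi⟩

theorem frame_of_run0 {P : Par} {B : Set (Finset α)} (hB : IsSteinerSystem P.t P.k B)
    (hα : Fintype.card α = P.n) (hn : P.n ≤ 24) (ht : 1 ≤ P.t) (htn : P.t ≤ P.n)
    (hStd : ∀ c ∈ P.Std, c < 2 ^ P.n)
    {fuel cur : ℕ} {rest : List ℕ} (h : run P fuel cur rest [] 0 [] 0 0 = true) :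
    Frame P.n P.Std B := by
  obtain ⟨b, hb⟩ := exists_block hB (by rw [hα]; exact htn)
  have : 0 < Fintype.card α := by omega
  obtain ⟨x⟩ := Fintype.card_pos_iff.1 this
  exact (run_sound hB hα hn ht hStd _ _ _ _ _ _ _ _ h).1 (fun _ => x) b
    ⟨by intro i hi; simp at hi, by intro c hc; simp at hc, by simp, by simp, hb,
      by intro i hi; simp at hi, by intro i hi; simp at hi⟩

theorem frame_derived {n : ℕ} {B : Set (Finset α)} (p : α) {L : List ℕ} (hL : ∀ c ∈ L, c < 2 ^ n)
    (hn : n < 24)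
    (hF : Frame n L {b' : Finset {a : α // a ≠ p} | ∃ b ∈ B, p ∈ b ∧ b' = Finset.subtype (fun a => a ≠ p) b}) :
    Frame (n + 1) (L.map (fun c => Nat.lor c (2 ^ n))) B := by
  obtain ⟨g, ginj, gL⟩ := hF
  refine ⟨Function.update (fun i => (g i).1) n p, ?_, ?_⟩
  · apply inj_update
    · intro i hi j hj hij
      exact ginj i hi j hj (Subtype.ext hij)
    · intro i _
      exact (g i).2
  · intro c' hc'
    obtain ⟨c, hc, rfl⟩ := List.mem_map.1 hc'
    obtain ⟨b, hb, hpb, heq⟩ := gL c hc
    have : img (Function.update (fun i => (g i).1) n p) (Nat.lor c (2 ^ n)) = b := by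
      ext x
      unfold img
      simp only [mem_image, mem_bits]
      constructor
      · rintro ⟨i, ⟨hi1, hi2⟩, rfl⟩
        rcases (testBit_lor_pow _ _ _).1 hi2 with h | h
        · have hin : i < n := lt_of_testBit (hL c hc) h
          rw [Function.update_of_ne (by omega)]
          have : g i ∈ img g c := mem_image_of_mem g (mem_bits.2 ⟨hi1, h⟩)
          rw [heq, mem_subtype] at this
          exact this
        · rw [← h, Function.update_self]; exact hpb
      · intro hx
        by_cases hxp : x = p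
        · exact ⟨n, ⟨hn, (testBit_lor_pow _ _ _).2 (Or.inr rfl)⟩, by rw [Function.update_self, hxp]⟩
        · have : (⟨x, hxp⟩ : {a : α // a ≠ p}) ∈ img g c := by
            rw [heq, mem_subtype]; exact hx
          obtain ⟨i, hi, hgi⟩ := mem_image.1 this
          obtain ⟨hi1, hi2⟩ := mem_bits.1 hi
          have hin : i < n := lt_of_testBit (hL c hc) hi2
          refine ⟨i, ⟨hi1, (testBit_lor_pow _ _ _).2 (Or.inl hi2)⟩, ?_⟩
          rw [Function.update_of_ne (by omega)]
          show (g i).1 = x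
          rw [hgi]
    rw [this]; exact hb

theorem img_inj {n : ℕ} (hn : n ≤ 24) {g : ℕ → α} (ginj : ∀ i < n, ∀ j < n, g i = g j → i = j)
    {c c' : ℕ} (hc : c < 2 ^ n) (hc' : c' < 2 ^ n) (h : img g c = img g c') : c = c' := by
  have key : ∀ {c c' : ℕ}, c < 2 ^ n → c' < 2 ^ n → img g c = img g c' →
      ∀ i, c.testBit i = true → c'.testBit i = true := by
    intro c c' hc hc' h i hi
    have hin : i < n := lt_of_testBit hc hi
    have : g i ∈ img g c' := by
      rw [← h]; exact mem_image_of_mem g (mem_bits.2 ⟨by omega, hi⟩)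
    obtain ⟨j, hj, hji⟩ := mem_image.1 this
    have hj2 := (mem_bits.1 hj).2
    rw [← ginj j (lt_of_testBit hc' hj2) i hin hji]; exact hj2
  apply Nat.eq_of_testBit_eq
  intro i
  cases h1 : c.testBit i with
  | true => exact (key hc hc' h i h1).symm
  | false =>
    cases h2 : c'.testBit i with
    | false => rfl
    | true => rw [key hc' hc h.symm i h2] at h1; cases h1

theorem eq_of_frame {t k n : ℕ} {B : Set (Finset α)} (hB : IsSteinerSystem t k B)
    (hα : Fintype.card α = n) (hn : n ≤ 24) {L : List ℕ} (hL : ∀ c ∈ L, c < 2 ^ n) (hnd : L.Nodup)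
    (hcount : L.length * Nat.choose k t = Nat.choose n t) (hkt : t ≤ k)
    {g : ℕ → α} (ginj : ∀ i < n, ∀ j < n, g i = g j → i = j) (gL : ∀ c ∈ L, img g c ∈ B) :
    B = {b | ∃ c ∈ L, img g c = b} := by
  have h1 := Cfsg.Agent.S0350.result hB
  rw [hα, ← hcount] at h1
  have h2 : B.ncard = L.length := Nat.eq_of_mul_eq_mul_right (Nat.choose_pos hkt) h1
  have h3 : {b | ∃ c ∈ L, img g c = b} = ((L.toFinset.image (img g) : Finset (Finset α)) : Set (Finset α)) := by
    ext b; simp
  have h4 : ({b | ∃ c ∈ L, img g c = b} : Set (Finset α)).ncard = L.length := by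
    rw [h3, Set.ncard_coe_finset, card_image_of_injOn, List.toFinset_card_of_nodup hnd]
    intro c hc c' hc' h
    exact img_inj hn ginj (hL c (by simpa using hc)) (hL c' (by simpa using hc')) h
  symm
  apply Set.eq_of_subset_of_ncard_le
  · rintro b ⟨c, hc, rfl⟩; exact gL c hc
  · rw [h2, h4]
  · exact Set.toFinite _

/-- the bijection with `Fin n` given by a labelling -/
noncomputable def frameEquiv {n : ℕ} (hα : Fintype.card α = n) {g : ℕ → α}
    (ginj : ∀ i < n, ∀ j < n, g i = g j → i = j) : Fin n ≃ α :=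
  Equiv.ofBijective (fun i : Fin n => g i) (by
    rw [Fintype.bijective_iff_injective_and_card]
    exact ⟨fun i j h => Fin.ext (ginj i i.2 j j.2 h), by rw [Fintype.card_fin, hα]⟩)

end

theorem iso_of_frames {α β : Type*} [Fintype α] [DecidableEq α] [Fintype β] [DecidableEq β]
    {t k n : ℕ} {B : Set (Finset α)} {B' : Set (Finset β)}
    (hB : IsSteinerSystem t k B) (hB' : IsSteinerSystem t k B')
    (hα : Fintype.card α = n) (hβ : Fintype.card β = n) (hn : n ≤ 24) {L : List ℕ}
    (hL : ∀ c ∈ L, c < 2 ^ n) (hnd : L.Nodup)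
    (hcount : L.length * Nat.choose k t = Nat.choose n t) (hkt : t ≤ k)
    (hF : Frame n L B) (hF' : Frame n L B') : SetSystemIso B B' := by
  obtain ⟨g, ginj, gL⟩ := hF
  obtain ⟨g', ginj', gL'⟩ := hF'
  have e1 := eq_of_frame hB hα hn hL hnd hcount hkt ginj gL
  have e2 := eq_of_frame hB' hβ hn hL hnd hcount hkt ginj' gL'
  refine ⟨(frameEquiv hα ginj).symm.trans (frameEquiv hβ ginj'), ?_⟩
  have key : ∀ c ∈ L, (img g c).image ((frameEquiv hα ginj).symm.trans (frameEquiv hβ ginj')) = img g' c := by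
    intro c hc
    unfold img
    rw [image_image]
    apply image_congr
    intro i hi
    have hin : i < n := lt_of_testBit (hL c hc) (mem_bits.1 hi).2
    have : (frameEquiv hα ginj).symm (g i) = ⟨i, hin⟩ := by
      rw [Equiv.symm_apply_eq]; rfl
    show (frameEquiv hβ ginj') ((frameEquiv hα ginj).symm (g i)) = g' i
    rw [this]; rfl
  rw [e1, e2]
  ext b
  constructor
  · rintro ⟨_, ⟨c, hc, rfl⟩, rfl⟩
    exact ⟨c, hc, (key c hc).symm⟩
  · rintro ⟨c, hc, rfl⟩
    exact ⟨_, ⟨c, hc, rfl⟩, key c hc⟩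

end Cfsg.Agent.Lib.Helper28.Stein
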