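/-
Masks with respect to a labelling of a finite type by `0, …, n-1`; two-level scans.
-/
import Cfsg.Agent.Lib.Helper28.Stein2
import Cfsg.Agent.Lib.Helper28.GolayCount
set_option autoImplicit false
open Cfsg Finset
namespace Cfsg.Agent.Lib.Helper28.Stein

section
variable {α : Type*} [Fintype α] [DecidableEq α] {n : ℕ} {g : ℕ → α}

theorem exists_idx (hα : Fintype.card α = n) (ginj : ∀ i < n, ∀ j < n, g i = g j → i = j) (x : α) :
    ∃ i < n, g i = x := by
  obtain ⟨i, hi⟩ := (frameEquiv hα ginj).surjective x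
  exact ⟨i, i.2, hi⟩

theorem mem_img_iff (hn : n ≤ 24) (ginj : ∀ i < n, ∀ j < n, g i = g j → i = j) {c : ℕ} (hc : c < 2 ^ n)
    {i : ℕ} (hi : i < n) : g i ∈ img g c ↔ c.testBit i = true := by
  constructor
  · intro h
    obtain ⟨j, hj, hji⟩ := mem_image.1 h
    have hj2 := (mem_bits.1 hj).2
    rw [← ginj j (lt_of_testBit hc hj2) i hi hji]; exact hj2
  · intro h
    exact mem_image_of_mem g (mem_bits.2 ⟨by omega, h⟩)

theorem exists_mask (hn : n ≤ 24) (hα : Fintype.card α = n) (ginj : ∀ i < n, ∀ j < n, g i = g j → i = j)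
    (S : Finset α) : ∃ m < 2 ^ n, img g m = S := by
  refine ⟨Nat.ofBits (fun i : Fin n => decide (g i ∈ S)), Nat.ofBits_lt_two_pow _, ?_⟩
  ext x
  obtain ⟨i, hi, rfl⟩ := exists_idx hα ginj x
  rw [mem_img_iff hn ginj (Nat.ofBits_lt_two_pow _) hi, Nat.testBit_ofBits]
  simp [hi]

theorem img_inter (hn : n ≤ 24) (hα : Fintype.card α = n) (ginj : ∀ i < n, ∀ j < n, g i = g j → i = j)
    {a b : ℕ} (ha : a < 2 ^ n) (hb : b < 2 ^ n) : img g a ∩ img g b = img g (a &&& b) := by
  ext x
  obtain ⟨i, hi, rfl⟩ := exists_idx hα ginj x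
  rw [mem_inter, mem_img_iff hn ginj ha hi, mem_img_iff hn ginj hb hi,
    mem_img_iff hn ginj (lt_of_le_of_lt Nat.and_le_left ha) hi, Nat.testBit_and, Bool.and_eq_true]

theorem img_subset_iff (hn : n ≤ 24) (hα : Fintype.card α = n) (ginj : ∀ i < n, ∀ j < n, g i = g j → i = j)
    {a b : ℕ} (ha : a < 2 ^ n) (hb : b < 2 ^ n) : img g a ⊆ img g b ↔ b &&& a = a := by
  rw [← inter_eq_right, img_inter hn hα ginj hb ha]
  constructor
  · intro h
    exact img_inj hn ginj (lt_of_le_of_lt Nat.and_le_left hb) ha h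
  · intro h
    rw [h]

theorem card_img' (hn : n ≤ 24) (ginj : ∀ i < n, ∀ j < n, g i = g j → i = j) {c : ℕ} (hc : c < 2 ^ n) :
    (img g c).card = pcF c := by
  rw [card_img ginj hc, pcF_eq (lt_of_lt_of_le hc (Nat.pow_le_pow_right (by norm_num) hn))]

theorem ncard_eq_count (hn : n ≤ 24) (hα : Fintype.card α = n) (ginj : ∀ i < n, ∀ j < n, g i = g j → i = j)
    {P : Finset α → Prop} {f : ℕ → Bool} (h : ∀ m < 2 ^ n, (P (img g m) ↔ f m = true)) :
    {S | P S}.ncard = ((range (2 ^ n)).filter (fun m => f m = true)).card := by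
  have h1 : {S | P S} = ((((range (2 ^ n)).filter (fun m => f m = true)).image (img g) : Finset (Finset α)) :
      Set (Finset α)) := by
    ext S
    simp only [Set.mem_setOf_eq, coe_image, coe_filter, mem_range, Set.mem_image]
    constructor
    · intro hS
      obtain ⟨m, hm, rfl⟩ := exists_mask hn hα ginj S
      exact ⟨m, ⟨hm, (h m hm).1 hS⟩, rfl⟩
    · rintro ⟨m, ⟨hm, hf⟩, rfl⟩
      exact (h m hm).2 hf
  rw [h1, Set.ncard_coe_finset, card_image_of_injOn]
  intro a ha b hb hab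
  simp only [coe_filter, mem_range, Set.mem_setOf_eq] at ha hb
  exact img_inj hn ginj ha.1 hb.1 hab

end

/-! ### two-level scans -/

def sumBelow (f : ℕ → ℕ) (n : ℕ) : ℕ := Nat.rec 0 (fun k ih => Nat.add (f k) ih) n

theorem sumBelow_eq (f : ℕ → ℕ) (n : ℕ) : sumBelow f n = ∑ k ∈ range n, f k := by
  induction n with
  | zero => rfl
  | succ n ih =>
    have h' : sumBelow f (n + 1) = f n + sumBelow f n := rfl
    rw [h', ih, sum_range_succ, add_comm]

def count2 (f : ℕ → Bool) (a b : ℕ) : ℕ :=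
  sumBelow (fun i => countBelow (fun j => f (Nat.add (Nat.mul i b) j)) b) a

theorem count2_eq (f : ℕ → Bool) (a b : ℕ) :
    count2 f a b = ((range (a * b)).filter (fun m => f m = true)).card := by
  unfold count2
  rw [sumBelow_eq]
  induction a with
  | zero => simp
  | succ a ih =>
    rw [sum_range_succ, ih, countBelow_eq, card_filter, card_filter, card_filter, Nat.succ_mul,
      sum_range_add]
    rfl

def all2 (f : ℕ → Bool) (a b : ℕ) : Bool :=
  allBelow (fun i => allBelow (fun j => f (Nat.add (Nat.mul i b) j)) b) a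

theorem all2_spec {f : ℕ → Bool} {a b : ℕ} (h : all2 f a b = true) : ∀ m, m < a * b → f m = true := by
  intro m hm
  have hb : 0 < b := by
    rcases Nat.eq_zero_or_pos b with h0 | h0
    · subst h0; simp at hm
    · exact h0
  have h1 := allBelow_spec h (m / b) ((Nat.div_lt_iff_lt_mul hb).2 hm)
  have h2 := allBelow_spec h1 (m % b) (Nat.mod_lt _ hb)
  have h3 : Nat.add (Nat.mul (m / b) b) (m % b) = m := Nat.div_add_mod' m b
  rw [h3] at h2
  exact h2

end Cfsg.Agent.Lib.Helper28.Stein
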