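/-
Permutations of a labelled type given by tables; extension of permutations of a subset.
-/
import Cfsg.Agent.Lib.Helper28.Frame1
set_option autoImplicit false
open Cfsg Finset
open scoped Pointwise
namespace Cfsg.Agent.Lib.Helper28.Stein

/-- a table is a permutation of `0, …, n-1` -/
def validN (n : ℕ) (τ : List ℕ) : Bool :=
  (τ.length == n) && τ.all (fun x => decide (x < n)) && (List.range n).all (fun j => τ.contains j)

theorem validN_spec {n : ℕ} {τ : List ℕ} (h : validN n τ = true) :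
    τ.length = n ∧ (∀ i < n, τ.getD i 0 < n) ∧ ∀ j < n, ∃ i < n, τ.getD i 0 = j := by
  simp only [validN, Bool.and_eq_true, beq_iff_eq, List.all_eq_true, decide_eq_true_eq, List.mem_range,
    List.contains_iff_mem] at h
  obtain ⟨⟨h1, h2⟩, h3⟩ := h
  refine ⟨h1, ?_, ?_⟩
  · intro i hi
    rw [List.getD_eq_getElem _ _ (h1 ▸ hi)]
    exact h2 _ (List.getElem_mem _)
  · intro j hj
    obtain ⟨i, hi, hij⟩ := List.getElem_of_mem (h3 j hj)
    exact ⟨i, h1 ▸ hi, by rw [List.getD_eq_getElem _ _ hi, hij]⟩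

section
variable {α : Type*} [Fintype α] [DecidableEq α] {n : ℕ} {g : ℕ → α}

theorem exists_perm_of_tbl (hα : Fintype.card α = n) (ginj : ∀ i < n, ∀ j < n, g i = g j → i = j)
    {τ : List ℕ} (h : validN n τ = true) : ∃ a : Equiv.Perm α, ∀ i < n, a (g i) = g (τ.getD i 0) := by
  obtain ⟨-, -, h3⟩ := validN_spec h
  have hidx : ∀ i (hi : i < n), (frameEquiv hα ginj).symm (g i) = ⟨i, hi⟩ := by
    intro i hi
    rw [Equiv.symm_apply_eq]; rfl
  have hs : Function.Surjective (fun x : α => g (τ.getD ((frameEquiv hα ginj).symm x : Fin n) 0)) := by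
    intro y
    obtain ⟨j, hj, rfl⟩ := exists_idx hα ginj y
    obtain ⟨i, hi, hij⟩ := h3 j hj
    refine ⟨g i, ?_⟩
    show g (τ.getD ((frameEquiv hα ginj).symm (g i) : Fin n) 0) = g j
    rw [hidx i hi, hij]
  refine ⟨Equiv.ofBijective _ (Function.Surjective.bijective_of_finite hs), ?_⟩
  intro i hi
  show g (τ.getD ((frameEquiv hα ginj).symm (g i) : Fin n) 0) = _
  rw [hidx i hi]

theorem smul_img (hn : n ≤ 24) {τ : List ℕ} (h : validN n τ = true) {a : Equiv.Perm α}
    (ha : ∀ i < n, a (g i) = g (τ.getD i 0)) {c : ℕ} (hc : c < 2 ^ n) :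
    a • img g c = img g (permMask τ c) := by
  obtain ⟨h1, h2, -⟩ := validN_spec h
  ext x
  constructor
  · intro hx
    obtain ⟨y, hy, rfl⟩ := Finset.mem_smul_finset.1 hx
    obtain ⟨i, hi, rfl⟩ := mem_image.1 hy
    have hi2 := (mem_bits.1 hi).2
    have hin : i < n := lt_of_testBit hc hi2
    rw [Equiv.Perm.smul_def, ha i hin]
    apply mem_image_of_mem
    rw [mem_bits]
    exact ⟨lt_of_lt_of_le (h2 i hin) hn, (testBit_permMask τ c _).2 ⟨i, h1 ▸ hin, hi2, rfl⟩⟩
  · intro hx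
    obtain ⟨k, hk, rfl⟩ := mem_image.1 hx
    obtain ⟨i, hi, hi2, hik⟩ := (testBit_permMask τ c k).1 (mem_bits.1 hk).2
    rw [h1] at hi
    rw [← hik, ← ha i hi]
    apply Finset.smul_mem_smul_finset
    exact mem_image_of_mem g (mem_bits.2 ⟨lt_of_lt_of_le hi hn, hi2⟩)

theorem mem_aut_of_forall' {B : Set (Finset α)} {a : Equiv.Perm α} (h : ∀ b ∈ B, a • b ∈ B) :
    a ∈ setSystemAut B := by
  rw [MulAction.mem_stabilizer_iff]
  have hfin : B.Finite := Set.toFinite _
  apply Set.eq_of_subset_of_ncard_le _ _ hfin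
  · rintro _ ⟨b, hb, rfl⟩
    exact h b hb
  · have : (a • B).ncard = B.ncard := Set.ncard_image_of_injective _ (MulAction.injective a)
    rw [this]

theorem smul_mem_of_aut' {B : Set (Finset α)} {a : Equiv.Perm α} (ha : a ∈ setSystemAut B) {b : Finset α}
    (hb : b ∈ B) : a • b ∈ B := by
  rw [MulAction.mem_stabilizer_iff] at ha
  rw [← ha]; exact Set.smul_mem_smul_set hb

/-- if all transpositions of `H` are induced by a group, so are all permutations of `H` -/
theorem exists_extension (G : Subgroup (Equiv.Perm α)) (H : Finset α)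
    (hsw : ∀ x ∈ H, ∀ y ∈ H, x ≠ y → ∃ a ∈ G, a x = y ∧ a y = x ∧ ∀ z ∈ H, z ≠ x → z ≠ y → a z = z)
    (σ : Equiv.Perm ↥H) : ∃ a ∈ G, ∀ p : ↥H, a p = σ p := by
  let S : Subgroup (Equiv.Perm ↥H) :=
    { carrier := {σ | ∃ a ∈ G, ∀ p : ↥H, a p = σ p}
      one_mem' := ⟨1, G.one_mem, fun p => rfl⟩
      mul_mem' := by
        rintro σ τ ⟨a, ha, ha'⟩ ⟨b, hb, hb'⟩
        refine ⟨a * b, G.mul_mem ha hb, fun p => ?_⟩
        rw [Equiv.Perm.mul_apply, hb', ha']; rfl
      inv_mem' := by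
        rintro σ ⟨a, ha, ha'⟩
        refine ⟨a⁻¹, G.inv_mem ha, fun p => ?_⟩
        rw [Equiv.Perm.inv_eq_iff_eq, ha']; simp }
  have hS : S = ⊤ := by
    rw [eq_top_iff, ← Equiv.Perm.closure_isSwap, Subgroup.closure_le]
    rintro σ ⟨x, y, hxy, rfl⟩
    obtain ⟨a, ha, h1, h2, h3⟩ := hsw x.1 x.2 y.1 y.2 (fun hh => hxy (Subtype.ext hh))
    refine ⟨a, ha, fun p => ?_⟩
    by_cases hpx : p = x
    · rw [hpx, Equiv.swap_apply_left, h1]
    by_cases hpy : p = y
    · rw [hpy, Equiv.swap_apply_right, h2]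
    rw [Equiv.swap_apply_of_ne_of_ne hpx hpy]
    exact h3 p.1 p.2 (fun hh => hpx (Subtype.ext hh)) (fun hh => hpy (Subtype.ext hh))
  have : σ ∈ S := by rw [hS]; exact Subgroup.mem_top σ
  exact this

end

end Cfsg.Agent.Lib.Helper28.Stein
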