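/-
Counting over the masks with a prescribed number of bits.
-/
import Cfsg.Agent.Lib.Helper28.Frame1
set_option autoImplicit false
open Cfsg Finset
namespace Cfsg.Agent.Lib.Helper28.Stein

/-- number of `m < 2^n` with exactly `k` bits such that `f (acc + m)` -/
def cntSub (f : ℕ → Bool) (n : ℕ) : ℕ → ℕ → ℕ :=
  Nat.rec (fun k acc => Nat.rec (cond (f acc) 1 0) (fun _ _ => 0) k)
    (fun n ih k acc => Nat.add (ih k acc) (Nat.rec 0 (fun k' _ => ih k' (Nat.add acc (Nat.pow 2 n))) k)) n

theorem cntSub_zero_zero (f : ℕ → Bool) (acc : ℕ) : cntSub f 0 0 acc = cond (f acc) 1 0 := rfl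
theorem cntSub_zero_succ (f : ℕ → Bool) (k acc : ℕ) : cntSub f 0 (k + 1) acc = 0 := rfl
theorem cntSub_succ_zero (f : ℕ → Bool) (n acc : ℕ) : cntSub f (n + 1) 0 acc = cntSub f n 0 acc + 0 := rfl
theorem cntSub_succ_succ (f : ℕ → Bool) (n k acc : ℕ) :
    cntSub f (n + 1) (k + 1) acc = cntSub f n (k + 1) acc + cntSub f n k (acc + 2 ^ n) := rfl

theorem pc_succ_lt {n m : ℕ} (hm : m < 2 ^ n) : pc (n + 1) m = pc n m := by
  rw [pc_add, Nat.div_eq_of_lt hm]; simp [pc]

theorem pc_succ_add {n m : ℕ} (hm : m < 2 ^ n) : pc (n + 1) (2 ^ n + m) = pc n m + 1 := by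
  rw [pc_add, ← pc_mod n, Nat.add_mod_left, Nat.mod_eq_of_lt hm,
    Nat.add_div_left _ (by positivity), Nat.div_eq_of_lt hm]
  simp [pc]

theorem cntSub_eq (f : ℕ → Bool) (n k acc : ℕ) :
    cntSub f n k acc = ((range (2 ^ n)).filter (fun m => pc n m = k ∧ f (acc + m) = true)).card := by
  induction n generalizing k acc with
  | zero =>
    cases k with
    | zero =>
      rw [cntSub_zero_zero]
      cases h : f acc <;> simp [pc, h, filter_singleton]
    | succ k =>
      rw [cntSub_zero_succ]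
      simp [pc, filter_singleton]
  | succ n ih =>
    have key : ∀ k, ((range (2 ^ (n + 1))).filter (fun m => pc (n + 1) m = k ∧ f (acc + m) = true)).card
        = ((range (2 ^ n)).filter (fun m => pc n m = k ∧ f (acc + m) = true)).card
          + ((range (2 ^ n)).filter (fun m => pc n m + 1 = k ∧ f (acc + 2 ^ n + m) = true)).card := by
      intro k
      rw [card_filter, card_filter, card_filter, pow_succ, mul_two, sum_range_add]
      congr 1
      · apply sum_congr rfl
        intro m hm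
        rw [pc_succ_lt (mem_range.1 hm)]
      · apply sum_congr rfl
        intro m hm
        rw [pc_succ_add (mem_range.1 hm), add_assoc]
    rw [key]
    cases k with
    | zero =>
      rw [cntSub_succ_zero, ih]
      congr 1
      symm
      rw [card_eq_zero, filter_eq_empty_iff]
      intro m _ h
      omega
    | succ k =>
      rw [cntSub_succ_succ, ih, ih]
      congr 2
      ext m
      simp

theorem pc24_eq {n m : ℕ} (hn : n ≤ 24) (hm : m < 2 ^ n) : pc 24 m = pc n m := by
  obtain ⟨d, hd⟩ := Nat.exists_eq_add_of_le hn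
  rw [hd, pc_add, Nat.div_eq_of_lt hm]
  have : ∀ d, pc d 0 = 0 := by
    intro d
    induction d with
    | zero => rfl
    | succ d ih => simp [pc, ih]
  rw [this, add_zero]

/-- a vanishing count -/
theorem of_cntSub_zero {f : ℕ → Bool} {n k : ℕ} (hn : n ≤ 24) (h : cntSub f n k 0 = 0) {m : ℕ} (hm : m < 2 ^ n)
    (hk : pcF m = k) : f m = false := by
  rw [cntSub_eq, card_eq_zero, filter_eq_empty_iff] at h
  have h1 := h (mem_range.2 hm)
  rw [pcF_eq (lt_of_lt_of_le hm (Nat.pow_le_pow_right (by norm_num) hn)), pc24_eq hn hm] at hk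
  rw [zero_add] at h1
  cases hf : f m
  · rfl
  · exact absurd ⟨hk, hf⟩ h1

/-- the count as a filter with `pcF` -/
theorem cntSub_eq' (f : ℕ → Bool) {n : ℕ} (hn : n ≤ 24) (k : ℕ) :
    cntSub f n k 0 = ((range (2 ^ n)).filter (fun m => (and (Nat.beq (pcF m) k) (f m)) = true)).card := by
  rw [cntSub_eq]
  congr 1
  apply filter_congr
  intro m hm
  have hm' := mem_range.1 hm
  rw [pcF_eq (lt_of_lt_of_le hm' (Nat.pow_le_pow_right (by norm_num) hn)), pc24_eq hn hm', zero_add,
    Bool.and_eq_true]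
  constructor
  · rintro ⟨h1, h2⟩
    exact ⟨by rw [h1]; exact Nat.beq_refl k, h2⟩
  · rintro ⟨h1, h2⟩
    exact ⟨Nat.eq_of_beq_eq_true h1, h2⟩

end Cfsg.Agent.Lib.Helper28.Stein
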