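/-
Counting blocks of a labelled set system given by a list of masks; S(5,6,12) intersection numbers.
-/
import Cfsg.Agent.Lib.Helper28.Frame1
import Cfsg.Agent.Lib.Helper28.SteinD12
set_option autoImplicit false
set_option maxRecDepth 100000
open Cfsg Finset
namespace Cfsg.Agent.Lib.Helper28.Stein

section
variable {α : Type*} [Fintype α] [DecidableEq α] {n : ℕ} {g : ℕ → α}

theorem ncard_list (hn : n ≤ 24) (ginj : ∀ i < n, ∀ j < n, g i = g j → i = j) {L : List ℕ}
    (hlt : ∀ c ∈ L, c < 2 ^ n) (hnd : L.Nodup) {B : Set (Finset α)} (hB : B = {b | ∃ c ∈ L, img g c = b})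
    {P : Finset α → Prop} {f : ℕ → Bool} (h : ∀ c ∈ L, (P (img g c) ↔ f c = true)) :
    {b | b ∈ B ∧ P b}.ncard = (L.filter f).length := by
  have h1 : {b | b ∈ B ∧ P b} = ((((L.filter f).toFinset).image (img g) : Finset (Finset α)) : Set (Finset α)) := by
    ext b
    simp only [hB, Set.mem_setOf_eq, coe_image, List.coe_toFinset, List.mem_filter, Set.mem_image]
    constructor
    · rintro ⟨⟨c, hc, rfl⟩, hP⟩
      exact ⟨c, ⟨hc, (h c hc).1 hP⟩, rfl⟩
    · rintro ⟨c, ⟨hc, hf⟩, rfl⟩
      exact ⟨⟨c, hc, rfl⟩, (h c hc).2 hf⟩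
  rw [h1, Set.ncard_coe_finset, card_image_of_injOn, List.toFinset_card_of_nodup (hnd.filter _)]
  intro a ha b hb hab
  simp only [List.coe_toFinset, List.mem_filter, Set.mem_setOf_eq] at ha hb
  exact img_inj hn ginj (hlt a ha.1) (hlt b hb.1) hab

end

theorem inter12 : std12.all (fun c0 => std12.all (fun c1 => Nat.beq c0 c1 ||
    ([0, 2, 3, 4] : List ℕ).contains (pcF (Nat.land c0 c1)))) = true := by decide +kernel

def cnt12 (c0 m : ℕ) : ℕ := (std12.filter (fun c => Nat.beq (Nat.land c0 c) m)).length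

theorem count12 : std12.all (fun c0 => allBelow (fun m => cond (Nat.beq (Nat.land c0 m) m)
    (cond (Nat.beq (pcF m) 2) (Nat.beq (cnt12 c0 m) 3) (cond (Nat.beq (pcF m) 3) (Nat.beq (cnt12 c0 m) 2)
      (cond (Nat.beq (pcF m) 4) (Nat.beq (cnt12 c0 m) 3) true))) true) 4096) = true := by decide +kernel

theorem main1595 {α : Type*} [Fintype α] [DecidableEq α] (hα : Fintype.card α = 12) {B : Set (Finset α)}
    (hB : IsSteinerSystem 5 6 B) (b : Finset α) (hb : b ∈ B) :
    (∀ c ∈ B, c ≠ b → (b ∩ c).card = 0 ∨ (b ∩ c).card = 2 ∨ (b ∩ c).card = 3 ∨ (b ∩ c).card = 4) ∧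
    ∀ s ⊆ b, (s.card = 2 → {c : Finset α | c ∈ B ∧ b ∩ c = s}.ncard = 3) ∧
      (s.card = 3 → {c : Finset α | c ∈ B ∧ b ∩ c = s}.ncard = 2) ∧
      (s.card = 4 → {c : Finset α | c ∈ B ∧ b ∩ c = s}.ncard = 3) := by
  obtain ⟨g, ginj, gL⟩ := frame12 hα hB
  have hLe := eq_of_frame hB hα (by norm_num) std12_lt std12_nodup (by rw [std12_length]; decide) (by norm_num)
    ginj gL
  have hb' := hb
  rw [hLe] at hb'
  obtain ⟨c0, hc0, rfl⟩ := hb'
  have h0lt := std12_lt c0 hc0
  constructor
  · intro c hc hne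
    rw [hLe] at hc
    obtain ⟨c1, hc1, rfl⟩ := hc
    have h1 := inter12
    rw [List.all_eq_true] at h1
    have h2 := h1 c0 hc0
    rw [List.all_eq_true] at h2
    have h3 := h2 c1 hc1
    rw [img_inter (by norm_num) hα ginj h0lt (std12_lt c1 hc1),
      card_img' (by norm_num) ginj (lt_of_le_of_lt Nat.and_le_left h0lt)]
    rw [Bool.or_eq_true] at h3
    rcases h3 with h3 | h3
    · exact absurd (by rw [Nat.eq_of_beq_eq_true h3]) hne
    · have h4 : pcF (Nat.land c0 c1) ∈ ([0, 2, 3, 4] : List ℕ) := by simpa using h3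
      simpa using h4
  · intro s hs
    obtain ⟨m, hm, rfl⟩ := exists_mask (by norm_num) hα ginj s
    have hsub : Nat.land c0 m = m := (img_subset_iff (by norm_num) hα ginj hm h0lt).1 hs
    have hcount : {c : Finset α | c ∈ B ∧ img g c0 ∩ c = img g m}.ncard = cnt12 c0 m := by
      apply ncard_list (by norm_num) ginj std12_lt std12_nodup hLe
      intro c hc
      rw [img_inter (by norm_num) hα ginj h0lt (std12_lt c hc)]
      constructor
      · intro h
        have := img_inj (by norm_num) ginj (lt_of_le_of_lt Nat.and_le_left h0lt) hm h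
        show Nat.beq (Nat.land c0 c) m = true
        rw [show Nat.land c0 c = m from this]; exact Nat.beq_refl m
      · intro h
        rw [show c0 &&& c = m from Nat.eq_of_beq_eq_true h]
    have h1 := count12
    rw [List.all_eq_true] at h1
    have h2 := allBelow_spec (h1 c0 hc0) m (by norm_num at hm ⊢; exact hm)
    rw [hsub, Nat.beq_refl, cond_true] at h2
    rw [hcount, card_img' (by norm_num) ginj hm]
    refine ⟨fun hk => ?_, fun hk => ?_, fun hk => ?_⟩
    · rw [hk] at h2
      exact Nat.eq_of_beq_eq_true h2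
    · rw [hk] at h2
      exact Nat.eq_of_beq_eq_true h2
    · rw [hk] at h2
      exact Nat.eq_of_beq_eq_true h2

end Cfsg.Agent.Lib.Helper28.Stein
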