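/-
Recognition of GL(2,3): a group of order 48 acting faithfully on an elementary abelian group of order 9.
-/
import Cfsg.Agent.Lib.Helper1.FF3
set_option autoImplicit false
open Cfsg
namespace Cfsg.Agent.Lib.Helper28.M9

theorem card_GL23 : Nat.card (GL (Fin 2) (ZMod 3)) = 48 := by
  rw [Matrix.card_GL_field]
  simp [Fin.prod_univ_two, ZMod.card]

open scoped IsMulCommutative in
theorem gl23_of_normalizing {G : Type*} [Group G] (N : Subgroup G) (hN9 : Nat.card N = 9)
    (hexp : ∀ n ∈ N, n ^ 3 = 1) (hcomm : ∀ a ∈ N, ∀ b ∈ N, a * b = b * a)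
    {C : Type*} [Group C] (ι : C →* G) (hnorm : ∀ c : C, ∀ n ∈ N, ι c * n * (ι c)⁻¹ ∈ N)
    (hfaith : ∀ c : C, (∀ n ∈ N, ι c * n = n * ι c) → c = 1) (hC : Nat.card C = 48) :
    Nonempty (C ≃* GL (Fin 2) (ZMod 3)) := by
  haveI : Fact (Nat.Prime 3) := ⟨Nat.prime_three⟩
  haveI : IsMulCommutative ↥N := ⟨⟨fun a b => Subtype.ext (hcomm a a.2 b b.2)⟩⟩
  obtain ⟨ψ, hψ⟩ := Cfsg.Agent.Lib.Helper1.exists_mulAut_hom (p := 3) ↥N
    (fun w => Subtype.ext (hexp w w.2)) (by rw [hN9]; norm_num)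
  have hmemn : ∀ c, ι c ∈ Subgroup.normalizer (N : Set G) := by
    intro c
    rw [Subgroup.mem_normalizer_iff]
    intro n
    constructor
    · exact hnorm c n
    · intro h
      have := hnorm c⁻¹ _ h
      simpa [mul_assoc] using this
  let α : C →* MulAut ↥N := N.normalizerMonoidHom.comp (ι.codRestrict _ hmemn)
  have hα : Function.Injective α := by
    rw [injective_iff_map_eq_one]
    intro c hc
    apply hfaith
    intro n hn
    have h1 := congrArg (fun f : MulAut ↥N => ((f ⟨n, hn⟩ : ↥N) : G)) hc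
    have h2 : ι c * n * (ι c)⁻¹ = n := h1
    exact mul_inv_eq_iff_eq_mul.1 h2
  let f : C →* GL (Fin 2) (ZMod 3) := (ψ.comp α).toHomUnits
  have hf : Function.Injective f := by
    intro a b hab
    apply hα
    apply hψ
    have := congrArg (fun u : GL (Fin 2) (ZMod 3) => (u : Matrix (Fin 2) (Fin 2) (ZMod 3))) hab
    exact this
  haveI : Finite C := Nat.finite_of_card_ne_zero (by rw [hC]; norm_num)
  have hb : Function.Bijective f := by
    rw [Nat.bijective_iff_injective_and_card]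
    exact ⟨hf, by rw [hC, card_GL23]⟩
  exact ⟨MulEquiv.ofBijective f hb⟩

end Cfsg.Agent.Lib.Helper28.M9
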