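/-
Quotient version of the recognition of GL(2,3).
-/
import Cfsg.Agent.Lib.Helper28.GL23
set_option autoImplicit false
open Cfsg
namespace Cfsg.Agent.Lib.Helper28.M9

open scoped IsMulCommutative in
theorem gl23_quotient {G : Type*} [Group G] (N A : Subgroup G) (hNA : N ≤ A) (hN9 : Nat.card N = 9)
    (hexp : ∀ n ∈ N, n ^ 3 = 1) (hcomm : ∀ a ∈ N, ∀ b ∈ N, a * b = b * a)
    (hnorm : ∀ g ∈ A, ∀ n ∈ N, g * n * g⁻¹ ∈ N)
    (hcent : ∀ g ∈ A, (∀ n ∈ N, g * n = n * g) → g ∈ N) (hA : Nat.card A = 432) :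
    ∃ (N' : Subgroup ↥A) (_ : N'.Normal), Nat.card N' = 9 ∧ Nonempty (↥A ⧸ N' ≃* GL (Fin 2) (ZMod 3)) := by
  haveI : Fact (Nat.Prime 3) := ⟨Nat.prime_three⟩
  haveI : IsMulCommutative ↥N := ⟨⟨fun a b => Subtype.ext (hcomm a a.2 b b.2)⟩⟩
  obtain ⟨ψ, hψ⟩ := Cfsg.Agent.Lib.Helper1.exists_mulAut_hom (p := 3) ↥N
    (fun w => Subtype.ext (hexp w w.2)) (by rw [hN9]; norm_num)
  have hmemn : ∀ c : ↥A, A.subtype c ∈ Subgroup.normalizer (N : Set G) := by
    intro c
    rw [Subgroup.mem_normalizer_iff]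
    intro n
    constructor
    · exact hnorm c.1 c.2 n
    · intro h
      have := hnorm c.1⁻¹ (A.inv_mem c.2) _ h
      simpa [mul_assoc] using this
  let α : ↥A →* MulAut ↥N := N.normalizerMonoidHom.comp (A.subtype.codRestrict _ hmemn)
  have hker : α.ker = N.subgroupOf A := by
    ext g
    rw [MonoidHom.mem_ker, Subgroup.mem_subgroupOf]
    constructor
    · intro hc
      apply hcent g.1 g.2
      intro n hn
      have h1 := congrArg (fun f : MulAut ↥N => ((f ⟨n, hn⟩ : ↥N) : G)) hc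
      have h2 : g.1 * n * g.1⁻¹ = n := h1
      exact mul_inv_eq_iff_eq_mul.1 h2
    · intro hg
      apply MulEquiv.ext
      intro n
      apply Subtype.ext
      show g.1 * n.1 * g.1⁻¹ = n.1
      rw [hcomm _ hg _ n.2]; group
  have hc9 : Nat.card α.ker = 9 := by
    rw [hker, Nat.card_congr (Subgroup.subgroupOfEquivOfLe hNA).toEquiv, hN9]
  refine ⟨α.ker, inferInstance, hc9, ?_⟩
  have hq : Nat.card (↥A ⧸ α.ker) = 48 := by
    have := Subgroup.card_eq_card_quotient_mul_card_subgroup α.ker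
    rw [hA, hc9] at this
    omega
  let f : (↥A ⧸ α.ker) →* GL (Fin 2) (ZMod 3) := (ψ.comp (QuotientGroup.kerLift α)).toHomUnits
  have hf : Function.Injective f := by
    intro a b hab
    apply QuotientGroup.kerLift_injective α
    apply hψ
    have := congrArg (fun u : GL (Fin 2) (ZMod 3) => (u : Matrix (Fin 2) (Fin 2) (ZMod 3))) hab
    exact this
  haveI : Finite (↥A ⧸ α.ker) := Nat.finite_of_card_ne_zero (by rw [hq]; norm_num)
  have hb : Function.Bijective f := by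
    rw [Nat.bijective_iff_injective_and_card]
    exact ⟨hf, by rw [hq, card_GL23]⟩
  exact ⟨MulEquiv.ofBijective f hb⟩

end Cfsg.Agent.Lib.Helper28.M9
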