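/-
Invariant subspaces of the binary permutation module of M24: subspaces of the code.
-/
import Cfsg.Agent.Lib.Helper28.GolayDodecad

set_option autoImplicit false

namespace Cfsg.Agent.Lib.Helper28.GMod

open Finset Cfsg Cfsg.Agent.Lib.Helper28
open scoped Pointwise

theorem perm_ofMask (σ : Equiv.Perm GolayPt) (m : ℕ) :
    (fun p => ofMask m (σ.symm p)) = ofMask (pm σ m) := by
  funext p
  have h : (pm σ m).testBit (idx p) = m.testBit (idx (σ.symm p)) := by
    have := testBit_pm_idx σ m (σ.symm p)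
    rwa [Equiv.apply_symm_apply] at this
  simp only [ofMask, h]

/-- invariance of a subspace under the coordinate permutations of `M24` -/
def Inv (W : Submodule (ZMod 2) (GolayPt → ZMod 2)) : Prop :=
  ∀ σ ∈ M24, ∀ w ∈ W, (fun p => w (σ.symm p)) ∈ W

variable {W : Submodule (ZMod 2) (GolayPt → ZMod 2)}

theorem inW_pm (hW : Inv W) {σ : Equiv.Perm GolayPt} (hσ : σ ∈ M24) {m : ℕ} (hm : ofMask m ∈ W) :
    ofMask (pm σ m) ∈ W := by
  rw [← perm_ofMask]; exact hW σ hσ _ hm

theorem inW_xor {a b : ℕ} (ha : ofMask a ∈ W) (hb : ofMask b ∈ W) : ofMask (a ^^^ b) ∈ W := by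
  rw [ofMask_xor]; exact W.add_mem ha hb

theorem mem_iff_inW (w : GolayPt → ZMod 2) : w ∈ W ↔ ofMask (maskV w) ∈ W := by rw [ofMask_maskV]

def IsOct (m : ℕ) : Prop := m < 2 ^ 24 ∧ isCode m = true ∧ pc 24 m = 8

def IsDod (m : ℕ) : Prop := m < 2 ^ 24 ∧ isCode m = true ∧ pc 24 m = 12

theorem IsOct.mem {m : ℕ} (h : IsOct m) : unmask m ∈ octads := unmask_mem_octads h.1 h.2.1 h.2.2

theorem IsDod.mem {m : ℕ} (h : IsDod m) : unmask m ∈ dodecads := by
  rw [mem_dodecads_iff, mask_unmask m h.1, card_unmask h.1]; exact ⟨h.2.1, h.2.2⟩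

theorem exists_pm_oct {m m' : ℕ} (h : IsOct m) (h' : IsOct m') : ∃ g ∈ M24, pm g m = m' := by
  obtain ⟨g, hg, hgo⟩ := M24_trans_octads h.mem h'.mem
  refine ⟨g, hg, ?_⟩
  have := congrArg mask hgo
  rwa [mask_smul, mask_unmask m h.1, mask_unmask m' h'.1] at this

theorem exists_pm_dod {m m' : ℕ} (h : IsDod m) (h' : IsDod m') : ∃ g ∈ M24, pm g m = m' := by
  obtain ⟨g, hg, hgo⟩ := M24_trans_dodecads h.mem h'.mem
  refine ⟨g, hg, ?_⟩
  have := congrArg mask hgo
  rwa [mask_smul, mask_unmask m h.1, mask_unmask m' h'.1] at this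

theorem basis_isOct : ∀ b ∈ basis, IsOct b := by
  have : ∀ b ∈ basis, b < 2 ^ 24 ∧ isCode b = true ∧ pc 24 b = 8 := by decide +kernel
  exact this

theorem code_le_of_oct (hW : Inv W) {m : ℕ} (hm : IsOct m) (hmW : ofMask m ∈ W) : golayCode ≤ W := by
  intro w hw
  rw [mem_golayCode_iff] at hw
  simp only [isCode, beq_iff_eq] at hw
  rw [← ofMask_maskV w, ← hw]
  apply ofMask_encAux_mem
  intro b hb
  obtain ⟨g, hg, rfl⟩ := exists_pm_oct hm (basis_isOct b hb)
  exact inW_pm hW hg hmW

theorem pm_full (g : Equiv.Perm GolayPt) : pm g (2 ^ 24 - 1) = 2 ^ 24 - 1 := by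
  have := mask_smul g Finset.univ
  rw [Finset.smul_finset_univ, mask_univ] at this
  exact this.symm

/-- a codeword different from zero and all-ones generates the code -/
theorem code_le_of_nontrivial (hW : Inv W) {c : ℕ} (hc : c < 2 ^ 24) (hcode : isCode c = true)
    (h0 : c ≠ 0) (h1 : c ≠ 2 ^ 24 - 1) (hcW : ofMask c ∈ W) : golayCode ≤ W := by
  have hfull : isCode (2 ^ 24 - 1) = true := by decide +kernel
  rcases code_weight hc hcode with h | h | h | h | h
  · exact absurd (code_weight_zero hc h) h0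
  · exact code_le_of_oct hW ⟨hc, hcode, h⟩ hcW
  · -- dodecads
    have hd : IsDod c := ⟨hc, hcode, h⟩
    have d1 : IsDod 8442831 := by unfold IsDod; decide +kernel
    have d2 : IsDod 8452849 := by unfold IsDod; decide +kernel
    have o : IsOct 10558 := by unfold IsOct; decide +kernel
    obtain ⟨g1, hg1, e1⟩ := exists_pm_dod hd d1
    obtain ⟨g2, hg2, e2⟩ := exists_pm_dod hd d2
    have h3 := inW_xor (e1 ▸ inW_pm hW hg1 hcW) (e2 ▸ inW_pm hW hg2 hcW)
    have h4 : 8442831 ^^^ 8452849 = 10558 := by decide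
    rw [h4] at h3
    exact code_le_of_oct hW o h3
  · -- complements of octads
    have hlt : c ^^^ (2 ^ 24 - 1) < 2 ^ 24 := Nat.xor_lt_two_pow hc (by norm_num)
    have hs : unmask (c ^^^ (2 ^ 24 - 1)) = Finset.univ \ unmask c := by
      ext p
      simp only [mem_unmask, Nat.testBit_xor, Nat.testBit_two_pow_sub_one, Finset.mem_sdiff, Finset.mem_univ,
        true_and, idx_lt, decide_true, Bool.xor_true, Bool.not_eq_true']
      cases c.testBit (idx p) <;> simp
    have ho : IsOct (c ^^^ (2 ^ 24 - 1)) := by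
      refine ⟨hlt, isCode_xor _ _ hcode hfull, ?_⟩
      rw [← card_unmask hlt, hs, Finset.card_sdiff_of_subset (Finset.subset_univ _), card_unmask hc, h]
      rfl
    have o1 : IsOct 5279 := by unfold IsOct; decide +kernel
    have o2 : IsOct 10558 := by unfold IsOct; decide +kernel
    have o3 : IsOct 15777 := by unfold IsOct; decide +kernel
    obtain ⟨g1, hg1, e1⟩ := exists_pm_oct ho o1
    obtain ⟨g2, hg2, e2⟩ := exists_pm_oct ho o2
    rw [pm_xor, pm_full] at e1 e2
    have h3 := inW_xor (inW_pm hW hg1 hcW) (inW_pm hW hg2 hcW)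
    have h4 : pm g1 c ^^^ pm g2 c = 15777 := by
      have : pm g1 c ^^^ pm g2 c = (pm g1 c ^^^ (2 ^ 24 - 1)) ^^^ (pm g2 c ^^^ (2 ^ 24 - 1)) := by
        rw [Nat.xor_assoc, Nat.xor_comm (2 ^ 24 - 1), Nat.xor_assoc, Nat.xor_self, Nat.xor_zero]
      rw [this, e1, e2]; decide
    rw [h4] at h3
    exact code_le_of_oct hW o3 h3
  · exfalso
    apply h1
    have h5 : (unmask c).card = 24 := by rw [card_unmask hc, h]
    have h6 : unmask c = Finset.univ := by
      apply Finset.eq_univ_of_card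
      rw [h5]; rfl
    rw [← mask_unmask c hc, h6, mask_univ]

theorem maskV_one : maskV (fun _ => (1 : ZMod 2)) = 2 ^ 24 - 1 := by decide +kernel

theorem ofMask_full : ofMask (2 ^ 24 - 1) = fun _ => (1 : ZMod 2) := by
  rw [← maskV_one, ofMask_maskV]

theorem one_mem_code : (fun _ : GolayPt => (1 : ZMod 2)) ∈ golayCode := by
  rw [mem_golayCode_iff, maskV_one]; decide +kernel

/-- invariant subspaces of the code -/
theorem sub_code (hW : Inv W) (hle : W ≤ golayCode) :
    W = ⊥ ∨ W = Submodule.span (ZMod 2) {fun _ => (1 : ZMod 2)} ∨ W = golayCode := by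
  by_cases hex : ∃ w ∈ W, w ≠ 0 ∧ w ≠ fun _ => (1 : ZMod 2)
  · obtain ⟨w, hw, hw0, hw1⟩ := hex
    right; right
    apply le_antisymm hle
    apply code_le_of_nontrivial hW (maskV_lt w) ((mem_golayCode_iff w).1 (hle hw)) _ _
      ((mem_iff_inW w).1 hw)
    · intro h
      apply hw0
      rw [← ofMask_maskV w, h, ofMask_zero]
    · intro h
      apply hw1
      rw [← ofMask_maskV w, h, ofMask_full]
  · push_neg at hex
    by_cases h1 : (fun _ => (1 : ZMod 2)) ∈ W
    · right; left
      apply le_antisymm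
      · intro w hw
        by_cases h0 : w = 0
        · rw [h0]; exact Submodule.zero_mem _
        · rw [hex w hw h0]; exact Submodule.subset_span rfl
      · rw [Submodule.span_le]
        intro w hw
        rw [Set.mem_singleton_iff.1 hw]; exact h1
    · left
      rw [eq_bot_iff]
      intro w hw
      by_contra h0
      exact h1 (hex w hw h0 ▸ hw)

end Cfsg.Agent.Lib.Helper28.GMod
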