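/-
Invariant subspaces of the binary permutation module of M24: the classification.
-/
import Cfsg.Agent.Lib.Helper28.GolayMod2

set_option autoImplicit false

namespace Cfsg.Agent.Lib.Helper28.GMod

open Finset Cfsg Cfsg.Agent.Lib.Helper28
open scoped Pointwise

variable {W : Submodule (ZMod 2) (GolayPt → ZMod 2)}

theorem exists_bit {e : ℕ} (h : 1 ≤ pc 24 e) : ∃ i < 24, e.testBit i = true := by
  by_contra hc
  push_neg at hc
  rw [pc_eq_sum] at h
  have : ∑ i ∈ Finset.range 24, (e.testBit i).toNat = 0 := by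
    apply Finset.sum_eq_zero
    intro i hi
    have := hc i (Finset.mem_range.1 hi)
    simp [this]
  omega

theorem ofMask_pow (p : GolayPt) : ofMask (2 ^ idx p) = Pi.single p 1 := by
  funext r
  simp only [ofMask, Nat.testBit_two_pow, decide_eq_true_eq, Pi.single_apply]
  by_cases h : r = p
  · simp [h]
  · have : idx p ≠ idx r := fun h2 => h (idx_injective h2).symm
    simp [h, this]

/-- a pair in an invariant subspace not contained in the code -/
theorem exists_pair (hW : Inv W) {e : ℕ} (he : e < 2 ^ 24) (h1 : 1 ≤ pc 24 e) (h4 : pc 24 e ≤ 4)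
    (heW : ofMask e ∈ W ∨ ofMask (e ^^^ (2 ^ 24 - 1)) ∈ W) :
    ∃ p q : GolayPt, p ≠ q ∧ ofMask (2 ^ idx p ^^^ 2 ^ idx q) ∈ W := by
  obtain ⟨i, hi, hbit⟩ := exists_bit h1
  have hlt : e ^^^ 2 ^ i < 2 ^ 24 := Nat.xor_lt_two_pow he (Nat.pow_lt_pow_right (by norm_num) hi)
  have hsub : unmask (e ^^^ 2 ^ i) ⊆ unmask e := by
    intro r hr
    rw [mem_unmask, Nat.testBit_xor, Nat.testBit_two_pow] at hr
    rw [mem_unmask]
    by_cases h : i = idx r
    · rw [← h]; exact hbit
    · simpa [h] using hr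
  have hcard : (unmask e).card ≤ 4 := by rw [card_unmask he]; exact h4
  have hF : (unmask (e ^^^ 2 ^ i)).card ≤ 4 := le_trans (Finset.card_le_card hsub) hcard
  have ha : pt i ∉ unmask (e ^^^ 2 ^ i) := by
    rw [mem_unmask, idx_pt i hi, Nat.testBit_xor, Nat.testBit_two_pow, hbit]
    simp
  have hU : (unmask e).card < (Finset.univ : Finset GolayPt).card := by
    have h3 : (Finset.univ : Finset GolayPt).card = 24 := rfl
    omega
  obtain ⟨b, -, hb⟩ := Finset.exists_mem_notMem_of_card_lt_card hU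
  obtain ⟨σ, hσ, hab, hfix⟩ := transit hF ha (fun h => hb (hsub h))
  have hpm : pm σ e = (e ^^^ 2 ^ i) ^^^ 2 ^ idx b := by
    have h5 : e = (e ^^^ 2 ^ i) ^^^ 2 ^ i := by
      rw [Nat.xor_assoc, Nat.xor_self, Nat.xor_zero]
    conv_lhs => rw [h5]
    rw [pm_xor, pm_fix hlt hfix]
    have h6 := pm_two_pow σ (pt i)
    rw [idx_pt i hi, hab] at h6
    rw [h6]
  have hkey : e ^^^ pm σ e = 2 ^ idx (pt i) ^^^ 2 ^ idx b := by
    rw [hpm, idx_pt i hi]
    generalize 2 ^ i = x
    generalize 2 ^ idx b = y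
    apply Nat.eq_of_testBit_eq
    intro k
    simp only [Nat.testBit_xor]
    cases e.testBit k <;> cases x.testBit k <;> cases y.testBit k <;> rfl
  refine ⟨pt i, b, ?_, ?_⟩
  · intro h
    apply hb
    rw [← h, mem_unmask, idx_pt i hi]; exact hbit
  · rw [← hkey]
    rcases heW with h | h
    · exact inW_xor h (inW_pm hW hσ h)
    · have h7 := inW_xor h (inW_pm hW hσ h)
      rw [pm_xor, pm_full] at h7
      have h8 : (e ^^^ (2 ^ 24 - 1)) ^^^ (pm σ e ^^^ (2 ^ 24 - 1)) = e ^^^ pm σ e := by
        generalize pm σ e = x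
        generalize 2 ^ 24 - 1 = y
        apply Nat.eq_of_testBit_eq
        intro k
        simp only [Nat.testBit_xor]
        cases e.testBit k <;> cases x.testBit k <;> cases y.testBit k <;> rfl
      rwa [h8] at h7

theorem all_pairs (hW : Inv W) {p q : GolayPt} (hpq : p ≠ q) (h : ofMask (2 ^ idx p ^^^ 2 ^ idx q) ∈ W)
    (p' q' : GolayPt) : (Pi.single p' 1 + Pi.single q' 1 : GolayPt → ZMod 2) ∈ W := by
  by_cases h' : p' = q'
  · rw [h']
    have : (Pi.single q' 1 + Pi.single q' 1 : GolayPt → ZMod 2) = 0 := by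
      funext r
      have h2 : ∀ a : ZMod 2, a + a = 0 := by decide
      exact h2 _
    rw [this]; exact W.zero_mem
  · obtain ⟨g, hg, h1, h2⟩ := M24_trans_pt2 hpq h'
    have h3 := inW_pm hW hg h
    rw [pm_xor, pm_two_pow, pm_two_pow, h1, h2, ofMask_xor, ofMask_pow, ofMask_pow] at h3
    exact h3

theorem even_mem (h : ∀ p' q' : GolayPt, (Pi.single p' 1 + Pi.single q' 1 : GolayPt → ZMod 2) ∈ W)
    {w : GolayPt → ZMod 2} (hw : ∑ p, w p = 0) : w ∈ W := by
  have key : w = ∑ p, w p • (Pi.single p 1 + Pi.single none 1 : GolayPt → ZMod 2) := by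
    funext r
    rw [Finset.sum_apply]
    simp only [Pi.smul_apply, Pi.add_apply, smul_eq_mul, mul_add, Finset.sum_add_distrib, Pi.single_apply,
      mul_ite, mul_one, mul_zero]
    rw [Finset.sum_ite_eq Finset.univ r]
    simp only [Finset.mem_univ, if_true]
    by_cases hr : r = none
    · simp [hr, hw]
    · simp [hr]
  rw [key]
  exact W.sum_mem (fun p _ => W.smul_mem _ (h p none))

/-- the invariant subspaces of the permutation module -/
theorem classify (hW : Inv W) :
    W = ⊥ ∨ W = Submodule.span (ZMod 2) {fun _ => (1 : ZMod 2)} ∨ W = golayCode ∨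
      (W : Set (GolayPt → ZMod 2)) = {w | ∑ p, w p = 0} ∨ W = ⊤ := by
  by_cases hle : W ≤ golayCode
  · rcases sub_code hW hle with h | h | h
    · exact Or.inl h
    · exact Or.inr (Or.inl h)
    · exact Or.inr (Or.inr (Or.inl h))
  · right; right; right
    obtain ⟨v, hv, hvc⟩ := SetLike.not_le_iff_exists.1 hle
    rw [mem_golayCode_iff] at hvc
    obtain ⟨e, he, h1, h4, heW⟩ := exists_small hW (maskV_lt v) ((mem_iff_inW v).1 hv) hvc
    obtain ⟨p, q, hpq, hp⟩ := exists_pair hW he h1 h4 heW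
    have hall := all_pairs hW hpq hp
    by_cases hodd : ∃ w ∈ W, ∑ p, w p ≠ 0
    · right
      obtain ⟨w, hw, hws⟩ := hodd
      have hz : ∀ a : ZMod 2, a ≠ 0 → a = 1 := by decide
      have hws1 := hz _ hws
      rw [eq_top_iff]
      intro u _
      by_cases hu : ∑ p, u p = 0
      · exact even_mem hall hu
      · have hu1 := hz _ hu
        have h5 : u + w ∈ W := by
          apply even_mem hall
          simp only [Pi.add_apply, Finset.sum_add_distrib, hu1, hws1]
          decide
        have h6 : u = (u + w) - w := by abel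
        rw [h6]; exact W.sub_mem h5 hw
    · left
      push_neg at hodd
      ext w
      exact ⟨fun hw => hodd w hw, fun hw => even_mem hall hw⟩

end Cfsg.Agent.Lib.Helper28.GMod
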