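/-
The stabiliser of a codeword fixes no nonzero coset of the code.
-/
import Cfsg.Agent.Lib.Helper28.GolayMod2

set_option autoImplicit false

namespace Cfsg.Agent.Lib.Helper28.GMod

open Finset Cfsg Cfsg.Agent.Lib.Helper28
open scoped Pointwise

def movesAll (gens : List (List ℕ)) : Bool :=
  allBelow (fun t => Nat.beq t 0 || gens.any (fun L => !(isCodeF (Nat.xor (permMask L t) t)))) 4096

def stabOK (gens : List (List ℕ)) (U0 : ℕ) : Bool := gens.all (fun L => inM24 L && permMask L U0 == U0)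

/-- the property to be proved, for masks -/
def Claim (U : ℕ) : Prop :=
  ∀ m, m < 2 ^ 24 → isCode m ≠ true → ∃ σ ∈ M24, pm σ U = U ∧ isCode (pm σ m ^^^ m) ≠ true

theorem std_claim {gens : List (List ℕ)} {U0 : ℕ} (h1 : stabOK gens U0 = true) (h2 : movesAll gens = true) :
    Claim U0 := by
  intro m hm hmc
  have hj : m >>> 12 < 4096 := by
    rw [Nat.shiftRight_eq_div_pow]; omega
  have hlt := enc_lt _ hj
  have hcc := isCode_enc _ hj
  have ht : m ^^^ enc (m >>> 12) < 4096 := by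
    have h1 : (m ^^^ enc (m >>> 12)) >>> 12 = 0 := by
      rw [Nat.shiftRight_xor_distrib, enc_shiftRight _ hj, Nat.xor_self]
    rw [Nat.shiftRight_eq_div_pow] at h1
    have := (Nat.div_eq_zero_iff).1 h1
    omega
  generalize enc (m >>> 12) = c at hlt hcc ht
  have ht0 : m ^^^ c ≠ 0 := by
    intro h
    rw [Nat.xor_eq_zero_iff] at h
    exact hmc (h ▸ hcc)
  have h3 := allBelow_spec h2 _ ht
  rw [Bool.or_eq_true] at h3
  rcases h3 with h3 | h3
  · exact absurd (Nat.eq_of_beq_eq_true h3) ht0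
  rw [List.any_eq_true] at h3
  obtain ⟨L, hL, h4⟩ := h3
  rw [stabOK, List.all_eq_true] at h1
  have h5 := h1 L hL
  rw [Bool.and_eq_true, beq_iff_eq] at h5
  have hv : validTbl L = true := by
    have := h5.1
    rw [inM24, Bool.and_eq_true] at this
    exact this.1
  have hσ := permOf_mem_M24 h5.1
  refine ⟨permOf L, hσ, by rw [pm_permOf hv]; exact h5.2, ?_⟩
  intro hcode
  have h6 : isCode (pm (permOf L) c ^^^ c) = true := isCode_xor _ _ (isCode_pm_of_mem hσ hlt hcc) hcc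
  have h7 := isCode_xor _ _ hcode h6
  have h8 : (pm (permOf L) m ^^^ m) ^^^ (pm (permOf L) c ^^^ c) = pm (permOf L) (m ^^^ c) ^^^ (m ^^^ c) := by
    rw [pm_xor]
    generalize pm (permOf L) m = x
    generalize pm (permOf L) c = y
    apply Nat.eq_of_testBit_eq
    intro k
    simp only [Nat.testBit_xor]
    cases x.testBit k <;> cases y.testBit k <;> cases m.testBit k <;> cases c.testBit k <;> rfl
  rw [h8, pm_permOf hv] at h7
  have h9 : permMask L (m ^^^ c) ^^^ (m ^^^ c) < 2 ^ 24 := by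
    apply Nat.xor_lt_two_pow _ (by omega)
    rw [← pm_permOf hv]; exact pm_lt _ _
  rw [← isCodeF_eq h9] at h7
  have h10 : isCodeF (Nat.xor (permMask L (m ^^^ c)) (m ^^^ c)) = true := h7
  rw [h10] at h4
  simp at h4

theorem pm_inv_pm (τ : Equiv.Perm GolayPt) {m : ℕ} (hm : m < 2 ^ 24) : pm τ⁻¹ (pm τ m) = m := by
  rw [← pm_mul, inv_mul_cancel, pm_one m hm]

theorem pm_pm_inv (τ : Equiv.Perm GolayPt) {m : ℕ} (hm : m < 2 ^ 24) : pm τ (pm τ⁻¹ m) = m := by
  rw [← pm_mul, mul_inv_cancel, pm_one m hm]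

theorem claim_conj {U U0 : ℕ} (hU : U < 2 ^ 24) {τ : Equiv.Perm GolayPt} (hτ : τ ∈ M24) (h : pm τ U = U0)
    (hc : Claim U0) : Claim U := by
  intro m hm hmc
  have hm' : isCode (pm τ m) ≠ true := by
    intro h1
    have := isCode_pm_of_mem (inv_mem hτ) (pm_lt τ m) h1
    rw [pm_inv_pm τ hm] at this
    exact hmc this
  obtain ⟨σ0, hσ0, h1, h2⟩ := hc (pm τ m) (pm_lt τ m) hm'
  refine ⟨τ⁻¹ * σ0 * τ, mul_mem (mul_mem (inv_mem hτ) hσ0) hτ, ?_, ?_⟩
  · rw [pm_mul, pm_mul, h, h1, ← h, pm_inv_pm τ hU]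
  · intro h3
    apply h2
    have h4 := isCode_pm_of_mem hτ (Nat.xor_lt_two_pow (pm_lt _ _) hm) h3
    rw [pm_xor, pm_mul, pm_mul, pm_pm_inv τ (pm_lt _ _)] at h4
    exact h4

theorem claim_compl {U : ℕ} (hc : Claim (U ^^^ (2 ^ 24 - 1))) : Claim U := by
  intro m hm hmc
  obtain ⟨σ, hσ, h1, h2⟩ := hc m hm hmc
  refine ⟨σ, hσ, ?_, h2⟩
  rw [pm_xor, pm_full] at h1
  have := congrArg (fun x => x ^^^ (2 ^ 24 - 1)) h1
  simp only [Nat.xor_assoc, Nat.xor_self, Nat.xor_zero] at this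
  exact this

def gens0 : List (List ℕ) := [tblAlpha, tblGamma]

def gensO : List (List ℕ) := [[4, 12, 7, 3, 10, 20, 5, 1, 14, 21, 2, 8, 0, 6, 23, 19, 11, 15, 18, 13, 17, 16, 22, 9],
  [10, 7, 12, 1, 2, 14, 21, 3, 5, 9, 4, 8, 0, 19, 16, 22, 20, 18, 13, 15, 6, 17, 23, 11]]

def gensD : List (List ℕ) := [[8, 3, 15, 12, 10, 13, 9, 23, 0, 14, 5, 19, 2, 20, 7, 6, 4, 18, 16, 11, 22, 17, 21, 1],
  [7, 2, 23, 14, 4, 16, 12, 9, 6, 3, 11, 21, 1, 17, 8, 15, 20, 10, 19, 5, 13, 22, 18, 0]]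

theorem claim_zero : Claim 0 := std_claim (gens := gens0) (by decide +kernel) (by decide +kernel)

theorem claim_oct : Claim 5279 := std_claim (gens := gensO) (by decide +kernel) (by decide +kernel)

theorem claim_dod : Claim 8442831 := std_claim (gens := gensD) (by decide +kernel) (by decide +kernel)

theorem claim_isOct {U : ℕ} (h : IsOct U) : Claim U := by
  have o1 : IsOct 5279 := by unfold IsOct; decide +kernel
  obtain ⟨τ, hτ, e⟩ := exists_pm_oct h o1
  exact claim_conj h.1 hτ e claim_oct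

theorem claim_code {U : ℕ} (hU : U < 2 ^ 24) (hc : isCode U = true) : Claim U := by
  have hfull : isCode (2 ^ 24 - 1) = true := by decide +kernel
  have hlt : U ^^^ (2 ^ 24 - 1) < 2 ^ 24 := Nat.xor_lt_two_pow hU (by norm_num)
  have hs : unmask (U ^^^ (2 ^ 24 - 1)) = Finset.univ \ unmask U := by
    ext p
    simp only [mem_unmask, Nat.testBit_xor, Nat.testBit_two_pow_sub_one, Finset.mem_sdiff, Finset.mem_univ,
      true_and, idx_lt, decide_true, Bool.xor_true, Bool.not_eq_true']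
    cases U.testBit (idx p) <;> simp
  have hcard : pc 24 (U ^^^ (2 ^ 24 - 1)) = 24 - pc 24 U := by
    rw [← card_unmask hlt, hs, Finset.card_sdiff_of_subset (Finset.subset_univ _), card_unmask hU]
    rfl
  rcases code_weight hU hc with h | h | h | h | h
  · rw [code_weight_zero hU h]; exact claim_zero
  · exact claim_isOct ⟨hU, hc, h⟩
  · have d1 : IsDod 8442831 := by unfold IsDod; decide +kernel
    obtain ⟨τ, hτ, e⟩ := exists_pm_dod ⟨hU, hc, h⟩ d1
    exact claim_conj hU hτ e claim_dod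
  · apply claim_compl
    exact claim_isOct ⟨hlt, isCode_xor _ _ hc hfull, by rw [hcard, h]⟩
  · apply claim_compl
    have : U ^^^ (2 ^ 24 - 1) = 0 := code_weight_zero hlt (by rw [hcard, h])
    rw [this]; exact claim_zero

theorem main (u : GolayPt → ZMod 2) (hu : u ∈ golayCode) (w : GolayPt → ZMod 2) (hw : w ∉ golayCode) :
    ∃ σ ∈ M24, (fun p => u (σ.symm p)) = u ∧ (fun p => w (σ.symm p)) - w ∉ golayCode := by
  rw [mem_golayCode_iff] at hu hw
  obtain ⟨σ, hσ, h1, h2⟩ := claim_code (maskV_lt u) hu (maskV w) (maskV_lt w) hw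
  refine ⟨σ, hσ, ?_, ?_⟩
  · have := perm_ofMask σ (maskV u)
    rw [h1, ofMask_maskV] at this
    exact this
  · have h3 := perm_ofMask σ (maskV w)
    rw [ofMask_maskV] at h3
    rw [h3, mem_golayCode_iff]
    have h4 : ofMask (pm σ (maskV w)) - w = ofMask (pm σ (maskV w) ^^^ maskV w) := by
      rw [ofMask_xor, ofMask_maskV]
      funext p
      have : ∀ a b : ZMod 2, a - b = a + b := by decide
      exact this _ _
    rw [h4, maskV_ofMask _ (Nat.xor_lt_two_pow (pm_lt _ _) (maskV_lt w))]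
    exact h2

end Cfsg.Agent.Lib.Helper28.GMod
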