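/-
The hexacode over a field with four elements: a concrete model, size and weights.
-/
import Cfsg.Prelude
set_option autoImplicit false
open Cfsg Finset
namespace Cfsg.Agent.Lib.Helper28.Hexa

def fadd (a b : Fin 4) : Fin 4 :=
  (([[0, 1, 2, 3], [1, 0, 3, 2], [2, 3, 0, 1], [3, 2, 1, 0]] : List (List (Fin 4))).getD a.val []).getD b.val 0
def fmul (a b : Fin 4) : Fin 4 :=
  (([[0, 0, 0, 0], [0, 1, 2, 3], [0, 2, 3, 1], [0, 3, 1, 2]] : List (List (Fin 4))).getD a.val []).getD b.val 0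

abbrev CW : Type := Fin 6 → Fin 4
abbrev T3 : Type := Fin 4 × Fin 4 × Fin 4

def ofL (l : List (Fin 4)) : CW := fun i => l.getD i.val 0
def V1 : CW := ofL [2, 3, 3, 2, 3, 2]
def V2 : CW := ofL [3, 2, 2, 3, 3, 2]
def V3 : CW := ofL [3, 2, 3, 2, 2, 3]

def cgen (t : T3) : CW := fun i => fadd (fadd (fmul t.1 (V1 i)) (fmul t.2.1 (V2 i))) (fmul t.2.2 (V3 i))

def cwt (y : CW) : ℕ := (univ.filter fun i => y i ≠ 0).card

theorem cgen_inj : ∀ t t' : T3, cgen t = cgen t' → t = t' := by decide +kernel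
theorem cwt_gen : ∀ t : T3, t = 0 ∨ cwt (cgen t) = 4 ∨ cwt (cgen t) = 6 := by decide +kernel
theorem ccnt4 : (univ.filter (fun t : T3 => cwt (cgen t) = 4)).card = 45 := by decide +kernel
theorem ccnt6 : (univ.filter (fun t : T3 => cwt (cgen t) = 6)).card = 18 := by decide +kernel

section
variable {F : Type*} [Field F] (ω : F)

def e (a : Fin 4) : F := ([0, 1, ω, ω + 1] : List F).getD a.val 0

variable {ω}

theorem two_eq_zero [Fintype F] (hF : Fintype.card F = 4) : (2 : F) = 0 := by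
  have h4 : (4 : F) = 0 := by
    have := Nat.cast_card_eq_zero F
    rw [hF] at this
    exact_mod_cast this
  have : (2 : F) * 2 = 0 := by rw [← h4]; norm_num
  exact mul_self_eq_zero.1 this

theorem e_add (h2 : (2 : F) = 0) (a b : Fin 4) : e ω (fadd a b) = e ω a + e ω b := by
  fin_cases a <;> fin_cases b <;> simp [e, fadd] <;>
  first
    | linear_combination (0 : F) * h2
    | linear_combination (-1 : F) * h2
    | linear_combination (-ω) * h2
    | linear_combination (-ω - 1) * h2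
    | linear_combination (1 : F) * h2
    | linear_combination (ω) * h2
    | linear_combination (ω + 1) * h2

theorem e_mul (h2 : (2 : F) = 0) (hω : ω ^ 2 + ω + 1 = 0) (a b : Fin 4) : e ω (fmul a b) = e ω a * e ω b := by
  fin_cases a <;> fin_cases b <;> simp [e, fmul] <;>
  first
    | linear_combination (0 : F) * h2
    | linear_combination (-1 : F) * hω + (ω + 1) * h2
    | linear_combination (-1 : F) * hω + h2
    | linear_combination (-1 : F) * hω
    | linear_combination (-1 : F) * hω + ω * h2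
    | linear_combination (1 : F) * hω - (ω + 1) * h2
    | linear_combination (1 : F) * hω - h2
    | linear_combination (1 : F) * hω
    | linear_combination (1 : F) * hω - ω * h2

theorem e_eq_zero (hω : ω ^ 2 + ω + 1 = 0) {a : Fin 4} (h : e ω a = 0) : a = 0 := by
  have hw : ω ≠ 0 := by
    rintro rfl
    simp at hω
  fin_cases a
  · rfl
  · simp [e] at h
  · exact absurd h hw
  · exfalso
    have h1 : ω + 1 = 0 := h
    have h3 : ω ^ 2 = 0 := by linear_combination hω - h1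
    exact hw (pow_eq_zero_iff (by norm_num) |>.1 h3)

theorem e_zero : e ω 0 = 0 := rfl

theorem e_inj (h2 : (2 : F) = 0) (hω : ω ^ 2 + ω + 1 = 0) : Function.Injective (e ω) := by
  intro a b hab
  have h1 : e ω (fadd a b) = 0 := by
    rw [e_add h2, hab]
    linear_combination (e ω b) * h2
  have h3 := e_eq_zero hω h1
  have : ∀ a b : Fin 4, fadd a b = 0 → a = b := by decide
  exact this a b h3

theorem e_bij [Fintype F] (hF : Fintype.card F = 4) (hω : ω ^ 2 + ω + 1 = 0) : Function.Bijective (e ω) :=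
  (Fintype.bijective_iff_injective_and_card _).2 ⟨e_inj (two_eq_zero hF) hω, by simp [hF]⟩

theorem sq_eq (h2 : (2 : F) = 0) (hω : ω ^ 2 + ω + 1 = 0) : ω ^ 2 = ω + 1 := by
  linear_combination hω - (ω + 1) * h2

theorem v1_eq (h2 : (2 : F) = 0) (hω : ω ^ 2 + ω + 1 = 0) :
    (![ω, ω ^ 2, ω ^ 2, ω, ω ^ 2, ω] : Fin 6 → F) = fun i => e ω (V1 i) := by
  rw [sq_eq h2 hω]
  funext i
  fin_cases i <;> rfl

theorem v2_eq (h2 : (2 : F) = 0) (hω : ω ^ 2 + ω + 1 = 0) :
    (![ω ^ 2, ω, ω, ω ^ 2, ω ^ 2, ω] : Fin 6 → F) = fun i => e ω (V2 i) := by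
  rw [sq_eq h2 hω]
  funext i
  fin_cases i <;> rfl

theorem v3_eq (h2 : (2 : F) = 0) (hω : ω ^ 2 + ω + 1 = 0) :
    (![ω ^ 2, ω, ω ^ 2, ω, ω, ω ^ 2] : Fin 6 → F) = fun i => e ω (V3 i) := by
  rw [sq_eq h2 hω]
  funext i
  fin_cases i <;> rfl

/-- the word of the hexacode with parameters `t` -/
def gen (ω : F) (t : T3) : Fin 6 → F := fun i => e ω (cgen t i)

theorem mem_iff [Fintype F] (hF : Fintype.card F = 4) (hω : ω ^ 2 + ω + 1 = 0) (x : Fin 6 → F) :
    x ∈ hexacode F ω ↔ ∃ t : T3, gen ω t = x := by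
  have h2 := two_eq_zero hF
  unfold hexacode
  rw [Submodule.mem_span_triple, v1_eq h2 hω, v2_eq h2 hω, v3_eq h2 hω]
  have key : ∀ t : T3, e ω t.1 • (fun i => e ω (V1 i)) + e ω t.2.1 • (fun i => e ω (V2 i)) +
      e ω t.2.2 • (fun i => e ω (V3 i)) = gen ω t := by
    intro t
    funext i
    simp only [gen, cgen, e_add h2, e_mul h2 hω, Pi.add_apply, Pi.smul_apply, smul_eq_mul]
  constructor
  · rintro ⟨a, b, c, rfl⟩
    obtain ⟨a, rfl⟩ := (e_bij hF hω).2 a
    obtain ⟨b, rfl⟩ := (e_bij hF hω).2 b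
    obtain ⟨c, rfl⟩ := (e_bij hF hω).2 c
    exact ⟨(a, b, c), (key (a, b, c)).symm⟩
  · rintro ⟨t, rfl⟩
    exact ⟨_, _, _, key t⟩

theorem gen_inj (h2 : (2 : F) = 0) (hω : ω ^ 2 + ω + 1 = 0) : Function.Injective (gen ω) := by
  intro t t' h
  apply cgen_inj
  funext i
  exact e_inj h2 hω (congrFun h i)

theorem wt_gen [DecidableEq F] (hω : ω ^ 2 + ω + 1 = 0) (t : T3) :
    (univ.filter fun i => gen ω t i ≠ 0).card = cwt (cgen t) := by
  unfold cwt
  congr 1
  ext i
  rw [mem_filter, mem_filter]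
  simp only [mem_univ, true_and, gen]
  constructor
  · intro h h0
    exact h (by rw [h0]; rfl)
  · intro h h0
    exact h (e_eq_zero hω h0)

theorem ncard_wt [Fintype F] [DecidableEq F] (hF : Fintype.card F = 4) (hω : ω ^ 2 + ω + 1 = 0) (k : ℕ) :
    {x : Fin 6 → F | x ∈ hexacode F ω ∧ (univ.filter fun i => x i ≠ 0).card = k}.ncard
      = (univ.filter (fun t : T3 => cwt (cgen t) = k)).card := by
  have : {x : Fin 6 → F | x ∈ hexacode F ω ∧ (univ.filter fun i => x i ≠ 0).card = k}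
      = gen ω '' ((univ.filter (fun t : T3 => cwt (cgen t) = k) : Finset T3) : Set T3) := by
    ext x
    simp only [Set.mem_setOf_eq, coe_filter, mem_univ, true_and, Set.mem_image, mem_iff hF hω]
    constructor
    · rintro ⟨⟨t, rfl⟩, hk⟩
      exact ⟨t, by rw [← wt_gen hω]; exact hk, rfl⟩
    · rintro ⟨t, ht, rfl⟩
      exact ⟨⟨t, rfl⟩, by rw [wt_gen hω]; exact ht⟩
  rw [this, Set.ncard_image_of_injective _ (gen_inj (two_eq_zero hF) hω), Set.ncard_coe_finset]

theorem main1610 [Fintype F] [DecidableEq F] (hF : Fintype.card F = 4) (hω : ω ^ 2 + ω + 1 = 0) :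
    Nat.card ↥(hexacode F ω) = 64 ∧
    (∀ x ∈ hexacode F ω, x ≠ 0 → (univ.filter fun i => x i ≠ 0).card = 4 ∨ (univ.filter fun i => x i ≠ 0).card = 6) ∧
    {x : Fin 6 → F | x ∈ hexacode F ω ∧ (univ.filter fun i => x i ≠ 0).card = 4}.ncard = 45 ∧
    {x : Fin 6 → F | x ∈ hexacode F ω ∧ (univ.filter fun i => x i ≠ 0).card = 6}.ncard = 18 := by
  refine ⟨?_, ?_, (ncard_wt hF hω 4).trans ccnt4, (ncard_wt hF hω 6).trans ccnt6⟩
  · have eq : T3 ≃ hexacode F ω := Equiv.ofBijective (fun t => ⟨gen ω t, (mem_iff hF hω _).2 ⟨t, rfl⟩⟩)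
      ⟨fun a b h => gen_inj (two_eq_zero hF) hω (Subtype.ext_iff.1 h), fun x => by
        obtain ⟨t, ht⟩ := (mem_iff hF hω _).1 x.2
        exact ⟨t, Subtype.ext ht⟩⟩
    rw [← Nat.card_congr eq, Nat.card_eq_fintype_card]
    simp [Fintype.card_prod]
  · intro x hx h0
    obtain ⟨t, rfl⟩ := (mem_iff hF hω _).1 hx
    rw [wt_gen hω]
    rcases cwt_gen t with h | h
    · exfalso
      apply h0
      rw [h]
      funext i
      fin_cases i <;> rfl
    · exact h

end

end Cfsg.Agent.Lib.Helper28.Hexa
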