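/-
The monomial automorphism group of the hexacode.
-/
import Cfsg.Agent.Lib.Helper28.Hexa1
import Cfsg.Agent.Lib.Helper28.Frame2
set_option autoImplicit false
set_option maxRecDepth 100000
open Cfsg Finset
namespace Cfsg.Agent.Lib.Helper28.Hexa
open Cfsg.Agent.Lib.Helper28.Stein Cfsg.Agent.Lib.Helper28

def lab6 (i : ℕ) : Fin 6 := ([0, 1, 2, 3, 4, 5] : List (Fin 6)).getD i 0
theorem lab6_inj : ∀ i < 6, ∀ j < 6, lab6 i = lab6 j → i = j := by decide
theorem lab6_val : ∀ i : Fin 6, lab6 i.val = i := by decide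

/-- concrete monomial action -/
def cactF (π : Fin 6 → Fin 6) (s : CW) (y : CW) : CW := fun i => fmul (s i) (y (π i))

/-- the parameters recovered from the first three coordinates -/
def solve (y : CW) : T3 :=
  (fadd (fmul 2 (y 0)) (fmul 3 (y 1)), fadd (fadd (fmul 3 (y 0)) (fmul 3 (y 1))) (y 2), fadd (y 1) (y 2))

theorem solve_gen : ∀ t : T3, solve (cgen t) = t := by decide +kernel

def cmem (y : CW) : Prop := cgen (solve y) = y
instance (y : CW) : Decidable (cmem y) := by unfold cmem; infer_instance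

theorem cmem_of {y : CW} (h : ∃ t, cgen t = y) : cmem y := by
  obtain ⟨t, rfl⟩ := h
  unfold cmem
  rw [solve_gen]

abbrev S6 : Type := Fin 4 × Fin 4 × Fin 4 × Fin 4 × Fin 4 × Fin 4
def toF (s : S6) : CW := fun i =>
  ([s.1, s.2.1, s.2.2.1, s.2.2.2.1, s.2.2.2.2.1, s.2.2.2.2.2] : List (Fin 4)).getD i.val 0

theorem toF_surj (s : CW) : toF (s 0, s 1, s 2, s 3, s 4, s 5) = s := by
  funext i
  fin_cases i <;> rfl

def sw45 (i : Fin 6) : Fin 6 := ([0, 1, 2, 3, 5, 4] : List (Fin 6)).getD i.val 0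

theorem diag_check : ∀ s : S6, (∀ i, toF s i ≠ 0) → cmem (cactF id (toF s) V1) → cmem (cactF id (toF s) V2) →
    cmem (cactF id (toF s) V3) → ∀ i j, toF s i = toF s j := by decide +kernel

theorem swap_check : ∀ s : S6, (∀ i, toF s i ≠ 0) → cmem (cactF sw45 (toF s) V1) → cmem (cactF sw45 (toF s) V2) →
    cmem (cactF sw45 (toF s) V3) → False := by decide +kernel

theorem V1_eq : cgen (1, 0, 0) = V1 := by decide
theorem V2_eq : cgen (0, 1, 0) = V2 := by decide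
theorem V3_eq : cgen (0, 0, 1) = V3 := by decide

def okH (t : List ℕ × List ℕ × List (Fin 4)) : Bool :=
  validN 6 t.1 && (List.range 6).all (fun i => t.2.1.getD (t.1.getD i 0) 0 == i) &&
  (List.range 6).all (fun i => decide (t.2.2.getD i 0 ≠ 0)) &&
  decide (∀ t' : T3, cmem (cactF (fun i => lab6 (t.2.1.getD i.val 0)) (fun i => t.2.2.getD i.val 0) (cgen t')))

def trH : List (List ℕ × List ℕ × List (Fin 4)) := [([0, 1, 2, 3, 4, 5], [0, 1, 2, 3, 4, 5], [1, 1, 1, 1, 1, 1]),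
  ([1, 0, 2, 3, 5, 4], [1, 0, 2, 3, 5, 4], [1, 1, 1, 1, 1, 1]),
  ([2, 0, 1, 3, 4, 5], [1, 2, 0, 3, 4, 5], [1, 1, 1, 1, 2, 3]),
  ([3, 0, 1, 2, 5, 4], [1, 2, 3, 0, 5, 4], [1, 1, 1, 1, 3, 2]),
  ([4, 0, 1, 2, 3, 5], [1, 2, 3, 4, 0, 5], [1, 2, 3, 1, 3, 2]),
  ([5, 0, 1, 2, 4, 3], [1, 2, 3, 5, 4, 0], [1, 3, 2, 1, 3, 2]),
  ([0, 1, 2, 3, 4, 5], [0, 1, 2, 3, 4, 5], [1, 1, 1, 1, 1, 1]),
  ([0, 2, 1, 3, 5, 4], [0, 2, 1, 3, 5, 4], [1, 1, 1, 1, 2, 3]),
  ([0, 3, 1, 2, 4, 5], [0, 2, 3, 1, 4, 5], [1, 1, 1, 1, 3, 2]),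
  ([0, 4, 1, 2, 5, 3], [0, 2, 3, 5, 1, 4], [1, 2, 3, 1, 3, 2]),
  ([0, 5, 1, 2, 3, 4], [0, 2, 3, 4, 5, 1], [1, 3, 2, 1, 3, 2]),
  ([0, 1, 2, 3, 4, 5], [0, 1, 2, 3, 4, 5], [1, 1, 1, 1, 1, 1]),
  ([0, 1, 3, 2, 5, 4], [0, 1, 3, 2, 5, 4], [1, 1, 1, 1, 1, 1]),
  ([0, 1, 4, 2, 3, 5], [0, 1, 3, 4, 2, 5], [1, 2, 3, 3, 3, 3]),
  ([0, 1, 5, 2, 4, 3], [0, 1, 3, 5, 4, 2], [1, 3, 2, 2, 2, 2]),
  ([0, 1, 2, 3, 4, 5], [0, 1, 2, 3, 4, 5], [1, 1, 1, 1, 1, 1]),
  ([0, 1, 2, 4, 5, 3], [0, 1, 2, 5, 3, 4], [1, 2, 3, 3, 3, 3]),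
  ([0, 1, 2, 5, 3, 4], [0, 1, 2, 4, 5, 3], [1, 3, 2, 2, 2, 2])]

theorem trH_ok : ∀ t ∈ trH, okH t = true := by decide +kernel

theorem trH_cover : ∀ k < 4, ∀ j < 6, k ≤ j →
    ∃ t ∈ trH, (∀ i < k, t.1.getD i 0 = i) ∧ t.1.getD k 0 = j := by decide +kernel

theorem fix4 : ∀ σ : Equiv.Perm (Fin 6), σ 0 = 0 → σ 1 = 1 → σ 2 = 2 → σ 3 = 3 → σ = 1 ∨ σ = Equiv.swap 4 5 := by
  decide +kernel

theorem swap_symm_eq : ∀ i : Fin 6, (Equiv.swap (4 : Fin 6) 5).symm i = sw45 i := by decide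

section
variable {F : Type*} [Field F] {ω : F}

def Pres (ω : F) (σ : Equiv.Perm (Fin 6)) (c : Fin 6 → Fˣ) : Prop :=
  ∀ x ∈ hexacode F ω, monomialMap σ c x ∈ hexacode F ω

theorem pres_mul {σ τ : Equiv.Perm (Fin 6)} {c d : Fin 6 → Fˣ} (h1 : Pres ω σ c) (h2 : Pres ω τ d) :
    Pres ω (σ * τ) (fun p => c p * d (σ.symm p)) := by
  intro x hx
  have : monomialMap (σ * τ) (fun p => c p * d (σ.symm p)) x = monomialMap σ c (monomialMap τ d x) := by
    funext p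
    simp only [monomialMap, Units.val_mul]
    rw [mul_assoc]; rfl
  rw [this]; exact h1 _ (h2 _ hx)

theorem pres_one : Pres ω 1 1 := by
  intro x hx
  have : monomialMap 1 (1 : Fin 6 → Fˣ) x = x := by
    funext p
    show ((1 : Fˣ) : F) * x p = x p
    rw [Units.val_one, one_mul]
  rw [this]; exact hx

theorem pres_smul {σ : Equiv.Perm (Fin 6)} {c : Fin 6 → Fˣ} (h : Pres ω σ c) (u : Fˣ) :
    Pres ω σ (fun p => u * c p) := by
  intro x hx
  have : monomialMap σ (fun p => u * c p) x = (u : F) • (monomialMap σ c x) := by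
    funext p
    simp only [monomialMap, Units.val_mul, Pi.smul_apply, smul_eq_mul, mul_assoc]
  rw [this]; exact Submodule.smul_mem _ _ (h x hx)

theorem surj_of_pres [Finite F] {σ : Equiv.Perm (Fin 6)} {c : Fin 6 → Fˣ} (h : Pres ω σ c) {y : Fin 6 → F}
    (hy : y ∈ hexacode F ω) : ∃ x ∈ hexacode F ω, monomialMap σ c x = y := by
  let f : hexacode F ω → hexacode F ω := fun x => ⟨monomialMap σ c x.1, h x.1 x.2⟩
  have hf : Function.Injective f := by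
    intro x x' hxx
    have h1 : monomialMap σ c x.1 = monomialMap σ c x'.1 := congrArg Subtype.val hxx
    apply Subtype.ext
    funext p
    have h2 := congrFun h1 (σ p)
    simp only [monomialMap, Equiv.symm_apply_apply] at h2
    exact (Units.mul_right_inj _).1 h2
  obtain ⟨x, hx⟩ := (Finite.injective_iff_surjective.1 hf) ⟨y, hy⟩
  exact ⟨x.1, x.2, congrArg Subtype.val hx⟩

theorem pres_inv [Finite F] {σ : Equiv.Perm (Fin 6)} {c : Fin 6 → Fˣ} (h : Pres ω σ c) :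
    Pres ω σ⁻¹ (fun p => (c (σ p))⁻¹) := by
  intro y hy
  obtain ⟨x, hx, rfl⟩ := surj_of_pres h hy
  have : monomialMap σ⁻¹ (fun p => (c (σ p))⁻¹) (monomialMap σ c x) = x := by
    funext p
    show (((c (σ p))⁻¹ : Fˣ) : F) * ((c (σ p) : F) * x (σ.symm (σ p))) = x p
    rw [← mul_assoc, Units.inv_mul, one_mul, Equiv.symm_apply_apply]
  rw [this]; exact hx

/-- the permutation parts -/
def PP [Finite F] (ω : F) : Subgroup (Equiv.Perm (Fin 6)) where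
  carrier := {σ | ∃ c, Pres ω σ c}
  mul_mem' := fun ⟨_, h1⟩ ⟨_, h2⟩ => ⟨_, pres_mul h1 h2⟩
  one_mem' := ⟨1, pres_one⟩
  inv_mem' := fun ⟨_, h⟩ => ⟨_, pres_inv h⟩

variable [Fintype F] (hF : Fintype.card F = 4) (hω : ω ^ 2 + ω + 1 = 0)
include hF hω

theorem pres_of_ok {t : List ℕ × List ℕ × List (Fin 4)} (h : okH t = true) :
    ∃ σ c, Pres ω σ c ∧ ∀ i < 6, σ (lab6 i) = lab6 (t.1.getD i 0) := by
  simp only [okH, Bool.and_eq_true, List.all_eq_true, List.mem_range, beq_iff_eq, decide_eq_true_eq] at h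
  obtain ⟨⟨⟨hv, hinv⟩, hsg⟩, hall⟩ := h
  obtain ⟨σ, hσ⟩ := exists_perm_of_tbl (by simp) lab6_inj hv
  obtain ⟨-, -, hsurj⟩ := validN_spec hv
  have h2 := two_eq_zero hF
  refine ⟨σ, fun p => Units.mk0 (e ω (t.2.2.getD p.val 0)) (fun h0 => hsg _ p.2 (e_eq_zero hω h0)), ?_, hσ⟩
  have hsymm : ∀ p : Fin 6, σ.symm p = lab6 (t.2.1.getD p.val 0) := by
    intro p
    obtain ⟨i, hi, hij⟩ := hsurj p.val p.2
    rw [Equiv.symm_apply_eq, ← hij, hinv i hi, hσ i hi, hij, lab6_val]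
  intro x hx
  obtain ⟨t', rfl⟩ := (mem_iff hF hω _).1 hx
  refine (mem_iff hF hω _).2 ⟨solve (cactF (fun i => lab6 (t.2.1.getD i.val 0)) (fun i => t.2.2.getD i.val 0)
    (cgen t')), ?_⟩
  funext p
  have h3 : cgen (solve (cactF (fun i => lab6 (t.2.1.getD i.val 0)) (fun i => t.2.2.getD i.val 0) (cgen t'))) =
    cactF (fun i => lab6 (t.2.1.getD i.val 0)) (fun i => t.2.2.getD i.val 0) (cgen t') := hall t'
  simp only [gen, h3, cactF, monomialMap, Units.val_mk0, hsymm, e_mul h2 hω]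

theorem trans (k : ℕ) (hk : k < 4) (j : ℕ) (hj : j < 6) (hkj : k ≤ j) :
    ∃ σ ∈ PP ω, (∀ i < k, σ (lab6 i) = lab6 i) ∧ σ (lab6 k) = lab6 j := by
  obtain ⟨t, ht, h1, h2⟩ := trH_cover k hk j hj hkj
  obtain ⟨σ, c, hp, hσ⟩ := pres_of_ok hF hω (trH_ok t ht)
  refine ⟨σ, ⟨c, hp⟩, fun i hi => ?_, ?_⟩
  · rw [hσ i (by omega), h1 i hi]
  · rw [hσ k (by omega), h2]

/-- passage to the concrete model -/
theorem conc {σ : Equiv.Perm (Fin 6)} {c : Fin 6 → Fˣ} (h : Pres ω σ c) :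
    ∃ s : CW, (∀ i, e ω (s i) = c i) ∧ (∀ i, s i ≠ 0) ∧ ∀ t', cmem (cactF σ.symm s (cgen t')) := by
  have h2 := two_eq_zero hF
  choose s hs using fun i => (e_bij hF hω).2 (c i : F)
  refine ⟨s, hs, ?_, ?_⟩
  · intro i h0
    have := hs i
    rw [h0] at this
    exact (c i).ne_zero this.symm
  · intro t'
    apply cmem_of
    obtain ⟨t'', ht⟩ := (mem_iff hF hω _).1 (h _ ((mem_iff hF hω _).2 ⟨t', rfl⟩))
    refine ⟨t'', ?_⟩
    funext i
    apply e_inj h2 hω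
    have h3 := congrFun ht i
    simp only [gen, monomialMap] at h3
    rw [h3, cactF, e_mul h2 hω, hs]

theorem diag {c : Fin 6 → Fˣ} (h : Pres ω 1 c) (i j : Fin 6) : c i = c j := by
  obtain ⟨s, hs, h0, hm⟩ := conc hF hω h
  have h1 := hm (1, 0, 0)
  have h2 := hm (0, 1, 0)
  have h3 := hm (0, 0, 1)
  rw [V1_eq] at h1
  rw [V2_eq] at h2
  rw [V3_eq] at h3
  have key := diag_check (s 0, s 1, s 2, s 3, s 4, s 5)
  rw [toF_surj] at key
  have := key h0 h1 h2 h3 i j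
  apply Units.ext
  rw [← hs i, ← hs j, this]

theorem swap_notMem : Equiv.swap (4 : Fin 6) 5 ∉ PP ω := by
  rintro ⟨c, h⟩
  obtain ⟨s, hs, h0, hm⟩ := conc hF hω h
  have hfun : ((Equiv.swap (4 : Fin 6) 5).symm : Fin 6 → Fin 6) = sw45 := funext swap_symm_eq
  rw [hfun] at hm
  have h1 := hm (1, 0, 0)
  have h2 := hm (0, 1, 0)
  have h3 := hm (0, 0, 1)
  rw [V1_eq] at h1
  rw [V2_eq] at h2
  rw [V3_eq] at h3
  have key := swap_check (s 0, s 1, s 2, s 3, s 4, s 5)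
  rw [toF_surj] at key
  exact key h0 h1 h2 h3

theorem lift_aux (k : ℕ) (hk : k ≤ 4) : ∀ σ : Equiv.Perm (Fin 6), (∀ i < 4 - k, σ (lab6 i) = lab6 i) →
    σ ∈ PP ω ∨ σ * Equiv.swap 4 5 ∈ PP ω := by
  induction k with
  | zero =>
    intro σ h
    rcases fix4 σ (h 0 (by norm_num)) (h 1 (by norm_num)) (h 2 (by norm_num)) (h 3 (by norm_num)) with h1 | h1
    · left; rw [h1]; exact (PP ω).one_mem
    · right; rw [h1, Equiv.swap_mul_self]; exact (PP ω).one_mem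
  | succ k ih =>
    intro σ h
    obtain ⟨j, hj, hjm⟩ : ∃ j < 6, lab6 j = σ (lab6 (4 - (k + 1))) :=
      ⟨(σ (lab6 (4 - (k + 1)))).val, (σ (lab6 (4 - (k + 1)))).2, lab6_val _⟩
    have hmj : 4 - (k + 1) ≤ j := by
      by_contra hc
      have h1 := h j (not_le.1 hc)
      rw [← h1] at hjm
      have h2 := lab6_inj j hj (4 - (k + 1)) (by omega) (σ.injective hjm)
      omega
    obtain ⟨u, hu, hfix, hum⟩ := trans hF hω (4 - (k + 1)) (by omega) j hj hmj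
    have h3 := ih (by omega) (u⁻¹ * σ) (by
        intro i hi
        rw [Equiv.Perm.mul_apply, Equiv.Perm.inv_eq_iff_eq]
        rcases Nat.lt_or_ge i (4 - (k + 1)) with h1 | h1
        · rw [h i h1, hfix i h1]
        · have h2 : i = 4 - (k + 1) := by omega
          rw [h2, hum, hjm])
    rcases h3 with h3 | h3
    · left
      have := (PP ω).mul_mem hu h3
      rwa [mul_inv_cancel_left] at this
    · right
      have := (PP ω).mul_mem hu h3
      rwa [← mul_assoc, mul_inv_cancel_left] at this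

theorem PP_eq : PP ω = alternatingGroup (Fin 6) := by
  apply Equiv.Perm.eq_alternatingGroup_of_index_eq_two
  rw [Subgroup.index_eq_two_iff]
  refine ⟨Equiv.swap 4 5, fun b => ?_⟩
  rcases lift_aux hF hω 4 le_rfl b (fun i hi => absurd hi (by omega)) with h | h
  · refine Or.inr ⟨h, fun h' => ?_⟩
    apply swap_notMem hF hω
    have := (PP ω).mul_mem ((PP ω).inv_mem h) h'
    rwa [inv_mul_cancel_left] at this
  · refine Or.inl ⟨h, fun h' => ?_⟩
    apply swap_notMem hF hω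
    have := (PP ω).mul_mem ((PP ω).inv_mem h') h
    rwa [inv_mul_cancel_left] at this

theorem ratio {σ : Equiv.Perm (Fin 6)} {c c' : Fin 6 → Fˣ} (h : Pres ω σ c) (h' : Pres ω σ c') (i j : Fin 6) :
    c' i * (c i)⁻¹ = c' j * (c j)⁻¹ := by
  have hd : Pres ω 1 (fun p => c' p * (c p)⁻¹) := by
    intro y hy
    obtain ⟨x, hx, rfl⟩ := surj_of_pres h hy
    have : monomialMap 1 (fun p => c' p * (c p)⁻¹) (monomialMap σ c x) = monomialMap σ c' x := by
      funext p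
      show (((c' p * (c p)⁻¹ : Fˣ)) : F) * ((c p : F) * x (σ.symm p)) = (c' p : F) * x (σ.symm p)
      rw [← mul_assoc, ← Units.val_mul, inv_mul_cancel_right]
    rw [this]; exact h' x hx
  exact diag hF hω hd i j

theorem main1611 [DecidableEq F] : Nat.card {f : Equiv.Perm (Fin 6) × (Fin 6 → Fˣ) //
      (∀ x ∈ hexacode F ω, monomialMap f.1 f.2 x ∈ hexacode F ω)} = 1080 ∧
    (∀ c : Fin 6 → Fˣ, (∀ x ∈ hexacode F ω, monomialMap 1 c x ∈ hexacode F ω) → ∀ i j, c i = c j) ∧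
    {σ : Equiv.Perm (Fin 6) | ∃ c : Fin 6 → Fˣ, (∀ x ∈ hexacode F ω, monomialMap σ c x ∈ hexacode F ω)} =
      (alternatingGroup (Fin 6) : Set (Equiv.Perm (Fin 6))) := by
  refine ⟨?_, fun c h => diag hF hω h, ?_⟩
  · let φ : {f : Equiv.Perm (Fin 6) × (Fin 6 → Fˣ) // Pres ω f.1 f.2} → PP ω × Fˣ :=
      fun f => (⟨f.1.1, ⟨f.1.2, f.2⟩⟩, f.1.2 0)
    have hφ : Function.Bijective φ := by
      constructor
      · rintro ⟨⟨σ, c⟩, hc⟩ ⟨⟨σ', c'⟩, hc'⟩ hh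
        have h3 : σ = σ' := congrArg (fun z : PP ω × Fˣ => z.1.1) hh
        have h4 : c 0 = c' 0 := congrArg (fun z : PP ω × Fˣ => z.2) hh
        subst h3
        have h5 : c' = c := by
          funext i
          have h6 : c' i * (c i)⁻¹ = c' 0 * (c 0)⁻¹ := ratio hF hω hc hc' i 0
          rw [← h4, mul_inv_cancel] at h6
          exact mul_inv_eq_one.1 h6
        subst h5
        rfl
      · rintro ⟨⟨σ, c, hc⟩, u⟩
        refine ⟨⟨(σ, fun p => (u * (c 0)⁻¹) * c p), pres_smul hc _⟩, ?_⟩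
        show ((⟨σ, _⟩ : PP ω), (u * (c 0)⁻¹) * c 0) = _
        rw [inv_mul_cancel_right]
    have hc2 : Nat.card Fˣ = 3 := by
      rw [Nat.card_eq_fintype_card, Fintype.card_units, hF]
    have hc3 : Nat.card (PP ω) = 360 := by
      rw [PP_eq hF hω, Nat.card_eq_fintype_card]
      have := two_mul_card_alternatingGroup (α := Fin 6)
      rw [Fintype.card_perm, Fintype.card_fin] at this
      have h720 : Nat.factorial 6 = 720 := by decide
      omega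
    exact (Nat.card_eq_of_bijective φ hφ).trans (by rw [Nat.card_prod, hc3, hc2])
  · have := congrArg (fun H : Subgroup (Equiv.Perm (Fin 6)) => (H : Set (Equiv.Perm (Fin 6)))) (PP_eq hF hω)
    exact this

end

end Cfsg.Agent.Lib.Helper28.Hexa
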