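/-
Independent 4-sets and hyperovals of the projective plane of order 4: kernel scans.
-/
import Cfsg.Agent.Lib.Helper28.Frame3
import Cfsg.Agent.Lib.Helper28.SteinD21
set_option autoImplicit false
set_option maxRecDepth 100000
open Cfsg Finset
namespace Cfsg.Agent.Lib.Helper28.Stein

/-- `m` is the mask of a set meeting every line in at most two points -/
def indepL (m : ℕ) : Bool := std21.all (fun c => Nat.ble (pcF (Nat.land c m)) 2)

/-- `m` is the mask of a `k`-set meeting every line in at most two points -/
def indep (k m : ℕ) : Bool := and (Nat.beq (pcF m) k) (indepL m)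

/-- the 168 hyperovals -/
def hypL : List ℕ := [73751, 1319, 524487, 1049235, 279571, 1310819, 10787, 155715, 134275, 541443, 1245443, 854019, 797, 196749, 787469, 266325, 4773, 360485, 164165, 565765, 144389, 16601, 11289, 1049769, 67881, 279081, 1573193, 395337, 1188361, 614409, 1089617, 71825, 1053969, 114961, 297489, 35041, 20833, 58401, 1126433, 538689, 180865, 545921, 1671297, 137985, 560385, 1839617, 1475585, 479233, 540702, 1048974, 68622, 1052726, 559142, 21574, 1146950, 14470, 57606, 1594, 139418, 786730, 1181738, 263370, 1065546, 720970, 74506, 288778, 303154, 790674, 623122, 201746, 1228818, 528994, 164962, 143650, 41666, 340034, 6018, 688514, 1345666, 361730, 1331458, 52738, 1120770, 677890, 137244, 282764, 297228, 1054220, 115212, 1736716, 278836, 68148, 1573460, 213076, 1188116, 796692, 133540, 1835172, 542244, 1246244, 184356, 17348, 329924, 1312068, 39492, 658500, 1122948, 680068, 12036, 353284, 1355780, 4536, 51256, 164440, 529496, 565528, 426152, 201256, 623656, 1593384, 98760, 267080, 1084488, 88136, 78984, 1106056, 1063176, 304648, 929800, 262896, 1066096, 102512, 1058992, 75056, 598224,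 402512, 197520, 1589648, 411792, 788240, 430352, 1183248, 609296, 1611792, 525792, 459104, 150112, 1640544, 140960, 569504, 551200, 860704, 1466400, 27840, 664384, 46400, 1139008, 1321536, 1117568, 55680, 1328768, 365184, 984192, 346880, 1968384, 693760, 1786368, 1168384]

theorem hypL_spec : ∀ h ∈ hypL, h < 2 ^ 21 ∧ indep 6 h = true := by decide +kernel
theorem hypL_nodup : hypL.Nodup := by decide +kernel
theorem hypL_length : hypL.length = 168 := by decide +kernel

theorem count4 : cntSub indepL 21 4 0 = 2520 := by decide +kernel

theorem hyp_all : cntSub (fun m => and (indepL m) (not (hypL.contains m))) 21 6 0 = 0 := by decide +kernel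

theorem hyp_uniq : cntSub (fun m => and (indepL m)
    (not (Nat.beq ((hypL.filter (fun h => Nat.beq (Nat.land h m) m)).length) 1))) 21 4 0 = 0 := by decide +kernel

end Cfsg.Agent.Lib.Helper28.Stein
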