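/-
Independent 4-sets and hyperovals of a projective plane of order 4.
-/
import Cfsg.Agent.Lib.Helper28.Hyp21a
set_option autoImplicit false
open Cfsg Finset
namespace Cfsg.Agent.Lib.Helper28.Stein

section
variable {α : Type*} [Fintype α] [DecidableEq α]

theorem indep_iff (hα : Fintype.card α = 21) {L : Set (Finset α)} {g : ℕ → α}
    (ginj : ∀ i < 21, ∀ j < 21, g i = g j → i = j) (hL : L = {b | ∃ c ∈ std21, img g c = b}) (k : ℕ)
    {m : ℕ} (hm : m < 2 ^ 21) :
    ((img g m).card = k ∧ ∀ l ∈ L, (l ∩ img g m).card ≤ 2) ↔ indep k m = true := by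
  unfold indep indepL
  rw [Bool.and_eq_true, List.all_eq_true, card_img' (by norm_num) ginj hm]
  constructor
  · rintro ⟨h1, h2⟩
    refine ⟨by rw [h1]; exact Nat.beq_refl k, ?_⟩
    intro c hc
    have := h2 (img g c) (by rw [hL]; exact ⟨c, hc, rfl⟩)
    rw [img_inter (by norm_num) hα ginj (std21_lt c hc) hm,
      card_img' (by norm_num) ginj (lt_of_le_of_lt Nat.and_le_left (std21_lt c hc))] at this
    exact Nat.ble_eq_true_of_le this
  · rintro ⟨h1, h2⟩
    refine ⟨Nat.eq_of_beq_eq_true h1, ?_⟩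
    intro l hl
    rw [hL] at hl
    obtain ⟨c, hc, rfl⟩ := hl
    rw [img_inter (by norm_num) hα ginj (std21_lt c hc) hm,
      card_img' (by norm_num) ginj (lt_of_le_of_lt Nat.and_le_left (std21_lt c hc))]
    exact Nat.le_of_ble_eq_true (h2 c hc)

theorem mem_hypL_of_indep {h : ℕ} (hh : h < 2 ^ 21) (h6 : indep 6 h = true) : h ∈ hypL := by
  unfold indep at h6
  rw [Bool.and_eq_true] at h6
  have := of_cntSub_zero (by norm_num) hyp_all hh (Nat.eq_of_beq_eq_true h6.1)
  rw [h6.2] at this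
  simpa using this

theorem main5627 (hα : Fintype.card α = 21) (L : Set (Finset α)) (hL : IsSteinerSystem 2 5 L) :
    {S : Finset α | (S.card = 4 ∧ ∀ l ∈ L, (l ∩ S).card ≤ 2)}.ncard = 2520 ∧
    {H : Finset α | (H.card = 6 ∧ ∀ l ∈ L, (l ∩ H).card ≤ 2)}.ncard = 168 ∧
    ∀ S : Finset α, (S.card = 4 ∧ ∀ l ∈ L, (l ∩ S).card ≤ 2) →
      ∃! H : Finset α, (H.card = 6 ∧ ∀ l ∈ L, (l ∩ H).card ≤ 2) ∧ S ⊆ H := by
  obtain ⟨g, ginj, gL⟩ := frame21 hα hL
  have hLe := eq_of_frame hL hα (by norm_num) std21_lt std21_nodup (by rw [std21_length]; decide) (by norm_num)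
    ginj gL
  refine ⟨?_, ?_, ?_⟩
  · exact (ncard_eq_count (by norm_num) hα ginj (P := fun S => S.card = 4 ∧ ∀ l ∈ L, (l ∩ S).card ≤ 2)
      (f := indep 4) (fun m hm => indep_iff hα ginj hLe 4 hm)).trans
      ((cntSub_eq' indepL (by norm_num) 4).symm.trans count4)
  · rw [ncard_eq_count (by norm_num) hα ginj (P := fun S => S.card = 6 ∧ ∀ l ∈ L, (l ∩ S).card ≤ 2)
      (f := indep 6) (fun m hm => indep_iff hα ginj hLe 6 hm)]
    have : (range (2 ^ 21)).filter (fun m => indep 6 m = true) = hypL.toFinset := by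
      ext m
      simp only [mem_filter, mem_range, List.mem_toFinset]
      constructor
      · rintro ⟨h1, h2⟩
        exact mem_hypL_of_indep h1 h2
      · intro h
        exact hypL_spec m h
    rw [this, List.toFinset_card_of_nodup hypL_nodup, hypL_length]
  · intro S hS
    obtain ⟨m, hm, rfl⟩ := exists_mask (by norm_num) hα ginj S
    have h4 := (indep_iff hα ginj hLe 4 hm).1 hS
    unfold indep at h4
    rw [Bool.and_eq_true] at h4
    have hu := of_cntSub_zero (by norm_num) hyp_uniq hm (Nat.eq_of_beq_eq_true h4.1)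
    rw [h4.2] at hu
    have hu' : (hypL.filter (fun h => Nat.beq (Nat.land h m) m)).length = 1 := by
      have hu2 : Nat.beq ((hypL.filter (fun h => Nat.beq (Nat.land h m) m)).length) 1 = true := by
        simpa using hu
      exact Nat.eq_of_beq_eq_true hu2
    obtain ⟨h0, hh0⟩ := List.length_eq_one_iff.1 hu'
    have hmem : h0 ∈ hypL.filter (fun h => Nat.beq (Nat.land h m) m) := by rw [hh0]; simp
    obtain ⟨hm1, hm2⟩ := List.mem_filter.1 hmem
    obtain ⟨hs1, hs2⟩ := hypL_spec h0 hm1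
    refine ⟨img g h0, ⟨(indep_iff hα ginj hLe 6 hs1).2 hs2,
      (img_subset_iff (by norm_num) hα ginj hm hs1).2 (Nat.eq_of_beq_eq_true hm2)⟩, ?_⟩
    rintro H ⟨hH, hSH⟩
    obtain ⟨h, hh, rfl⟩ := exists_mask (by norm_num) hα ginj H
    have h6 := (indep_iff hα ginj hLe 6 hh).1 hH
    have hin := mem_hypL_of_indep hh h6
    have h7 : h ∈ hypL.filter (fun h => Nat.beq (Nat.land h m) m) := by
      refine List.mem_filter.2 ⟨hin, ?_⟩
      have h8 : Nat.land h m = m := (img_subset_iff (by norm_num) hα ginj hm hh).1 hSH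
      rw [h8]; exact Nat.beq_refl m
    rw [hh0] at h7
    rw [List.mem_singleton.1 h7]

end

end Cfsg.Agent.Lib.Helper28.Stein
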