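/-
Every permutation of a hyperoval of a projective plane of order 4 extends uniquely to a collineation.
-/
import Cfsg.Agent.Lib.Helper28.Hyp21c
set_option autoImplicit false
open Cfsg Finset
open scoped Pointwise
namespace Cfsg.Agent.Lib.Helper28.Stein

section
variable {α : Type*} [Fintype α] [DecidableEq α] {g : ℕ → α} {L : Set (Finset α)}

theorem aut_of_ok (hα : Fintype.card α = 21) (ginj : ∀ i < 21, ∀ j < 21, g i = g j → i = j)
    (hL : L = {b | ∃ c ∈ std21, img g c = b}) {τ : List ℕ} (h : okAut τ = true) :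
    ∃ a ∈ setSystemAut L, (∀ i < 21, a (g i) = g (τ.getD i 0)) ∧
      ∀ c < 2 ^ 21, a • img g c = img g (permMask τ c) := by
  simp only [okAut, Bool.and_eq_true, List.all_eq_true, List.contains_iff_mem] at h
  obtain ⟨a, ha⟩ := exists_perm_of_tbl hα ginj h.1
  refine ⟨a, ?_, ha, fun c hc => smul_img (by norm_num) h.1 ha hc⟩
  apply mem_aut_of_forall'
  intro b hb
  rw [hL] at hb ⊢
  obtain ⟨c, hc, rfl⟩ := hb
  exact ⟨permMask τ c, h.2 c hc, (smul_img (by norm_num) h.1 ha (std21_lt c hc)).symm⟩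

theorem mem_h0 (hα : Fintype.card α = 21) (ginj : ∀ i < 21, ∀ j < 21, g i = g j → i = j) {x : α}
    (hx : x ∈ img g 73751) : ∃ i ∈ [0, 1, 2, 4, 13, 16], g i = x := by
  obtain ⟨i, hi, rfl⟩ := mem_image.1 hx
  refine ⟨i, ?_, rfl⟩
  have h1 := mem_bits.1 hi
  have : ∀ i < 24, (73751 : ℕ).testBit i = true → i ∈ [0, 1, 2, 4, 13, 16] := by decide +kernel
  exact this i h1.1 h1.2

theorem swap_h0 (hα : Fintype.card α = 21) (ginj : ∀ i < 21, ∀ j < 21, g i = g j → i = j)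
    (hL : L = {b | ∃ c ∈ std21, img g c = b}) :
    ∀ x ∈ img g 73751, ∀ y ∈ img g 73751, x ≠ y →
      ∃ a ∈ setSystemAut L, a x = y ∧ a y = x ∧ ∀ z ∈ img g 73751, z ≠ x → z ≠ y → a z = z := by
  intro x hx y hy hxy
  obtain ⟨i, hi, rfl⟩ := mem_h0 hα ginj hx
  obtain ⟨j, hj, rfl⟩ := mem_h0 hα ginj hy
  have hlt : ∀ k ∈ [0, 1, 2, 4, 13, 16], k < 21 := by decide
  have hc := swL_check
  simp only [List.all_eq_true] at hc
  have h1 := hc i hi j hj
  have hij : i ≠ j := fun hh => hxy (by rw [hh])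
  rw [Bool.or_eq_true, beq_iff_eq, List.any_eq_true] at h1
  obtain ⟨τ, -, hτ⟩ := h1.resolve_left hij
  simp only [Bool.and_eq_true, beq_iff_eq, List.all_eq_true, Bool.or_eq_true] at hτ
  obtain ⟨⟨⟨h2, h3⟩, h4⟩, h5⟩ := hτ
  obtain ⟨a, ha, ha', -⟩ := aut_of_ok hα ginj hL h2
  refine ⟨a, ha, by rw [ha' i (hlt i hi), h3], by rw [ha' j (hlt j hj), h4], ?_⟩
  intro z hz hzx hzy
  obtain ⟨k, hk, rfl⟩ := mem_h0 hα ginj hz
  rw [ha' k (hlt k hk)]
  rcases h5 k hk with (h6 | h6) | h6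
  · exact absurd (by rw [h6]) hzx
  · exact absurd (by rw [h6]) hzy
  · rw [h6]

theorem swap_hyp (hα : Fintype.card α = 21) (ginj : ∀ i < 21, ∀ j < 21, g i = g j → i = j)
    (hL : L = {b | ∃ c ∈ std21, img g c = b}) {h : ℕ} (hh : h ∈ hypL) :
    ∀ x ∈ img g h, ∀ y ∈ img g h, x ≠ y →
      ∃ a ∈ setSystemAut L, a x = y ∧ a y = x ∧ ∀ z ∈ img g h, z ≠ x → z ≠ y → a z = z := by
  have hc := trL_check
  rw [List.all_eq_true] at hc
  have h1 := hc h hh
  rw [List.any_eq_true] at h1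
  obtain ⟨τ, -, hτ⟩ := h1
  rw [Bool.and_eq_true, beq_iff_eq] at hτ
  obtain ⟨b, hb, -, hb'⟩ := aut_of_ok hα ginj hL hτ.2
  have hbH : b • img g h = img g 73751 := by rw [hb' h (hypL_spec h hh).1, hτ.1]
  have hmem : ∀ x ∈ img g h, b x ∈ img g 73751 := by
    intro x hx
    rw [← hbH]; exact Finset.smul_mem_smul_finset hx
  intro x hx y hy hxy
  obtain ⟨a, ha, h2, h3, h4⟩ := swap_h0 hα ginj hL (b x) (hmem x hx) (b y) (hmem y hy)
    (fun hh => hxy (b.injective hh))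
  refine ⟨b⁻¹ * a * b, (setSystemAut L).mul_mem ((setSystemAut L).mul_mem ((setSystemAut L).inv_mem hb) ha) hb,
    ?_, ?_, ?_⟩
  · simp [h2]
  · simp [h3]
  · intro z hz hzx hzy
    have := h4 (b z) (hmem z hz) (fun hh => hzx (b.injective hh)) (fun hh => hzy (b.injective hh))
    simp [this]

theorem eq_one_of_fix_hyp (hα : Fintype.card α = 21) (ginj : ∀ i < 21, ∀ j < 21, g i = g j → i = j)
    (hS : IsSteinerSystem 2 5 L) (hL : L = {b | ∃ c ∈ std21, img g c = b}) {h : ℕ} (hh : h ∈ hypL)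
    {a : Equiv.Perm α} (ha : a ∈ setSystemAut L) (hfix : ∀ x ∈ img g h, a x = x) : a = 1 := by
  have hh21 := (hypL_spec h hh).1
  have hline : ∀ c ∈ std21, pcF (Nat.land c h) = 2 → a • img g c = img g c := by
    intro c hc h2
    have hcL : img g c ∈ L := by rw [hL]; exact ⟨c, hc, rfl⟩
    apply Cfsg.Agent.Lib.Helper3.eq_of_le_card_inter hS hcL (smul_mem_of_aut' ha hcL)
    have hsub : img g c ∩ img g h ⊆ a • img g c ∩ img g c := by
      intro x hx
      obtain ⟨hx1, hx2⟩ := mem_inter.1 hx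
      refine mem_inter.2 ⟨?_, hx1⟩
      have := Finset.smul_mem_smul_finset (a := a) hx1
      rwa [Equiv.Perm.smul_def, hfix x hx2] at this
    refine le_trans ?_ (card_le_card hsub)
    rw [img_inter (by norm_num) hα ginj (std21_lt c hc) hh21,
      card_img' (by norm_num) ginj (lt_of_le_of_lt Nat.and_le_left (std21_lt c hc))]
    exact le_of_eq h2.symm
  apply Equiv.ext
  intro x
  obtain ⟨i, hi, rfl⟩ := exists_idx hα ginj x
  have hc := secant_check
  simp only [List.all_eq_true, List.mem_range] at hc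
  have h1 := hc h hh i hi
  rw [Bool.or_eq_true] at h1
  rcases h1 with h1 | h1
  · exact hfix _ ((mem_img_iff (by norm_num) ginj hh21 hi).2 h1)
  · rw [List.any_eq_true] at h1
    obtain ⟨c, hc1, h2⟩ := h1
    rw [Bool.and_eq_true, List.any_eq_true] at h2
    obtain ⟨h3, c', hc2, h4⟩ := h2
    rw [Bool.and_eq_true] at h4
    have e1 := hline c hc1 (Nat.eq_of_beq_eq_true h3)
    have e2 := hline c' hc2 (Nat.eq_of_beq_eq_true h4.1)
    have e3 : c &&& c' = 2 ^ i := Nat.eq_of_beq_eq_true h4.2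
    have hpow : 2 ^ i < 2 ^ 21 := Nat.pow_lt_pow_right (by norm_num) hi
    have hi1 : g i ∈ img g (c &&& c') := by
      rw [e3, mem_img_iff (by norm_num) ginj hpow hi, Nat.testBit_two_pow_self]
    rw [← img_inter (by norm_num) hα ginj (std21_lt c hc1) (std21_lt c' hc2)] at hi1
    obtain ⟨m1, m2⟩ := mem_inter.1 hi1
    have n1 : a (g i) ∈ img g c := by
      rw [← e1]; exact Finset.smul_mem_smul_finset m1
    have n2 : a (g i) ∈ img g c' := by
      rw [← e2]; exact Finset.smul_mem_smul_finset m2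
    have n3 : a (g i) ∈ img g (2 ^ i) := by
      rw [← e3, ← img_inter (by norm_num) hα ginj (std21_lt c hc1) (std21_lt c' hc2)]
      exact mem_inter.2 ⟨n1, n2⟩
    obtain ⟨j, hj, hji⟩ := mem_image.1 n3
    have hj2 := (mem_bits.1 hj).2
    rw [Nat.testBit_two_pow] at hj2
    have : i = j := by simpa using hj2
    rw [Equiv.Perm.one_apply, ← hji, this]

theorem main5628 (hα : Fintype.card α = 21) (L : Set (Finset α)) (hL : IsSteinerSystem 2 5 L) (H : Finset α)
    (hH : (H.card = 6 ∧ ∀ l ∈ L, (l ∩ H).card ≤ 2)) (σ : Equiv.Perm ↥H) :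
    ∃! a : Equiv.Perm α, a ∈ setSystemAut L ∧ ∀ p : ↥H, a p = σ p := by
  obtain ⟨g, ginj, gL⟩ := frame21 hα hL
  have hLe := eq_of_frame hL hα (by norm_num) std21_lt std21_nodup (by rw [std21_length]; decide) (by norm_num)
    ginj gL
  obtain ⟨h, hh, rfl⟩ := exists_mask (by norm_num) hα ginj H
  have hin := mem_hypL_of_indep hh ((indep_iff hα ginj hLe 6 hh).1 hH)
  obtain ⟨a, ha, ha'⟩ := exists_extension (setSystemAut L) (img g h) (swap_hyp hα ginj hLe hin) σ
  refine ⟨a, ⟨ha, ha'⟩, ?_⟩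
  rintro b ⟨hb, hb'⟩
  have : a⁻¹ * b = 1 := by
    apply eq_one_of_fix_hyp hα ginj hL hLe hin ((setSystemAut L).mul_mem ((setSystemAut L).inv_mem ha) hb)
    intro x hx
    rw [Equiv.Perm.mul_apply, Equiv.Perm.inv_eq_iff_eq]
    exact (hb' ⟨x, hx⟩).trans (ha' ⟨x, hx⟩).symm
  exact (inv_mul_eq_one.1 this).symm

end

end Cfsg.Agent.Lib.Helper28.Stein
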