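/-
Blocks of an S(5,8,24) meeting a 3-set in a given number of points.
-/
import Cfsg.Agent.Lib.Helper3.Steiner
set_option autoImplicit false
open Cfsg Finset
namespace Cfsg.Agent.Lib.Helper28.Inter3
open Cfsg.Agent.Lib.Helper3

variable {α : Type*} [Fintype α] [DecidableEq α] {B : Set (Finset α)}

theorem inter_eq' (b0 : Finset α) (m : ℕ) (hm : b0.card = m) (j L : ℕ)
    (hL : ∀ J : Finset α, J.card = j → lam B J = L) :
    ∑ i ∈ range (m + 1), nInt B b0 i * i.choose j = m.choose j * L := by
  have key := sum_card_bipartiteAbove_eq_sum_card_bipartiteBelow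
    (s := powersetCard j b0) (t := Bf B) (fun J c => J ⊆ c)
  have h1 : ∀ J ∈ powersetCard j b0, ((Bf B).bipartiteAbove (fun J c => J ⊆ c) J).card = L := by
    intro J hJ
    rw [mem_powersetCard] at hJ
    rw [← hL J hJ.2]
    rfl
  have h2 : ∀ c ∈ Bf B, ((powersetCard j b0).bipartiteBelow (fun J c => J ⊆ c) c).card =
      ((c ∩ b0).card).choose j := by
    intro c _
    rw [← card_powersetCard]
    congr 1
    ext J
    simp only [bipartiteBelow, mem_filter, mem_powersetCard, subset_inter_iff]
    tauto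
  rw [sum_congr rfl h1, sum_congr rfl h2, sum_const, smul_eq_mul, card_powersetCard, hm] at key
  rw [key]
  have hmaps : ((Bf B : Finset (Finset α)) : Set (Finset α)).MapsTo (fun c => (c ∩ b0).card)
      (range (m + 1)) := by
    intro c _
    simp only [coe_range, Set.mem_Iio]
    have := card_le_card (inter_subset_right (s₁ := c) (s₂ := b0))
    rw [hm] at this
    omega
  rw [← sum_fiberwise_of_maps_to hmaps]
  apply sum_congr rfl
  intro i _
  rw [nInt, ← smul_eq_mul, ← sum_const]
  apply sum_congr rfl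
  intro c hc
  rw [mem_filter] at hc
  rw [hc.2]

theorem main5625 (hα : Fintype.card α = 24) (hB : IsSteinerSystem 5 8 B) (Y : Finset α) (hY : Y.card = 3) :
    {b : Finset α | b ∈ B ∧ (b ∩ Y).card = 3}.ncard = 21 ∧ {b : Finset α | b ∈ B ∧ (b ∩ Y).card = 2}.ncard = 168 ∧
    {b : Finset α | b ∈ B ∧ (b ∩ Y).card = 1}.ncard = 360 ∧ {b : Finset α | b ∈ B ∧ (b ∩ Y).card = 0}.ncard = 210 := by
  have l0 : ∀ J : Finset α, J.card = 0 → lam B J = 759 := by
    intro J hJ
    have := lam_mul hB J (by omega)
    rw [hJ, hα] at this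
    have e1 : (8 - 0).choose (5 - 0) = 56 := by decide
    have e2 : (24 - 0).choose (5 - 0) = 42504 := by decide +kernel
    rw [e1, e2] at this
    omega
  have l1 : ∀ J : Finset α, J.card = 1 → lam B J = 253 := by
    intro J hJ
    have := lam_mul hB J (by omega)
    rw [hJ, hα] at this
    have e1 : (8 - 1).choose (5 - 1) = 35 := by decide
    have e2 : (24 - 1).choose (5 - 1) = 8855 := by decide +kernel
    rw [e1, e2] at this
    omega
  have l2 : ∀ J : Finset α, J.card = 2 → lam B J = 77 := by
    intro J hJ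
    have := lam_mul hB J (by omega)
    rw [hJ, hα] at this
    have e1 : (8 - 2).choose (5 - 2) = 20 := by decide
    have e2 : (24 - 2).choose (5 - 2) = 1540 := by decide +kernel
    rw [e1, e2] at this
    omega
  have l3 : ∀ J : Finset α, J.card = 3 → lam B J = 21 := by
    intro J hJ
    have := lam_mul hB J (by omega)
    rw [hJ, hα] at this
    have e1 : (8 - 3).choose (5 - 3) = 10 := by decide
    have e2 : (24 - 3).choose (5 - 3) = 210 := by decide +kernel
    rw [e1, e2] at this
    omega
  have s0 := inter_eq' Y 3 hY 0 759 l0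
  have s1 := inter_eq' Y 3 hY 1 253 l1
  have s2 := inter_eq' Y 3 hY 2 77 l2
  have s3 := inter_eq' Y 3 hY 3 21 l3
  simp only [sum_range_succ, sum_range_zero, Nat.choose] at s0 s1 s2 s3
  rw [ncard_setOf_eq, ncard_setOf_eq, ncard_setOf_eq, ncard_setOf_eq]
  change nInt B Y 3 = 21 ∧ nInt B Y 2 = 168 ∧ nInt B Y 1 = 360 ∧ nInt B Y 0 = 210
  omega

end Cfsg.Agent.Lib.Helper28.Inter3
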