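/-
Coset leaders of the binary code of length 24.
-/
import Cfsg.Agent.Lib.Helper28.GolayMod2
import Cfsg.Agent.S1550
set_option autoImplicit false
open Cfsg Finset
namespace Cfsg.Agent.Lib.Helper28.Leaders
open Cfsg.Agent.Lib.Helper28

/-- the sets of size at most four in the coset with mask `M` -/
def A' (M : ℕ) : Set (Finset GolayPt) := {s | s.card ≤ 4 ∧ isCode (M ^^^ mask s) = true}

theorem xor_xor_cancel (M a b : ℕ) : (M ^^^ a) ^^^ (M ^^^ b) = a ^^^ b := by
  apply Nat.eq_of_testBit_eq
  intro i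
  simp only [Nat.testBit_xor]
  cases M.testBit i <;> cases a.testBit i <;> cases b.testBit i <;> rfl

theorem pair {M : ℕ} {s s' : Finset GolayPt} (hs : s ∈ A' M) (hs' : s' ∈ A' M) (hne : s ≠ s') :
    s.card = 4 ∧ s'.card = 4 ∧ Disjoint s s' ∧ s ∪ s' ∈ octads := by
  have hc : isCode (mask (symmDiff s s')) = true := by
    rw [mask_symmDiff, ← xor_xor_cancel M]
    exact isCode_xor _ _ hs.2 hs'.2
  have hadd := card_symmDiff_add s s'
  have hw := code_weight (mask_lt _) hc
  rw [← card_eq_pc] at hw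
  have h0 : (symmDiff s s').card ≠ 0 := by
    intro h
    rw [card_eq_zero] at h
    exact hne (symmDiff_eq_bot.1 h)
  have h1 := hs.1
  have h2 := hs'.1
  have h8 : (symmDiff s s').card = 8 := by
    rcases hw with h | h | h | h | h <;> omega
  have hi : (s ∩ s').card = 0 := by omega
  have hd : Disjoint s s' := disjoint_iff_inter_eq_empty.2 (card_eq_zero.1 hi)
  refine ⟨by omega, by omega, hd, ?_⟩
  rw [mem_octads_iff]
  exact ⟨by rw [← sup_eq_union, ← hd.symmDiff_eq_sup]; exact hc, by
    rw [← sup_eq_union, ← hd.symmDiff_eq_sup]; exact h8⟩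

theorem sextet_disj {S : Finset (Finset GolayPt)} (hS : S ∈ sextets) {t u : Finset GolayPt} (ht : t ∈ S)
    (hu : u ∈ S) (hne : t ≠ u) : Disjoint t u := by
  have h1 := hS.2.2 t ht u hu hne
  rw [mem_octads_iff] at h1
  have h2 := card_union_add_card_inter t u
  rw [h1.2, hS.2.1 t ht, hS.2.1 u hu] at h2
  exact disjoint_iff_inter_eq_empty.2 (card_eq_zero.1 (by omega))

theorem sextet_cover {S : Finset (Finset GolayPt)} (hS : S ∈ sextets) (x : GolayPt) : ∃ u ∈ S, x ∈ u := by
  have h1 : (S.biUnion id).card = 24 := by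
    have h0 : (S.biUnion id).card = ∑ t ∈ S, (id t).card :=
      card_biUnion (fun t ht u hu hne => sextet_disj hS ht hu hne)
    have h1 : ∑ t ∈ S, (id t).card = ∑ _t ∈ S, 4 := sum_congr rfl (fun t ht => hS.2.1 t ht)
    rw [h0, h1, sum_const, hS.1]
    rfl
  have h2 : S.biUnion id = univ := by
    apply eq_univ_of_card
    rw [h1]; decide
  have := mem_univ x
  rw [← h2, mem_biUnion] at this
  exact this

theorem eq_sextet {M : ℕ} {T : Finset GolayPt} (hT : T ∈ A' M) (h4 : T.card = 4) {S : Finset (Finset GolayPt)}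
    (hS : S ∈ sextets) (hTS : T ∈ S) : A' M = (S : Set (Finset GolayPt)) := by
  ext t
  constructor
  · intro ht
    by_cases hne : t = T
    · rw [hne]; exact hTS
    · obtain ⟨h1, -, hd, ho⟩ := pair ht hT hne
      have hpos : 0 < t.card := by omega
      obtain ⟨x, hx⟩ := card_pos.1 hpos
      obtain ⟨u, hu, hxu⟩ := sextet_cover hS x
      have huT : u ≠ T := by
        rintro rfl
        exact (disjoint_left.1 hd hx) hxu
      have ho' := hS.2.2 u hu T hTS huT
      have hdu := sextet_disj hS hu hTS huT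
      have h5 : 5 ≤ ((t ∪ T) ∩ (u ∪ T)).card := by
        have hsub : insert x T ⊆ (t ∪ T) ∩ (u ∪ T) := by
          intro y hy
          rcases mem_insert.1 hy with rfl | hy
          · exact mem_inter.2 ⟨mem_union_left _ hx, mem_union_left _ hxu⟩
          · exact mem_inter.2 ⟨mem_union_right _ hy, mem_union_right _ hy⟩
        have := card_le_card hsub
        rw [card_insert_of_notMem (disjoint_left.1 hd hx), h4] at this
        exact this
      have heq := octad_eq_of_inter ho ho' h5
      have : t = u := by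
        have e1 : (t ∪ T) \ T = t := union_sdiff_cancel_right hd
        have e2 : (u ∪ T) \ T = u := union_sdiff_cancel_right hdu
        rw [← e1, heq, e2]
      rw [this]; exact hu
  · intro ht
    have ht' : t ∈ S := ht
    by_cases hne : t = T
    · rw [hne]; exact hT
    · have ho := hS.2.2 t ht' T hTS hne
      have hd := sextet_disj hS ht' hTS hne
      refine ⟨le_of_eq (hS.2.1 t ht'), ?_⟩
      rw [mem_octads_iff] at ho
      have h1 : mask t = mask T ^^^ mask (t ∪ T) := by
        rw [← sup_eq_union, ← hd.symmDiff_eq_sup, mask_symmDiff]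
        apply Nat.eq_of_testBit_eq
        intro i
        simp only [Nat.testBit_xor]
        cases (mask t).testBit i <;> cases (mask T).testBit i <;> rfl
      rw [h1, ← Nat.xor_assoc]
      exact isCode_xor _ _ hT.2 ho.1

theorem norm_eq (v : GolayPt → ZMod 2) : hammingNorm v = (support₂ v).card := by
  unfold hammingNorm support₂
  congr

theorem sub_mem_iff (w v : GolayPt → ZMod 2) : w - v ∈ golayCode ↔ isCode (maskV w ^^^ mask (support₂ v)) = true := by
  have : w - v = w + v := by
    funext p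
    have : ∀ a b : ZMod 2, a - b = a + b := by decide
    exact this _ _
  rw [this, mem_golayCode_iff, maskV_add, mask_support₂]

theorem support_inj : Function.Injective (support₂ : (GolayPt → ZMod 2) → Finset GolayPt) := by
  intro v v' h
  rw [← ofMask_maskV v, ← ofMask_maskV v', ← mask_support₂, ← mask_support₂, h]

theorem image_eq (w : GolayPt → ZMod 2) :
    support₂ '' {v : GolayPt → ZMod 2 | hammingNorm v ≤ 4 ∧ w - v ∈ golayCode} = A' (maskV w) := by
  ext s
  constructor
  · rintro ⟨v, ⟨h1, h2⟩, rfl⟩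
    exact ⟨by rw [← norm_eq]; exact h1, (sub_mem_iff w v).1 h2⟩
  · rintro ⟨h1, h2⟩
    refine ⟨ofMask (mask s), ⟨?_, ?_⟩, ?_⟩
    · rw [norm_eq, support₂_ofMask, unmask_mask]; exact h1
    · rw [sub_mem_iff, support₂_ofMask, unmask_mask]; exact h2
    · rw [support₂_ofMask, unmask_mask]

theorem main1635 (w : GolayPt → ZMod 2) :
    ({v : GolayPt → ZMod 2 | hammingNorm v ≤ 4 ∧ w - v ∈ golayCode}.ncard = 1 ∧
      ∃ v : GolayPt → ZMod 2, hammingNorm v ≤ 3 ∧ w - v ∈ golayCode) ∨
    ({v : GolayPt → ZMod 2 | hammingNorm v ≤ 4 ∧ w - v ∈ golayCode}.ncard = 6 ∧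
      ∀ v : GolayPt → ZMod 2, w - v ∈ golayCode → hammingNorm v ≤ 4 → hammingNorm v = 4) := by
  have hn : {v : GolayPt → ZMod 2 | hammingNorm v ≤ 4 ∧ w - v ∈ golayCode}.ncard = (A' (maskV w)).ncard := by
    rw [← image_eq, Set.ncard_image_of_injective _ support_inj]
  rw [hn]
  obtain ⟨c, e, hc, hcode, he, he4, hme⟩ := GMod.exists_leader (maskV_lt w)
  have hT : unmask e ∈ A' (maskV w) := by
    refine ⟨by rw [card_eq_pc, mask_unmask e he]; exact he4, ?_⟩
    rw [mask_unmask e he, hme, Nat.xor_assoc, Nat.xor_self, Nat.xor_zero]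
    exact hcode
  by_cases h3 : ∃ s ∈ A' (maskV w), s.card ≤ 3
  · left
    obtain ⟨s, hs, hs3⟩ := h3
    constructor
    · rw [Set.ncard_eq_one]
      refine ⟨s, Set.eq_singleton_iff_unique_mem.2 ⟨hs, fun s' hs' => ?_⟩⟩
      by_contra hne
      have := (pair hs' hs hne).2.1
      omega
    · refine ⟨ofMask (mask s), ?_, ?_⟩
      · rw [norm_eq, support₂_ofMask, unmask_mask]; exact hs3
      · rw [sub_mem_iff, support₂_ofMask, unmask_mask]; exact hs.2
  · right
    push Not at h3
    have h4 : (unmask e).card = 4 := by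
      have := h3 _ hT
      have := hT.1
      omega
    obtain ⟨S, ⟨hS, hTS⟩, -⟩ := Cfsg.Agent.S1550.result.1 (unmask e) h4
    constructor
    · rw [eq_sextet hT h4 hS hTS, Set.ncard_coe_finset, hS.1]
    · intro v hv hv4
      have hmem : support₂ v ∈ A' (maskV w) := ⟨by rw [← norm_eq]; exact hv4, (sub_mem_iff w v).1 hv⟩
      have := h3 _ hmem
      rw [norm_eq] at hv4 ⊢
      omega

end Cfsg.Agent.Lib.Helper28.Leaders
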