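/-
Explicit generators for the Mathieu groups of degrees 12 and 11 on `Fin 12`: general tools.
-/
import Cfsg.Agent.Lib.Helper28.AutD6

set_option autoImplicit false

namespace Cfsg.Agent.Lib.Helper28.M12F

open Finset Cfsg Cfsg.Agent.Lib.Helper28 Cfsg.Agent.Lib.Helper28.AutD
open scoped Pointwise

/-- a base with transversals gives multiple transitivity (the first `m0` base points being kept fixed) -/
theorem base_to {α : Type*} (G : Subgroup (Equiv.Perm α)) {k : ℕ} (b : Fin k → α) (m0 : ℕ)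
    (H : ∀ j : Fin k, m0 ≤ j.1 → ∀ y : α, (∀ i, i < j → y ≠ b i) →
      ∃ g ∈ G, (∀ i, i < j → g (b i) = b i) ∧ g (b j) = y)
    (y : Fin k → α) (hy : Function.Injective y) (hy0 : ∀ i : Fin k, i.1 < m0 → y i = b i) :
    ∃ g ∈ G, ∀ i, g (b i) = y i := by
  have key : ∀ m : ℕ, m ≤ k → ∃ g ∈ G, ∀ i : Fin k, i.1 < m → g (b i) = y i := by
    intro m
    induction m with
    | zero => intro _; exact ⟨1, G.one_mem, fun i hi => absurd hi (Nat.not_lt_zero _)⟩
    | succ m ih =>
      intro hm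
      by_cases hm0 : m < m0
      · exact ⟨1, G.one_mem, fun i hi => (hy0 i (by omega)).symm⟩
      obtain ⟨g, hg, hgi⟩ := ih (by omega)
      obtain ⟨h, hh, hfix, hmap⟩ := H ⟨m, hm⟩ (not_lt.1 hm0) (g⁻¹ (y ⟨m, hm⟩)) (by
        intro i hi hc
        have h1 : g (b i) = y i := hgi i hi
        rw [← hc] at h1
        have h2 : y ⟨m, hm⟩ = y i := by
          rw [← h1]; simp
        have h3 := hy h2
        rw [← h3] at hi
        exact absurd hi (lt_irrefl _))
      refine ⟨g * h, G.mul_mem hg hh, ?_⟩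
      intro i hi
      rcases Nat.lt_succ_iff_lt_or_eq.1 hi with h1 | h1
      · rw [Equiv.Perm.mul_apply, hfix i h1, hgi i h1]
      · have : i = ⟨m, hm⟩ := Fin.ext h1
        rw [this, Equiv.Perm.mul_apply, hmap]
        simp
  obtain ⟨g, hg, h⟩ := key k le_rfl
  exact ⟨g, hg, fun i => h i i.2⟩

theorem subtype_eq_of_inter_eq {X Y : Finset GolayPt} (h : X ∩ stdDodecad = Y ∩ stdDodecad) :
    Finset.subtype (fun p => p ∈ stdDodecad) X = Finset.subtype (fun p => p ∈ stdDodecad) Y := by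
  ext x
  rw [Finset.mem_subtype, Finset.mem_subtype]
  have h1 : x.1 ∈ X ∩ stdDodecad ↔ x.1 ∈ Y ∩ stdDodecad := by rw [h]
  simpa [x.2] using h1

/-- a permutation of the dodecad preserving the list of hexads is an automorphism of the hexad system -/
theorem mem_aut_of_hexL {a1 : Equiv.Perm T12} (h : ∀ m ∈ hexL, pm (Equiv.Perm.ofSubtype a1) m ∈ hexL) :
    a1 ∈ setSystemAut D12 := by
  apply mem_aut_of_forall
  rintro _ ⟨o, ho, h6, rfl⟩
  rw [← subtype_ofSubtype_smul]
  obtain ⟨o', ho', h6', hm⟩ := exists_octad_of_hexL (h _ (mem_hexL_of_octad ho h6))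
  refine ⟨o', ho', h6', ?_⟩
  apply subtype_eq_of_inter_eq
  apply mask_injective
  rw [mask_inter, mask_inter, mask_stdDodecad, hm, pm_and, mask_smul]
  congr 1
  have h3 := mask_smul (Equiv.Perm.ofSubtype a1) stdDodecad
  rw [ofSubtype_smul_dod, mask_stdDodecad] at h3
  exact h3

end Cfsg.Agent.Lib.Helper28.M12F
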