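/-
Explicit generators for the Mathieu groups of degrees 12 and 11 on `Fin 12`.
-/
import Cfsg.Agent.Lib.Helper28.M12Fin1

set_option autoImplicit false

namespace Cfsg.Agent.Lib.Helper28.M12F

open Finset Cfsg Cfsg.Agent.Lib.Helper28 Cfsg.Agent.Lib.Helper28.AutD
open scoped Pointwise

def gS : Equiv.Perm (Fin 12) := Equiv.swap (3 : Fin 12) 5 * Equiv.swap (3 : Fin 12) 4 * Equiv.swap (6 : Fin 12) 8 * Equiv.swap (6 : Fin 12) 7 * Equiv.swap (9 : Fin 12) 11 * Equiv.swap (9 : Fin 12) 10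
def gT : Equiv.Perm (Fin 12) := Equiv.swap (3 : Fin 12) 9 * Equiv.swap (3 : Fin 12) 6 * Equiv.swap (4 : Fin 12) 10 * Equiv.swap (4 : Fin 12) 7 * Equiv.swap (5 : Fin 12) 11 * Equiv.swap (5 : Fin 12) 8
def gU : Equiv.Perm (Fin 12) := Equiv.swap (4 : Fin 12) 9 * Equiv.swap (4 : Fin 12) 5 * Equiv.swap (4 : Fin 12) 6 * Equiv.swap (7 : Fin 12) 10 * Equiv.swap (7 : Fin 12) 11 * Equiv.swap (7 : Fin 12) 8
def gV : Equiv.Perm (Fin 12) := Equiv.swap (4 : Fin 12) 11 * Equiv.swap (4 : Fin 12) 5 * Equiv.swap (4 : Fin 12) 7 * Equiv.swap (6 : Fin 12) 8 * Equiv.swap (6 : Fin 12) 9 * Equiv.swap (6 : Fin 12) 10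
def gW : Equiv.Perm (Fin 12) := Equiv.swap (4 : Fin 12) 8 * Equiv.swap (4 : Fin 12) 5 * Equiv.swap (4 : Fin 12) 10 * Equiv.swap (6 : Fin 12) 7 * Equiv.swap (6 : Fin 12) 9 * Equiv.swap (6 : Fin 12) 11
def gX1 : Equiv.Perm (Fin 12) := Equiv.swap (0 : Fin 12) 3 * Equiv.swap (6 : Fin 12) 7 * Equiv.swap (8 : Fin 12) 10 * Equiv.swap (9 : Fin 12) 11
def gX2 : Equiv.Perm (Fin 12) := Equiv.swap (0 : Fin 12) 1 * Equiv.swap (6 : Fin 12) 9 * Equiv.swap (7 : Fin 12) 10 * Equiv.swap (8 : Fin 12) 11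
def gX3 : Equiv.Perm (Fin 12) := Equiv.swap (1 : Fin 12) 2 * Equiv.swap (6 : Fin 12) 11 * Equiv.swap (7 : Fin 12) 9 * Equiv.swap (8 : Fin 12) 10

def gen : ℕ → Equiv.Perm (Fin 12)
  | 0 => gS | 1 => gT | 2 => gU | 3 => gV | 4 => gW | 5 => gX1 | 6 => gX2 | 7 => gX3 | _ => 1

def M12 : Subgroup (Equiv.Perm (Fin 12)) := Subgroup.closure {gS, gT, gU, gV, gW, gX1, gX2, gX3}

def M11 : Subgroup (Equiv.Perm (Fin 12)) := Subgroup.closure {gS, gT, gU, gV, gW, gX1, gX2}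

theorem gen_mem_M12 : ∀ k, k < 8 → gen k ∈ M12 := by
  intro k hk
  apply Subgroup.subset_closure
  interval_cases k <;> simp [gen]

theorem gen_mem_M11 : ∀ k, k < 7 → gen k ∈ M11 := by
  intro k hk
  apply Subgroup.subset_closure
  interval_cases k <;> simp [gen]

theorem exists_gen_M12 {x : Equiv.Perm (Fin 12)}
    (hx : x ∈ ({gS, gT, gU, gV, gW, gX1, gX2, gX3} : Set (Equiv.Perm (Fin 12)))) : ∃ k < 8, x = gen k := by
  simp only [Set.mem_insert_iff, Set.mem_singleton_iff] at hx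
  rcases hx with rfl | rfl | rfl | rfl | rfl | rfl | rfl | rfl
  exacts [⟨0, by norm_num, rfl⟩, ⟨1, by norm_num, rfl⟩, ⟨2, by norm_num, rfl⟩, ⟨3, by norm_num, rfl⟩,
    ⟨4, by norm_num, rfl⟩, ⟨5, by norm_num, rfl⟩, ⟨6, by norm_num, rfl⟩, ⟨7, by norm_num, rfl⟩]

theorem exists_gen_M11 {x : Equiv.Perm (Fin 12)}
    (hx : x ∈ ({gS, gT, gU, gV, gW, gX1, gX2} : Set (Equiv.Perm (Fin 12)))) : ∃ k < 7, x = gen k := by
  simp only [Set.mem_insert_iff, Set.mem_singleton_iff] at hx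
  rcases hx with rfl | rfl | rfl | rfl | rfl | rfl | rfl
  exacts [⟨0, by norm_num, rfl⟩, ⟨1, by norm_num, rfl⟩, ⟨2, by norm_num, rfl⟩, ⟨3, by norm_num, rfl⟩,
    ⟨4, by norm_num, rfl⟩, ⟨5, by norm_num, rfl⟩, ⟨6, by norm_num, rfl⟩]

/-- the labels (in the 24 points) of the twelve points -/
def dlist : List ℕ := [0, 1, 2, 3, 6, 9, 8, 23, 12, 15, 7, 14]

/-- the generators as tables on the 24 points (identity outside the standard dodecad) -/
def tabs : List (List ℕ) := [[0, 1, 2, 6, 4, 5, 9, 14, 23, 3, 10, 11, 8, 13, 15, 7, 16, 17, 18, 19, 20, 21, 22, 12], [0, 1, 2, 8, 4, 5, 23, 6, 15, 12, 10, 11, 14, 13, 9, 3, 16, 17, 18, 19, 20, 21, 22, 7], [0, 1, 2, 3, 4, 5, 8, 23, 9, 15, 10, 11, 14, 13, 7, 6, 16, 17, 18, 19, 20, 21, 22, 12], [0, 1, 2, 3, 4, 5, 23, 15, 7, 14, 10, 11, 8, 13, 6, 12, 16, 17, 18, 19, 20, 21, 22, 9], [0, 1, 2, 3, 4, 5, 7, 9, 14, 12, 10, 11, 6, 13, 15, 23, 16, 17, 18, 19, 20, 21, 22, 8], [3,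 1, 2, 0, 4, 5, 6, 12, 23, 9, 10, 11, 7, 13, 15, 14, 16, 17, 18, 19, 20, 21, 22, 8], [1, 0, 2, 3, 4, 5, 6, 23, 15, 9, 10, 11, 14, 13, 12, 8, 16, 17, 18, 19, 20, 21, 22, 7], [0, 2, 1, 3, 4, 5, 6, 12, 14, 9, 10, 11, 7, 13, 8, 23, 16, 17, 18, 19, 20, 21, 22, 15]]

theorem dlist_mem : ∀ i : Fin 12, pt (dlist.getD i 0) ∈ stdDodecad := by decide +kernel

theorem dlist_lt : ∀ i : Fin 12, dlist.getD i 0 < 24 := by decide +kernel

theorem dlist_inj : ∀ i j : Fin 12, dlist.getD i 0 = dlist.getD j 0 → i = j := by decide +kernel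

def e12fun (i : Fin 12) : T12 := ⟨pt (dlist.getD i 0), dlist_mem i⟩

theorem e12fun_bij : Function.Bijective e12fun := by
  rw [Fintype.bijective_iff_injective_and_card]
  refine ⟨?_, by rw [card_T12]; rfl⟩
  intro i j hij
  exact dlist_inj i j (pt_injOn (dlist_lt i) (dlist_lt j) (congrArg Subtype.val hij))

noncomputable def e12 : Fin 12 ≃ T12 := Equiv.ofBijective e12fun e12fun_bij

theorem e12_val (i : Fin 12) : ((e12 i : T12) : GolayPt) = pt (dlist.getD i 0) := rfl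

theorem tabs_valid : ∀ k, k < 8 → validTbl (tabs.getD k []) = true := by decide +kernel

theorem tabs_in : ∀ k, k < 8 → ∀ i : Fin 12,
    dlist.getD (gen k i) 0 = (tabs.getD k []).getD (dlist.getD i 0) 0 := by decide +kernel

theorem tabs_out : ∀ k, k < 8 → ∀ p : GolayPt, p ∉ stdDodecad → pt ((tabs.getD k []).getD (idx p) 0) = p := by
  decide +kernel

theorem tabs_hex : ∀ k, k < 8 → ∀ m ∈ hexL, permMask (tabs.getD k []) m ∈ hexL := by decide +kernel

theorem gen_table {k : ℕ} (hk : k < 8) :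
    Equiv.Perm.ofSubtype (e12.permCongr (gen k)) = permOf (tabs.getD k []) := by
  ext1 p
  rw [permOf_apply (tabs_valid k hk)]
  by_cases hp : p ∈ stdDodecad
  · obtain ⟨i, hi⟩ := e12.surjective ⟨p, hp⟩
    rw [Equiv.Perm.ofSubtype_apply_of_mem _ hp, ← hi, Equiv.permCongr_apply, Equiv.symm_apply_apply, e12_val]
    have hpi : p = pt (dlist.getD i 0) := by
      have := congrArg Subtype.val hi
      exact this.symm
    rw [hpi, idx_pt _ (dlist_lt i), tabs_in k hk i]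
  · rw [Equiv.Perm.ofSubtype_apply_of_not_mem _ hp, tabs_out k hk p hp]

theorem gen_aut {k : ℕ} (hk : k < 8) : e12.permCongr (gen k) ∈ setSystemAut D12 := by
  apply mem_aut_of_hexL
  intro m hm
  rw [gen_table hk, pm_permOf (tabs_valid k hk)]
  exact tabs_hex k hk m hm

theorem M12_le : M12 ≤ (setSystemAut D12).comap (e12.permCongrHom : Equiv.Perm (Fin 12) →* Equiv.Perm T12) := by
  rw [M12, Subgroup.closure_le]
  intro x hx
  obtain ⟨k, hk, rfl⟩ := exists_gen_M12 hx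
  exact gen_aut hk

theorem congr_mem {g : Equiv.Perm (Fin 12)} (hg : g ∈ M12) : e12.permCongr g ∈ setSystemAut D12 := M12_le hg

theorem eq_one_of_fix5 {g : Equiv.Perm (Fin 12)} (hg : g ∈ M12) (y : Fin 5 ↪ Fin 12)
    (h : ∀ i, g (y i) = y i) : g = 1 := by
  have h1 : (⟨e12.permCongr g, congr_mem hg⟩ : setSystemAut D12) ∈
      MulAction.stabilizer (setSystemAut D12) (y.trans e12.toEmbedding) := by
    rw [MulAction.mem_stabilizer_iff]
    apply DFunLike.ext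
    intro i
    show e12.permCongr g (e12 (y i)) = e12 (y i)
    rw [Equiv.permCongr_apply, Equiv.symm_apply_apply, h i]
  rw [sharp_aut_D12, Subgroup.mem_bot] at h1
  have h2 : e12.permCongr g = 1 := congrArg Subtype.val h1
  have h3 : e12.permCongrHom g = e12.permCongrHom 1 := by
    rw [map_one]; exact h2
  exact e12.permCongrHom.injective h3

def wprod (l : List ℕ) : Equiv.Perm (Fin 12) := (l.map gen).prod

theorem wprod_mem (K : Subgroup (Equiv.Perm (Fin 12))) (n : ℕ) (hK : ∀ k, k < n → gen k ∈ K) (l : List ℕ)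
    (hl : ∀ k ∈ l, k < n) : wprod l ∈ K := by
  apply Subgroup.list_prod_mem
  intro x hx
  obtain ⟨k, hk, rfl⟩ := List.mem_map.1 hx
  exact hK k (hl k hk)

def Wt : List (List (List ℕ)) := [[[6, 7], [7], [], [5, 6, 7], [0, 5, 6, 7], [0, 0, 5, 6, 7], [1, 5, 6, 7], [1, 0, 5, 6, 7], [1, 0, 0, 5, 6, 7], [1, 1, 5, 6, 7], [4, 0, 5, 6, 7], [4, 1, 5, 6, 7]], [[6], [], [], [5, 6], [0, 5, 6], [0, 0, 5, 6], [1, 5, 6], [1, 0, 5, 6], [1, 0, 0, 5, 6], [1, 1, 5, 6], [4, 0, 5, 6], [4, 1, 5, 6]], [[], [], [], [5], [0, 5], [0, 0, 5], [1, 5], [1, 0, 5], [1, 0, 0, 5], [1, 1, 5], [4, 0, 5], [4, 1, 5]], [[], [], [], [], [0], [0, 0], [1], [1, 0], [1, 0, 0], [1, 1], [4, 0], [4, 1]], [[], [], [], [], [], [2, 2], [2], [3], [2, 3], [3, 4], [4], [4, 2]]]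

def Wget (j : Fin 5) (y : Fin 12) : List ℕ := (Wt.getD j []).getD y []

def bpt : Fin 5 → Fin 12 := ![2, 1, 0, 3, 4]

theorem bpt_inj : Function.Injective bpt := by decide

theorem W_check : ∀ j : Fin 5, ∀ y : Fin 12, (∀ i, i < j → y ≠ bpt i) →
    (∀ i, i < j → wprod (Wget j y) (bpt i) = bpt i) ∧ wprod (Wget j y) (bpt j) = y := by decide +kernel

theorem W_lt : ∀ j : Fin 5, ∀ y : Fin 12, ∀ k ∈ Wget j y, k < 8 ∧ (1 ≤ j.1 → k < 7) := by decide +kernel

theorem M12_base (y : Fin 5 → Fin 12) (hy : Function.Injective y) : ∃ g ∈ M12, ∀ i, g (bpt i) = y i := by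
  apply base_to M12 bpt 0 _ y hy (fun i hi => absurd hi (Nat.not_lt_zero _))
  intro j _ z hz
  exact ⟨wprod (Wget j z), wprod_mem M12 8 gen_mem_M12 _ (fun k hk => (W_lt j z k hk).1), W_check j z hz⟩

theorem M11_base (y : Fin 5 → Fin 12) (hy : Function.Injective y) (h0 : y 0 = 2) :
    ∃ g ∈ M11, ∀ i, g (bpt i) = y i := by
  apply base_to M11 bpt 1 _ y hy
  · intro i hi
    have : i = 0 := Fin.ext (by omega)
    rw [this, h0]; rfl
  · intro j hj z hz
    exact ⟨wprod (Wget j z), wprod_mem M11 7 gen_mem_M11 _ (fun k hk => (W_lt j z k hk).2 hj), W_check j z hz⟩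

theorem M11_le_M12 : M11 ≤ M12 := by
  apply Subgroup.closure_mono
  intro x hx
  simp only [Set.mem_insert_iff, Set.mem_singleton_iff] at hx ⊢
  tauto

theorem gen_fix2 : ∀ k, k < 7 → gen k 2 = 2 := by decide +kernel

theorem M11_fix2 : M11 ≤ MulAction.stabilizer (Equiv.Perm (Fin 12)) (2 : Fin 12) := by
  rw [M11, Subgroup.closure_le]
  intro x hx
  obtain ⟨k, hk, rfl⟩ := exists_gen_M11 hx
  exact gen_fix2 k hk

theorem M11_eq : M11 = M12 ⊓ MulAction.stabilizer (Equiv.Perm (Fin 12)) (2 : Fin 12) := by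
  apply le_antisymm (le_inf M11_le_M12 M11_fix2)
  rintro g ⟨hg, hg2⟩
  have hg2' : g 2 = 2 := hg2
  obtain ⟨h, hh, hhg⟩ := M11_base (fun i => g (bpt i)) (g.injective.comp bpt_inj) hg2'
  have h1 : h⁻¹ * g = 1 := by
    apply eq_one_of_fix5 (M12.mul_mem (M12.inv_mem (M11_le_M12 hh)) hg) ⟨bpt, bpt_inj⟩
    intro i
    show h⁻¹ (g (bpt i)) = bpt i
    rw [Equiv.Perm.inv_eq_iff_eq]; exact (hhg i).symm
  rw [← inv_mul_eq_one.1 h1]; exact hh

theorem M12_mpt : MulAction.IsMultiplyPretransitive M12 (Fin 12) 5 := by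
  constructor
  intro x y
  obtain ⟨g1, hg1, h1⟩ := M12_base x x.injective
  obtain ⟨g2, hg2, h2⟩ := M12_base y y.injective
  refine ⟨⟨g2 * g1⁻¹, M12.mul_mem hg2 (M12.inv_mem hg1)⟩, ?_⟩
  apply DFunLike.ext
  intro i
  show g2 (g1⁻¹ (x i)) = y i
  rw [← h1 i, ← h2 i]; simp

theorem M12_sharp (y : Fin 5 ↪ Fin 12) : MulAction.stabilizer M12 y = ⊥ := by
  rw [eq_bot_iff]
  intro g hg
  rw [MulAction.mem_stabilizer_iff] at hg
  rw [Subgroup.mem_bot]
  apply Subtype.ext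
  apply eq_one_of_fix5 g.2 y
  intro i
  exact congrArg (fun z : Fin 5 ↪ Fin 12 => z i) hg

theorem M12_map : M12.map (e12.permCongrHom : Equiv.Perm (Fin 12) →* Equiv.Perm T12) = setSystemAut D12 := by
  apply le_antisymm
  · rw [Subgroup.map_le_iff_le_comap]; exact M12_le
  · intro a ha
    obtain ⟨g, hg, hgb⟩ := M12_base (fun i => e12.symm (a (e12 (bpt i))))
      (e12.symm.injective.comp (a.injective.comp (e12.injective.comp bpt_inj)))
    refine ⟨g, hg, ?_⟩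
    have hm : (e12.permCongr g)⁻¹ * a ∈ setSystemAut D12 := mul_mem (inv_mem (congr_mem hg)) ha
    have h1 : (⟨(e12.permCongr g)⁻¹ * a, hm⟩ : setSystemAut D12) ∈
        MulAction.stabilizer (setSystemAut D12)
          ((⟨bpt, bpt_inj⟩ : Fin 5 ↪ Fin 12).trans e12.toEmbedding) := by
      rw [MulAction.mem_stabilizer_iff]
      apply DFunLike.ext
      intro i
      show (e12.permCongr g)⁻¹ (a (e12 (bpt i))) = e12 (bpt i)
      rw [Equiv.Perm.inv_eq_iff_eq, Equiv.permCongr_apply, Equiv.symm_apply_apply, hgb i,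
        Equiv.apply_symm_apply]
    rw [sharp_aut_D12, Subgroup.mem_bot] at h1
    have h2 : (e12.permCongr g)⁻¹ * a = 1 := congrArg Subtype.val h1
    exact inv_mul_eq_one.1 h2

theorem card_M12 : Nat.card M12 = 95040 := by
  rw [← isM12_aut_D12.2, ← M12_map]
  exact Nat.card_congr (e12.permCongrHom.subgroupMap M12).toEquiv

theorem card_M11 : Nat.card M11 = 7920 := by
  have h := card_stabilizer_mul (G := M12) (2 : Fin 12)
  have h2 : MulAction.orbit M12 (2 : Fin 12) = Set.univ := by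
    ext q
    simp only [Set.mem_univ, iff_true]
    have := W_check 0 q (fun i hi => absurd hi (Fin.not_lt_zero i))
    exact ⟨⟨wprod (Wget 0 q), wprod_mem M12 8 gen_mem_M12 _ (fun k hk => (W_lt 0 q k hk).1)⟩, this.2⟩
  rw [h2, card_M12, Set.ncard_univ] at h
  have h3 : Nat.card (Fin 12) = 12 := by simp
  rw [h3] at h
  have h4 : Nat.card M11 = Nat.card (MulAction.stabilizer M12 (2 : Fin 12)) := by
    rw [M11_eq]
    apply Nat.card_congr
    exact
      { toFun := fun g => ⟨⟨g.1, g.2.1⟩, g.2.2⟩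
        invFun := fun g => ⟨g.1.1, g.1.2, g.2⟩
        left_inv := fun g => rfl
        right_inv := fun g => rfl }
  omega

end Cfsg.Agent.Lib.Helper28.M12F
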