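/-
The stabiliser of a dodecad and three of its points (M9): sharply 2-transitive on the nine
remaining points of the dodecad; its regular normal subgroup of order 9.
-/
import Cfsg.Agent.Lib.Helper28.GolayM12
import Cfsg.Agent.S0680
import Cfsg.Agent.S1600
set_option autoImplicit false
open Cfsg
open scoped Pointwise
namespace Cfsg.Agent.Lib.Helper28.M9

/-- the nine remaining points -/
def E9 (d : Finset GolayPt) (p q r : GolayPt) : Finset GolayPt := ((d.erase p).erase q).erase r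

/-- the stabiliser of a dodecad and three points -/
abbrev K9 (d : Finset GolayPt) (p q r : GolayPt) : Subgroup ↥M24 :=
  MulAction.stabilizer M24 d ⊓ MulAction.stabilizer M24 p ⊓ MulAction.stabilizer M24 q ⊓
    MulAction.stabilizer M24 r

structure Hyp (d : Finset GolayPt) (p q r : GolayPt) : Prop where
  hd : d ∈ dodecads
  hp : p ∈ d
  hq : q ∈ d
  hr : r ∈ d
  hpq : p ≠ q
  hpr : p ≠ r
  hqr : q ≠ r

variable {d : Finset GolayPt} {p q r : GolayPt}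

theorem mem_E9 {x : GolayPt} : x ∈ E9 d p q r ↔ x ∈ d ∧ x ≠ p ∧ x ≠ q ∧ x ≠ r := by
  simp only [E9, Finset.mem_erase]
  tauto

theorem mem_K9 {g : ↥M24} : g ∈ K9 d p q r ↔ g.1 • d = d ∧ g.1 p = p ∧ g.1 q = q ∧ g.1 r = r := by
  simp only [Subgroup.mem_inf, MulAction.mem_stabilizer_iff]
  constructor
  · rintro ⟨⟨⟨h1, h2⟩, h3⟩, h4⟩
    exact ⟨h1, h2, h3, h4⟩
  · rintro ⟨h1, h2, h3, h4⟩
    exact ⟨⟨⟨h1, h2⟩, h3⟩, h4⟩

theorem card_E9 (h : Hyp d p q r) : (E9 d p q r).card = 9 := by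
  rw [E9, Finset.card_erase_of_mem, Finset.card_erase_of_mem, Finset.card_erase_of_mem h.hp,
    card_of_mem_dodecads h.hd]
  · exact Finset.mem_erase.2 ⟨h.hpq.symm, h.hq⟩
  · exact Finset.mem_erase.2 ⟨h.hqr.symm, Finset.mem_erase.2 ⟨h.hpr.symm, h.hr⟩⟩

theorem five (h : Hyp d p q r) {a b : GolayPt} (ha : a ∈ E9 d p q r) (hb : b ∈ E9 d p q r) (hab : a ≠ b) :
    Function.Injective ![p, q, r, a, b] ∧ ∀ i, ![p, q, r, a, b] i ∈ d := by
  obtain ⟨ha0, ha1, ha2, ha3⟩ := mem_E9.1 ha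
  obtain ⟨hb0, hb1, hb2, hb3⟩ := mem_E9.1 hb
  obtain ⟨hd, hp, hq, hr, hpq, hpr, hqr⟩ := h
  constructor
  · intro i j hij
    fin_cases i <;> fin_cases j <;> first | rfl | (exfalso; simp at hij; simp_all)
  · intro i
    fin_cases i <;> simp_all

theorem eq_one_of_fix (h : Hyp d p q r) {g : ↥M24} (hg : g ∈ K9 d p q r) {a b : GolayPt}
    (ha : a ∈ E9 d p q r) (hb : b ∈ E9 d p q r) (hab : a ≠ b) (hga : g.1 a = a) (hgb : g.1 b = b) : g = 1 := by
  obtain ⟨h1, h2⟩ := five h ha hb hab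
  obtain ⟨k0, k1, k2, k3⟩ := mem_K9.1 hg
  apply Subtype.ext
  apply eq_one_of_fix_dodecad_five h.hd _ h1 h2 g.2 k0
  intro i
  fin_cases i
  · exact k1
  · exact k2
  · exact k3
  · exact hga
  · exact hgb

theorem exists_map (h : Hyp d p q r) {a b a' b' : GolayPt} (ha : a ∈ E9 d p q r) (hb : b ∈ E9 d p q r)
    (hab : a ≠ b) (ha' : a' ∈ E9 d p q r) (hb' : b' ∈ E9 d p q r) (hab' : a' ≠ b') :
    ∃ g ∈ K9 d p q r, g.1 a = a' ∧ g.1 b = b' := by
  obtain ⟨h1, h2⟩ := five h ha hb hab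
  obtain ⟨h1', h2'⟩ := five h ha' hb' hab'
  obtain ⟨g, hg, hgd, hh⟩ := dodecad_five_trans h.hd _ _ h1 h1' h2 h2'
  exact ⟨⟨g, hg⟩, mem_K9.2 ⟨hgd, hh 0, hh 1, hh 2⟩, hh 3, hh 4⟩

theorem K9_maps {g : ↥M24} (hg : g ∈ K9 d p q r) {x : GolayPt} (hx : x ∈ E9 d p q r) :
    g.1 x ∈ E9 d p q r := by
  obtain ⟨k0, k1, k2, k3⟩ := mem_K9.1 hg
  obtain ⟨h0, h1, h2, h3⟩ := mem_E9.1 hx
  refine mem_E9.2 ⟨(apply_mem_iff_of_smul_eq k0 x).2 h0, ?_, ?_, ?_⟩
  · intro hh; rw [← k1] at hh; exact h1 (g.1.injective hh)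
  · intro hh; rw [← k2] at hh; exact h2 (g.1.injective hh)
  · intro hh; rw [← k3] at hh; exact h3 (g.1.injective hh)

theorem K9_le (d : Finset GolayPt) (p q r : GolayPt) :
    K9 d p q r ≤ MulAction.stabilizer M24 (E9 d p q r) := by
  intro g hg
  rw [MulAction.mem_stabilizer_iff]
  exact smul_eq_of_maps (fun x hx => K9_maps hg hx)

/-- the action on the nine points -/
def rho (d : Finset GolayPt) (p q r : GolayPt) : ↥(K9 d p q r) →* Equiv.Perm ↥(E9 d p q r) :=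
  (restrictHom M24 (E9 d p q r)).comp (Subgroup.inclusion (K9_le d p q r))

theorem rho_apply (k : ↥(K9 d p q r)) (x : ↥(E9 d p q r)) :
    ((rho d p q r k x : ↥(E9 d p q r)) : GolayPt) = k.1.1 x := rfl

theorem exists_two (h : Hyp d p q r) : ∃ a ∈ E9 d p q r, ∃ b ∈ E9 d p q r, a ≠ b :=
  Finset.one_lt_card.1 (by rw [card_E9 h]; norm_num)

theorem rho_injective (h : Hyp d p q r) : Function.Injective (rho d p q r) := by
  rw [injective_iff_map_eq_one]
  intro k hk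
  obtain ⟨a, ha, b, hb, hab⟩ := exists_two h
  apply Subtype.ext
  apply eq_one_of_fix h k.2 ha hb hab
  · have := congrArg (fun σ : Equiv.Perm ↥(E9 d p q r) => ((σ ⟨a, ha⟩ : ↥(E9 d p q r)) : GolayPt)) hk
    exact this
  · have := congrArg (fun σ : Equiv.Perm ↥(E9 d p q r) => ((σ ⟨b, hb⟩ : ↥(E9 d p q r)) : GolayPt)) hk
    exact this

theorem mpt (h : Hyp d p q r) :
    MulAction.IsMultiplyPretransitive ↥(rho d p q r).range ↥(E9 d p q r) 2 := by
  constructor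
  intro x y
  have hx : (x 0).1 ≠ (x 1).1 := fun hh => by
    have := x.injective (Subtype.ext hh); simp at this
  have hy : (y 0).1 ≠ (y 1).1 := fun hh => by
    have := y.injective (Subtype.ext hh); simp at this
  obtain ⟨g, hg, h0, h1⟩ := exists_map h (x 0).2 (x 1).2 hx (y 0).2 (y 1).2 hy
  refine ⟨⟨rho d p q r ⟨g, hg⟩, ⟨_, rfl⟩⟩, ?_⟩
  apply DFunLike.ext
  intro i
  apply Subtype.ext
  fin_cases i
  · exact h0
  · exact h1

theorem sharp (h : Hyp d p q r) (x : Fin 2 ↪ ↥(E9 d p q r)) :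
    MulAction.stabilizer ↥(rho d p q r).range x = ⊥ := by
  rw [eq_bot_iff]
  rintro ⟨_, ⟨k, rfl⟩⟩ ha
  rw [MulAction.mem_stabilizer_iff] at ha
  have hx : (x 0).1 ≠ (x 1).1 := fun hh => by
    have := x.injective (Subtype.ext hh); simp at this
  have h1 : k.1 = 1 := by
    apply eq_one_of_fix h k.2 (x 0).2 (x 1).2 hx
    · exact congrArg (fun z : Fin 2 ↪ ↥(E9 d p q r) => ((z 0 : ↥(E9 d p q r)) : GolayPt)) ha
    · exact congrArg (fun z : Fin 2 ↪ ↥(E9 d p q r) => ((z 1 : ↥(E9 d p q r)) : GolayPt)) ha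
  have h2 : k = 1 := Subtype.ext h1
  rw [Subgroup.mem_bot]
  apply Subtype.ext
  show rho d p q r k = 1
  rw [h2, map_one]

theorem card_K9 (h : Hyp d p q r) : Nat.card ↥(K9 d p q r) = 72 :=
  (Cfsg.Agent.S1600.result d h.hd p q r h.hp h.hq h.hr h.hpq h.hpr h.hqr).1

end Cfsg.Agent.Lib.Helper28.M9
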