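/-
The regular normal subgroup of order 9 of M9.
-/
import Cfsg.Agent.Lib.Helper28.M9a
set_option autoImplicit false
open Cfsg
open scoped Pointwise
namespace Cfsg.Agent.Lib.Helper28.M9

variable {d : Finset GolayPt} {p q r : GolayPt}

/-- the properties of the regular normal subgroup -/
structure IsN9 (d : Finset GolayPt) (p q r : GolayPt) (N : Subgroup ↥M24) : Prop where
  le : N ≤ K9 d p q r
  mem_iff : ∀ g : ↥M24, g ∈ N ↔ g ∈ K9 d p q r ∧ g ^ 3 = 1
  comm : ∀ a ∈ N, ∀ b ∈ N, a * b = b * a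
  trans : ∀ u ∈ E9 d p q r, ∀ v ∈ E9 d p q r, ∃ n ∈ N, n.1 u = v
  free : ∀ n ∈ N, ∀ u ∈ E9 d p q r, n.1 u = u → n = 1

theorem exists_N (h : Hyp d p q r) : ∃ N : Subgroup ↥M24, IsN9 d p q r N := by
  haveI := mpt h
  obtain ⟨p', j, hp', hj, hcard, H⟩ := Cfsg.Agent.S0680.result (rho d p q r).range (sharp h)
    (by rw [Fintype.card_coe, card_E9 h]; norm_num)
  rw [Fintype.card_coe, card_E9 h] at hcard
  have h3 : p' = 3 := by
    have h1 : p' ∣ 9 := by rw [hcard]; exact dvd_pow_self _ (by omega)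
    have h2 : p' ∣ 3 := hp'.dvd_of_dvd_pow (show p' ∣ 3 ^ 2 by norm_num; exact h1)
    exact (Nat.prime_dvd_prime_iff_eq hp' Nat.prime_three).1 h2
  subst h3
  haveI : Fact (Nat.Prime 3) := ⟨Nat.prime_three⟩
  obtain ⟨P⟩ : Nonempty (Sylow 3 ↥(rho d p q r).range) := inferInstance
  obtain ⟨hn, hc, he, ht, hf, -⟩ := H ⟨hp'⟩ P
  have hinj : Function.Injective (rho d p q r).rangeRestrict := by
    intro a b hab
    exact rho_injective h (congrArg Subtype.val hab)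
  have hmem : ∀ g : ↥M24, g ∈ ((P : Subgroup ↥(rho d p q r).range).comap
      (rho d p q r).rangeRestrict).map (K9 d p q r).subtype ↔
      ∃ hg : g ∈ K9 d p q r, (rho d p q r).rangeRestrict ⟨g, hg⟩ ∈ (P : Subgroup ↥(rho d p q r).range) := by
    intro g
    constructor
    · rintro ⟨k, hk, rfl⟩
      exact ⟨k.2, hk⟩
    · rintro ⟨hg, hk⟩
      exact ⟨⟨g, hg⟩, hk, rfl⟩
  refine ⟨((P : Subgroup ↥(rho d p q r).range).comap (rho d p q r).rangeRestrict).map (K9 d p q r).subtype,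
    Subgroup.map_subtype_le _, ?_, ?_, ?_, ?_⟩
  · intro g
    rw [hmem]
    constructor
    · rintro ⟨hg, hk⟩
      refine ⟨hg, ?_⟩
      have h1 := he _ hk
      rw [← map_pow] at h1
      have h2 : (⟨g, hg⟩ : ↥(K9 d p q r)) ^ 3 = 1 := hinj (by rw [h1, map_one])
      exact congrArg Subtype.val h2
    · rintro ⟨hg, hk⟩
      refine ⟨hg, ?_⟩
      have hk3 : ((rho d p q r).rangeRestrict ⟨g, hg⟩) ^ 3 = 1 := by
        rw [← map_pow]
        have : (⟨g, hg⟩ : ↥(K9 d p q r)) ^ 3 = 1 := Subtype.ext hk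
        rw [this, map_one]
      have hpg : IsPGroup 3 (Subgroup.zpowers ((rho d p q r).rangeRestrict ⟨g, hg⟩)) := by
        rintro ⟨y, hy⟩
        obtain ⟨m, rfl⟩ := Subgroup.mem_zpowers_iff.1 hy
        refine ⟨1, Subtype.ext ?_⟩
        show (((rho d p q r).rangeRestrict ⟨g, hg⟩) ^ m) ^ (3 ^ 1) = 1
        rw [pow_one, ← zpow_natCast, ← zpow_mul, mul_comm, zpow_mul, zpow_natCast, hk3, one_zpow]
      obtain ⟨Q, hQ⟩ := hpg.exists_le_sylow
      haveI := Sylow.unique_of_normal P hn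
      have hQP : Q = P := Subsingleton.elim _ _
      exact hQP ▸ hQ (Subgroup.mem_zpowers _)
  · intro a ha b hb
    obtain ⟨ha1, ha2⟩ := (hmem a).1 ha
    obtain ⟨hb1, hb2⟩ := (hmem b).1 hb
    have h1 := hc.is_comm.comm ⟨_, ha2⟩ ⟨_, hb2⟩
    have h2 : (rho d p q r).rangeRestrict ⟨a, ha1⟩ * (rho d p q r).rangeRestrict ⟨b, hb1⟩ =
        (rho d p q r).rangeRestrict ⟨b, hb1⟩ * (rho d p q r).rangeRestrict ⟨a, ha1⟩ :=
      congrArg Subtype.val h1
    rw [← map_mul, ← map_mul] at h2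
    exact congrArg Subtype.val (hinj h2)
  · intro u hu v hv
    obtain ⟨⟨⟨σ, ⟨k, hk⟩⟩, hP⟩, hg⟩ := ht.exists_smul_eq ⟨u, hu⟩ ⟨v, hv⟩
    refine ⟨k.1, (hmem _).2 ⟨k.2, ?_⟩, ?_⟩
    · have : (rho d p q r).rangeRestrict ⟨k.1, k.2⟩ = ⟨σ, ⟨k, hk⟩⟩ := Subtype.ext hk
      rw [this]; exact hP
    · have h1 : σ ⟨u, hu⟩ = ⟨v, hv⟩ := hg
      rw [← hk] at h1
      exact congrArg Subtype.val h1
  · intro n hn' u hu hnu
    obtain ⟨hn1, hn2⟩ := (hmem n).1 hn'
    have h1 : (⟨_, hn2⟩ : ↥(P : Subgroup ↥(rho d p q r).range)) ∈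
        MulAction.stabilizer ↥(P : Subgroup ↥(rho d p q r).range) (⟨u, hu⟩ : ↥(E9 d p q r)) := by
      rw [MulAction.mem_stabilizer_iff]
      apply Subtype.ext
      exact hnu
    rw [hf, Subgroup.mem_bot] at h1
    have h2 : (rho d p q r).rangeRestrict ⟨n, hn1⟩ = 1 := congrArg Subtype.val h1
    have h3 : (⟨n, hn1⟩ : ↥(K9 d p q r)) = 1 := hinj (by rw [h2, map_one])
    exact congrArg Subtype.val h3

theorem IsN9.card (h : Hyp d p q r) {N : Subgroup ↥M24} (hN : IsN9 d p q r N) : Nat.card N = 9 := by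
  obtain ⟨u, hu, -⟩ := exists_two h
  have hb : Function.Bijective (fun n : N => (⟨n.1.1 u, K9_maps (hN.le n.2) hu⟩ : ↥(E9 d p q r))) := by
    constructor
    · intro a b hab
      have h1 : a.1.1 u = b.1.1 u := congrArg Subtype.val hab
      have h2 : b.1⁻¹ * a.1 = 1 := by
        apply hN.free _ (N.mul_mem (N.inv_mem b.2) a.2) u hu
        show (b.1.1)⁻¹ (a.1.1 u) = u
        rw [h1]; simp
      exact Subtype.ext (inv_mul_eq_one.1 h2).symm
    · rintro ⟨v, hv⟩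
      obtain ⟨n, hn, hnv⟩ := hN.trans u hu v hv
      exact ⟨⟨n, hn⟩, Subtype.ext hnv⟩
  rw [Nat.card_congr (Equiv.ofBijective _ hb), Nat.card_eq_fintype_card, Fintype.card_coe, card_E9 h]

/-- an element of the dodecad stabiliser normalising `K9` normalises `N` -/
theorem IsN9.conj_mem {N : Subgroup ↥M24} (hN : IsN9 d p q r N) {g : ↥M24}
    (hg : ∀ k ∈ K9 d p q r, g * k * g⁻¹ ∈ K9 d p q r) {n : ↥M24} (hn : n ∈ N) : g * n * g⁻¹ ∈ N := by
  obtain ⟨h1, h2⟩ := (hN.mem_iff n).1 hn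
  refine (hN.mem_iff _).2 ⟨hg n h1, ?_⟩
  rw [conj_pow, h2]; group

/-- an element of the dodecad stabiliser that fixes one of the nine points and centralises `N` is trivial -/
theorem IsN9.eq_one_of_comm (h : Hyp d p q r) {N : Subgroup ↥M24} (hN : IsN9 d p q r N) {g : ↥M24}
    (hgd : g.1 • d = d) {u : GolayPt} (hu : u ∈ E9 d p q r) (hgu : g.1 u = u)
    (hc : ∀ n ∈ N, g * n = n * g) : g = 1 := by
  have hfix : ∀ v ∈ E9 d p q r, g.1 v = v := by
    intro v hv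
    obtain ⟨n, hn, rfl⟩ := hN.trans u hu v hv
    have h1 := congrArg (fun z : ↥M24 => z.1 u) (hc n hn)
    have h2 : g.1 (n.1 u) = n.1 (g.1 u) := h1
    rw [h2, hgu]
  obtain ⟨x, hx, hxs⟩ := exists_five_in (s := E9 d p q r) (by rw [card_E9 h]; norm_num)
  apply Subtype.ext
  exact eq_one_of_fix_dodecad_five h.hd x hx (fun i => (mem_E9.1 (hxs i)).1) g.2 hgd
    (fun i => hfix _ (hxs i))

end Cfsg.Agent.Lib.Helper28.M9
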