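/-
M9 has no element of order 8; Sylow subgroups of M9.
-/
import Cfsg.Agent.Lib.Helper28.M9b
import Cfsg.Agent.Lib.Helper22.FpfPGroup
set_option autoImplicit false
open Cfsg
open scoped Pointwise
namespace Cfsg.Agent.Lib.Helper28.M9

/-- evaluation of a product of two tables -/
def ev2 (A B : List ℕ) (i : ℕ) : ℕ := A.getD (B.getD i 0) 0

theorem ev2_spec {A B : List ℕ} (hA : validTbl A = true) (hB : validTbl B = true)
    (p : GolayPt) : idx ((permOf A * permOf B) p) = ev2 A B (idx p) := by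
  simp only [Equiv.Perm.mul_apply]
  rw [idx_permOf hA, idx_permOf hB]
  rfl

theorem ev2_pow {A B : List ℕ} (hA : validTbl A = true) (hB : validTbl B = true) (n : ℕ)
    (p : GolayPt) : idx (((permOf A * permOf B) ^ n) p) = (ev2 A B)^[n] (idx p) := by
  induction n with
  | zero => rfl
  | succ n ih =>
    rw [pow_succ', Equiv.Perm.mul_apply, ev2_spec hA hB, ih, Function.iterate_succ_apply']

theorem m9_check : L4.all (fun y4 => L5.all (fun y5 =>
    ((List.range 24).all (fun i => (ev2 (m12trans4.getD y4 []) (m12trans5.getD y5 []))^[4] i == i)) ||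
    !((List.range 24).all (fun i => (ev2 (m12trans4.getD y4 []) (m12trans5.getD y5 []))^[8] i == i)))) = true := by
  decide +kernel

theorem dfix3_no8 {g : Equiv.Perm GolayPt} (hg : DFix [23, 0, 1] g) (h8 : g ^ 8 = 1) : g ^ 4 = 1 := by
  obtain ⟨y4, hy4, y5, hy5, hv4, hv5, rfl⟩ := dfix3_enum hg
  have h := m9_check
  simp only [List.all_eq_true] at h
  have h1 := h y4 hy4 y5 hy5
  rw [Bool.or_eq_true] at h1
  rcases h1 with h1 | h1
  · rw [List.all_eq_true] at h1
    apply Equiv.ext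
    intro x
    apply idx_injective
    rw [ev2_pow hv4 hv5]
    exact beq_iff_eq.1 (h1 _ (List.mem_range.2 (idx_lt x)))
  · exfalso
    simp only [Bool.not_eq_true', List.all_eq_false, List.mem_range] at h1
    obtain ⟨i, hi, hi2⟩ := h1
    apply hi2
    rw [beq_iff_eq]
    have e := ev2_pow hv4 hv5 8 (pt i)
    rw [h8, idx_pt i hi] at e
    exact e.symm.trans (idx_pt i hi)

variable {d : Finset GolayPt} {p q r : GolayPt}

theorem no8 (h : Hyp d p q r) {k : ↥M24} (hk : k ∈ K9 d p q r) (h8 : k ^ 8 = 1) : k ^ 4 = 1 := by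
  obtain ⟨a, ha, b, hb, hab⟩ := exists_two h
  obtain ⟨h1, h2⟩ := five h ha hb hab
  obtain ⟨g, hg, hgd, hh⟩ := dodecad_five_to_std h.hd _ h1 h2
  obtain ⟨k0, k1, k2, k3⟩ := mem_K9.1 hk
  have hD : DFix [23, 0, 1] (g * k.1 * g⁻¹) := by
    refine ⟨M24.mul_mem (M24.mul_mem hg k.2) (M24.inv_mem hg), ?_, ?_⟩
    · rw [← hgd, mul_smul, mul_smul, inv_smul_smul, k0]
    · intro f hf
      simp only [List.mem_cons, List.not_mem_nil, or_false] at hf
      have e0 : g p = pt 23 := hh 0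
      have e1 : g q = pt 0 := hh 1
      have e2 : g r = pt 1 := hh 2
      rcases hf with rfl | rfl | rfl
      · rw [← e0]; simp [k1]
      · rw [← e1]; simp [k2]
      · rw [← e2]; simp [k3]
  have h8' : (g * k.1 * g⁻¹) ^ 8 = 1 := by
    rw [conj_pow]
    have : k.1 ^ 8 = 1 := congrArg Subtype.val h8
    rw [this]; group
  have h4 := dfix3_no8 hD h8'
  rw [conj_pow] at h4
  apply Subtype.ext
  show k.1 ^ 4 = 1
  have : k.1 ^ 4 = g⁻¹ * (g * k.1 ^ 4 * g⁻¹) * g := by group
  rw [this, h4]; group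

theorem fact72_3 : (72 : ℕ).factorization 3 = 2 := by
  rw [show (72 : ℕ) = 3 ^ 2 * 8 by norm_num, Nat.factorization_mul (by norm_num) (by norm_num),
    Finsupp.add_apply, Nat.Prime.factorization_pow Nat.prime_three, Finsupp.single_eq_same,
    Nat.factorization_eq_zero_of_not_dvd (by norm_num)]

theorem fact72_2 : (72 : ℕ).factorization 2 = 3 := by
  rw [show (72 : ℕ) = 2 ^ 3 * 9 by norm_num, Nat.factorization_mul (by norm_num) (by norm_num),
    Finsupp.add_apply, Nat.Prime.factorization_pow Nat.prime_two, Finsupp.single_eq_same,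
    Nat.factorization_eq_zero_of_not_dvd (by norm_num)]

theorem normal_subgroupOf {N : Subgroup ↥M24} (hN : IsN9 d p q r N) : (N.subgroupOf (K9 d p q r)).Normal := by
  constructor
  intro n hn g
  rw [Subgroup.mem_subgroupOf] at hn ⊢
  exact hN.conj_mem (g := g.1) (fun k hk => (K9 d p q r).mul_mem ((K9 d p q r).mul_mem g.2 hk)
    ((K9 d p q r).inv_mem g.2)) hn

theorem card_subgroupOf (h : Hyp d p q r) {N : Subgroup ↥M24} (hN : IsN9 d p q r N) :
    Nat.card ↥(N.subgroupOf (K9 d p q r)) = 9 := by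
  rw [Nat.card_congr (Subgroup.subgroupOfEquivOfLe hN.le).toEquiv, hN.card h]

theorem sylow3 (h : Hyp d p q r) (Q : Sylow 3 ↥(K9 d p q r)) :
    (Q : Subgroup ↥(K9 d p q r)).Normal ∧ Nat.card ↥Q = 9 ∧ ∀ x ∈ (Q : Subgroup ↥(K9 d p q r)), x ^ 3 = 1 := by
  obtain ⟨N, hN⟩ := exists_N h
  haveI : Fact (Nat.Prime 3) := ⟨Nat.prime_three⟩
  haveI : Finite ↥(K9 d p q r) := Nat.finite_of_card_ne_zero (by rw [card_K9 h]; norm_num)
  have hn := normal_subgroupOf hN
  have hc := card_subgroupOf h hN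
  let S : Sylow 3 ↥(K9 d p q r) := Sylow.ofCard (N.subgroupOf (K9 d p q r))
    (by rw [hc, card_K9 h, fact72_3]; norm_num)
  have hS : (S : Subgroup ↥(K9 d p q r)) = N.subgroupOf (K9 d p q r) := rfl
  haveI := Sylow.unique_of_normal S (by rw [hS]; exact hn)
  have hQS : Q = S := Subsingleton.elim _ _
  rw [hQS, hS]
  refine ⟨hn, hc, ?_⟩
  intro x hx
  rw [Subgroup.mem_subgroupOf] at hx
  exact Subtype.ext ((hN.mem_iff _).1 hx).2

theorem sylow2 (h : Hyp d p q r) (P : Sylow 2 ↥(K9 d p q r)) : Nonempty (↥P ≃* QuaternionGroup 2) := by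
  obtain ⟨N, hN⟩ := exists_N h
  haveI : Fact (Nat.Prime 2) := ⟨Nat.prime_two⟩
  haveI : Finite ↥(K9 d p q r) := Nat.finite_of_card_ne_zero (by rw [card_K9 h]; norm_num)
  haveI hn := normal_subgroupOf hN
  have hc := card_subgroupOf h hN
  haveI : Nontrivial ↥(N.subgroupOf (K9 d p q r)) := by
    rw [← Finite.one_lt_card_iff_nontrivial, hc]; norm_num
  have hP8 : Nat.card ↥P = 8 := by
    have := P.card_eq_multiplicity
    rw [card_K9 h, fact72_2] at this
    exact this.trans (by norm_num)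
  -- a common fixed point
  letI : MulAction ↥P ↥(E9 d p q r) :=
    MulAction.compHom ↥(E9 d p q r) ((rho d p q r).comp (P : Subgroup ↥(K9 d p q r)).subtype)
  obtain ⟨c, hc'⟩ := P.2.nonempty_fixed_point_of_prime_not_dvd_card ↥(E9 d p q r)
    (by rw [Nat.card_eq_fintype_card, Fintype.card_coe, card_E9 h]; norm_num)
  have hfix : ∀ x : ↥P, x.1.1.1 c.1 = c.1 := by
    intro x
    exact congrArg Subtype.val (hc' x)
  let φ : ↥P →* MulAut ↥(N.subgroupOf (K9 d p q r)) :=
    (MulAut.conjNormal (H := N.subgroupOf (K9 d p q r))).comp (P : Subgroup ↥(K9 d p q r)).subtype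
  have hφ : ∀ x : ↥P, x ≠ 1 → ∀ v : ↥(N.subgroupOf (K9 d p q r)), φ x v = v → v = 1 := by
    intro x hx v hv
    by_contra hv1
    apply hx
    have h1 : x.1 * v.1 * x.1⁻¹ = v.1 := by
      have := congrArg Subtype.val hv
      rwa [show ((φ x v : ↥(N.subgroupOf (K9 d p q r))) : ↥(K9 d p q r)) = x.1 * v.1 * x.1⁻¹ from
        MulAut.conjNormal_apply _ _] at this
    have h2 : x.1 * v.1 = v.1 * x.1 := mul_inv_eq_iff_eq_mul.1 h1
    have hvN : v.1.1 ∈ N := Subgroup.mem_subgroupOf.1 v.2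
    have hvc : v.1.1.1 c.1 ≠ c.1 := by
      intro hh
      apply hv1
      have := hN.free _ hvN c.1 c.2 hh
      exact Subtype.ext (Subtype.ext this)
    have h3 : x.1.1.1 (v.1.1.1 c.1) = v.1.1.1 c.1 := by
      have := congrArg (fun z : ↥(K9 d p q r) => z.1.1 c.1) h2
      have h4 : x.1.1.1 (v.1.1.1 c.1) = v.1.1.1 (x.1.1.1 c.1) := this
      rw [h4, hfix]
    have := eq_one_of_fix h x.1.2 c.2 (K9_maps v.1.2 c.2) hvc.symm (hfix x) h3
    exact Subtype.ext (Subtype.ext this)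
  rcases Cfsg.Agent.Lib.Helper22.cyclic_or_quaternion_of_fpf φ hφ 2 P.2 with hcyc | ⟨n, ⟨e⟩⟩
  · exfalso
    obtain ⟨g, hg⟩ := hcyc.exists_ofOrder_eq_natCard
    rw [hP8] at hg
    have h8 : g ^ 8 = 1 := by rw [← hg]; exact pow_orderOf_eq_one g
    have h8' : g.1.1 ^ 8 = 1 := congrArg (fun z : ↥P => z.1.1) h8
    have h4 := no8 h g.1.2 h8'
    have h4' : g ^ 4 = 1 := Subtype.ext (Subtype.ext h4)
    have := orderOf_dvd_of_pow_eq_one h4'
    rw [hg] at this
    omega
  · have h1 := Nat.card_congr e.toEquiv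
    rw [hP8, Nat.card_eq_fintype_card, QuaternionGroup.card] at h1
    have h2 : 2 ^ n = 2 := by omega
    rw [h2] at e
    exact ⟨e⟩

end Cfsg.Agent.Lib.Helper28.M9
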