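/-
Involutions of M11 fix three further points of the dodecad; orders of triple stabilisers.
-/
import Cfsg.Agent.Lib.Helper28.M9b
set_option autoImplicit false
open Cfsg
open scoped Pointwise
namespace Cfsg.Agent.Lib.Helper28.M9

def y0T : List ℕ := [1, 0, 3, 2, 4, 5, 9, 7, 15, 6, 10, 22, 12, 20, 14, 8, 19, 17, 21, 16, 13, 18, 11, 23]

theorem y0_valid : validTbl y0T = true := by decide +kernel
theorem y0_mem : permOf y0T ∈ M24 := permOf_mem_M24 (by decide +kernel)
theorem y0_dod : permOf y0T • stdDodecad = stdDodecad := by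
  apply mask_injective
  rw [mask_smul, mask_stdDodecad, pm_permOf y0_valid]
  decide +kernel
theorem y0_apply (i : ℕ) (hi : i < 24) : permOf y0T (pt i) = pt (y0T.getD i 0) := by
  rw [permOf_apply y0_valid, idx_pt i hi]

variable {d : Finset GolayPt}

theorem exists_moved (hd : d ∈ dodecads) {x : Equiv.Perm GolayPt} (hx : x ∈ M24) (hxd : x • d = d)
    (hx1 : x ≠ 1) {s : Finset GolayPt} (hs : s ⊆ d) (h5 : 5 ≤ s.card) : ∃ u ∈ s, x u ≠ u := by
  by_contra hcon
  push Not at hcon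
  obtain ⟨y, hy, hys⟩ := exists_five_in h5
  exact hx1 (eq_one_of_fix_dodecad_five hd y hy (fun i => hs (hys i)) hx hxd (fun i => hcon _ (hys i)))

theorem invol_fixed (hd : d ∈ dodecads) {p : GolayPt} (hp : p ∈ d) {x : Equiv.Perm GolayPt} (hx : x ∈ M24)
    (hxd : x • d = d) (hxp : x p = p) (hx2 : x * x = 1) (hx1 : x ≠ 1) :
    ∃ a b c, Hyp d a b c ∧ p ∈ E9 d a b c ∧ x a = a ∧ x b = b ∧ x c = c := by
  have hxx : ∀ s, x (x s) = s := fun s => by
    have := congrArg (fun f : Equiv.Perm GolayPt => f s) hx2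
    exact this
  have hc12 := card_of_mem_dodecads hd
  obtain ⟨u, hu, hxu⟩ := exists_moved hd hx hxd hx1 (s := d) (Finset.Subset.refl _) (by rw [hc12]; norm_num)
  have hv : x u ∈ d := (apply_mem_iff_of_smul_eq hxd u).2 hu
  have hpu : p ≠ u := fun hh => hxu (by rw [← hh, hxp])
  have hpv : p ≠ x u := fun hh => hpu (by
    have := congrArg x hh
    rw [hxp, hxx] at this
    exact this)
  have h1 : Hyp d p u (x u) := ⟨hd, hp, hu, hv, hpu, hpv, fun hh => hxu hh.symm⟩
  obtain ⟨w, hw, hxw⟩ := exists_moved hd hx hxd hx1 (s := E9 d p u (x u))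
    (fun y hy => (mem_E9.1 hy).1) (by rw [card_E9 h1]; norm_num)
  obtain ⟨hw0, hw1, hw2, hw3⟩ := mem_E9.1 hw
  have hz : x w ∈ E9 d p u (x u) := by
    refine mem_E9.2 ⟨(apply_mem_iff_of_smul_eq hxd w).2 hw0, ?_, ?_, ?_⟩
    · intro hh; rw [← hxp] at hh; exact hw1 (x.injective hh)
    · intro hh; rw [← hxx u] at hh; exact hw3 (x.injective hh)
    · intro hh; exact hw2 (x.injective hh)
  obtain ⟨i1, i2⟩ := five h1 hw hz (fun hh => hxw hh.symm)
  obtain ⟨g, hg, hgd, hh⟩ := dodecad_five_to_std hd _ i1 i2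
  have e0 : g p = pt 23 := hh 0
  have e1 : g u = pt 0 := hh 1
  have e2 : g (x u) = pt 1 := hh 2
  have e3 : g w = pt 2 := hh 3
  have e4 : g (x w) = pt 3 := hh 4
  have key : ∀ s : GolayPt, (g * x * g⁻¹) (g s) = g (x s) := by intro s; simp
  have hD : DFix [23, 0, 1, 2, 3] ((permOf y0T)⁻¹ * (g * x * g⁻¹)) := by
    refine ⟨M24.mul_mem (M24.inv_mem y0_mem) (M24.mul_mem (M24.mul_mem hg hx) (M24.inv_mem hg)), ?_, ?_⟩
    · rw [mul_smul, inv_smul_eq_iff, y0_dod, ← hgd, mul_smul, mul_smul, inv_smul_smul, hxd]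
    · intro f hf
      simp only [List.mem_cons, List.not_mem_nil, or_false] at hf
      rw [Equiv.Perm.mul_apply, Equiv.Perm.inv_eq_iff_eq]
      rcases hf with rfl | rfl | rfl | rfl | rfl
      · rw [y0_apply 23 (by norm_num), ← e0, key, hxp, e0]; rfl
      · rw [y0_apply 0 (by norm_num), ← e1, key, e2]; rfl
      · rw [y0_apply 1 (by norm_num), ← e2, key, hxx, e1]; rfl
      · rw [y0_apply 2 (by norm_num), ← e3, key, e4]; rfl
      · rw [y0_apply 3 (by norm_num), ← e4, key, hxx, e3]; rfl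
  have hy : permOf y0T = g * x * g⁻¹ := inv_mul_eq_one.1 (dfix5_eq_one hD)
  have hfix : ∀ i, i < 24 → y0T.getD i 0 = i → x (g⁻¹ (pt i)) = g⁻¹ (pt i) := by
    intro i hi hi2
    have h3 := key (g⁻¹ (pt i))
    have hgi : g (g⁻¹ (pt i)) = pt i := by simp
    rw [← hy, hgi, y0_apply i hi, hi2] at h3
    rw [Equiv.Perm.eq_inv_iff_eq, ← h3]
  have hmem : ∀ i, pt i ∈ stdDodecad → g⁻¹ (pt i) ∈ d := by
    intro i hi
    rw [← hgd] at hi
    exact Finset.inv_smul_mem_iff.2 hi
  have hne : ∀ i j, pt i ≠ pt j → g⁻¹ (pt i) ≠ g⁻¹ (pt j) := fun i j hij hh => hij (g⁻¹.injective hh)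
  have hpg : p = g⁻¹ (pt 23) := by rw [Equiv.Perm.eq_inv_iff_eq, e0]
  refine ⟨g⁻¹ (pt 7), g⁻¹ (pt 12), g⁻¹ (pt 14), ⟨hd, hmem 7 (by decide +kernel), hmem 12 (by decide +kernel),
    hmem 14 (by decide +kernel), hne _ _ (by decide +kernel), hne _ _ (by decide +kernel),
    hne _ _ (by decide +kernel)⟩, mem_E9.2 ⟨hp, ?_, ?_, ?_⟩, hfix 7 (by norm_num) rfl,
    hfix 12 (by norm_num) rfl, hfix 14 (by norm_num) rfl⟩
  · rw [hpg]; exact hne _ _ (by decide +kernel)
  · rw [hpg]; exact hne _ _ (by decide +kernel)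
  · rw [hpg]; exact hne _ _ (by decide +kernel)

/-! ### orders -/

theorem card_inf_stab {G β : Type*} [Group G] [MulAction G β] (H : Subgroup G) (b : β) :
    Nat.card ↥(H ⊓ MulAction.stabilizer G b) * (MulAction.orbit H b).ncard = Nat.card H := by
  rw [← card_stabilizer_mul (G := H) b]
  congr 1
  have h1 : MulAction.stabilizer H b = (H ⊓ MulAction.stabilizer G b).subgroupOf H := by
    ext g
    simp [Subgroup.mem_subgroupOf, MulAction.mem_stabilizer_iff, Subgroup.smul_def]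
  rw [h1]
  exact (Nat.card_congr (Subgroup.subgroupOfEquivOfLe inf_le_left).toEquiv).symm

variable {a b c : GolayPt}

theorem exists_map3 (h : Hyp d a b c) {a' b' c' : GolayPt} (h' : Hyp d a' b' c') :
    ∃ g ∈ M24, g • d = d ∧ g a = a' ∧ g b = b' ∧ g c = c' := by
  obtain ⟨u, hu, v, hv, huv⟩ := exists_two h
  obtain ⟨u', hu', v', hv', huv'⟩ := exists_two h'
  obtain ⟨h1, h2⟩ := five h hu hv huv
  obtain ⟨h1', h2'⟩ := five h' hu' hv' huv'
  obtain ⟨g, hg, hgd, hh⟩ := dodecad_five_trans h.hd _ _ h1 h1' h2 h2'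
  exact ⟨g, hg, hgd, hh 0, hh 1, hh 2⟩

theorem card_stab_triple (h : Hyp d a b c) :
    Nat.card ↥(MulAction.stabilizer M24 d ⊓ MulAction.stabilizer M24 ({a, b, c} : Finset GolayPt)) = 432 := by
  have h0 := card_inf_stabilizer (G := M24) d ({a, b, c} : Finset GolayPt)
  have h2 : MulAction.orbit (MulAction.stabilizer M24 d) ({a, b, c} : Finset GolayPt) =
      ((d.powersetCard 3 : Finset (Finset GolayPt)) : Set (Finset GolayPt)) := by
    ext S
    rw [Finset.mem_coe, Finset.mem_powersetCard]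
    constructor
    · rintro ⟨g, rfl⟩
      have h3 : g.1.1 • d = d := g.2
      constructor
      · intro y hy
        obtain ⟨z, hz, rfl⟩ := Finset.mem_smul_finset.1 hy
        have hzd : z ∈ d := by
          simp only [Finset.mem_insert, Finset.mem_singleton] at hz
          rcases hz with rfl | rfl | rfl
          · exact h.hp
          · exact h.hq
          · exact h.hr
        exact (apply_mem_iff_of_smul_eq h3 z).2 hzd
      · rw [Finset.card_smul_finset]
        exact Finset.card_eq_three.2 ⟨a, b, c, h.hpq, h.hpr, h.hqr, rfl⟩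
    · rintro ⟨hS, hS3⟩
      obtain ⟨a', b', c', hab, hac, hbc, rfl⟩ := Finset.card_eq_three.1 hS3
      have h' : Hyp d a' b' c' := ⟨h.hd, hS (by simp), hS (by simp), hS (by simp), hab, hac, hbc⟩
      obtain ⟨g, hg, hgd, ha, hb, hc⟩ := exists_map3 h h'
      refine ⟨⟨⟨g, hg⟩, hgd⟩, ?_⟩
      show g • ({a, b, c} : Finset GolayPt) = {a', b', c'}
      rw [Finset.smul_finset_insert, Finset.smul_finset_insert, Finset.smul_finset_singleton]
      simp only [Equiv.Perm.smul_def, ha, hb, hc]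
  rw [h2, card_stab_dodecad h.hd, Set.ncard_coe_finset, Finset.card_powersetCard,
    card_of_mem_dodecads h.hd] at h0
  have : Nat.choose 12 3 = 220 := by decide
  rw [this] at h0
  omega

theorem K9_le_triple : K9 d a b c ≤
    MulAction.stabilizer M24 d ⊓ MulAction.stabilizer M24 ({a, b, c} : Finset GolayPt) := by
  intro g hg
  obtain ⟨k0, k1, k2, k3⟩ := mem_K9.1 hg
  refine Subgroup.mem_inf.2 ⟨MulAction.mem_stabilizer_iff.2 k0, MulAction.mem_stabilizer_iff.2 ?_⟩
  show g.1 • ({a, b, c} : Finset GolayPt) = {a, b, c}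
  rw [Finset.smul_finset_insert, Finset.smul_finset_insert, Finset.smul_finset_singleton]
  simp only [Equiv.Perm.smul_def, k1, k2, k3]

theorem triple_maps {g : ↥M24} (hgd : g.1 • d = d) (hgT : g.1 • ({a, b, c} : Finset GolayPt) = {a, b, c})
    {u : GolayPt} (hu : u ∈ E9 d a b c) : g.1 u ∈ E9 d a b c := by
  obtain ⟨h0, h1, h2, h3⟩ := mem_E9.1 hu
  have h4 : g.1 u ∉ ({a, b, c} : Finset GolayPt) := by
    rw [apply_mem_iff_of_smul_eq hgT]
    simp [h1, h2, h3]
  simp only [Finset.mem_insert, Finset.mem_singleton, not_or] at h4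
  exact mem_E9.2 ⟨(apply_mem_iff_of_smul_eq hgd u).2 h0, h4.1, h4.2.1, h4.2.2⟩

theorem card_stab_triple_pt (h : Hyp d a b c) {p : GolayPt} (hp : p ∈ E9 d a b c) :
    Nat.card ↥(MulAction.stabilizer M24 d ⊓ MulAction.stabilizer M24 ({a, b, c} : Finset GolayPt) ⊓
      MulAction.stabilizer M24 p) = 48 := by
  have h0 := card_inf_stab (G := M24)
    (MulAction.stabilizer M24 d ⊓ MulAction.stabilizer M24 ({a, b, c} : Finset GolayPt)) p
  have h2 : MulAction.orbit
      ↥(MulAction.stabilizer M24 d ⊓ MulAction.stabilizer M24 ({a, b, c} : Finset GolayPt)) p =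
      ((E9 d a b c : Finset GolayPt) : Set GolayPt) := by
    ext y
    rw [Finset.mem_coe]
    constructor
    · rintro ⟨g, rfl⟩
      exact triple_maps g.2.1 g.2.2 hp
    · intro hy
      obtain ⟨N, hN⟩ := exists_N h
      obtain ⟨n, hn, hny⟩ := hN.trans p hp y hy
      exact ⟨⟨n, K9_le_triple (hN.le hn)⟩, hny⟩
  rw [h2, card_stab_triple h, Set.ncard_coe_finset, card_E9 h] at h0
  omega

end Cfsg.Agent.Lib.Helper28.M9
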