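/-
Involution centralisers in M11 are GL(2,3).
-/
import Cfsg.Agent.Lib.Helper28.M9d
import Cfsg.Agent.Lib.Helper28.GL23
set_option autoImplicit false
open Cfsg
open scoped Pointwise
namespace Cfsg.Agent.Lib.Helper28.M9

variable {d : Finset GolayPt} {a b c p : GolayPt}

/-- the stabiliser of the triple normalises `K9` -/
theorem conjK {g : ↥M24} (hgd : g.1 • d = d) (hgT : g.1 • ({a, b, c} : Finset GolayPt) = {a, b, c}) :
    ∀ k ∈ K9 d a b c, g * k * g⁻¹ ∈ K9 d a b c := by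
  intro k hk
  obtain ⟨k0, k1, k2, k3⟩ := mem_K9.1 hk
  have hfixT : ∀ y ∈ ({a, b, c} : Finset GolayPt), k.1 y = y := by
    intro y hy
    simp only [Finset.mem_insert, Finset.mem_singleton] at hy
    rcases hy with rfl | rfl | rfl
    · exact k1
    · exact k2
    · exact k3
  have hinv : ∀ y ∈ ({a, b, c} : Finset GolayPt), g.1⁻¹ y ∈ ({a, b, c} : Finset GolayPt) := by
    intro y hy
    rw [← apply_mem_iff_of_smul_eq hgT]
    simpa using hy
  have hconj : ∀ y ∈ ({a, b, c} : Finset GolayPt), (g * k * g⁻¹).1 y = y := by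
    intro y hy
    show g.1 (k.1 (g.1⁻¹ y)) = y
    rw [hfixT _ (hinv y hy)]
    simp
  refine mem_K9.2 ⟨?_, hconj a (by simp), hconj b (by simp), hconj c (by simp)⟩
  show (g.1 * k.1 * g.1⁻¹) • d = d
  have : g.1⁻¹ • d = d := by rw [inv_smul_eq_iff, hgd]
  rw [mul_smul, mul_smul, this, k0, hgd]

theorem inverts (h : Hyp d a b c) {N : Subgroup ↥M24} (hN : IsN9 d a b c N) (hp : p ∈ E9 d a b c)
    {t : ↥M24} (ht : t ∈ K9 d a b c) (htp : t.1 p = p) (ht2 : t * t = 1) (ht1 : t ≠ 1)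
    {n : ↥M24} (hn : n ∈ N) : t * n * t⁻¹ = n⁻¹ := by
  have hK : ∀ k ∈ K9 d a b c, t * k * t⁻¹ ∈ K9 d a b c := fun k hk =>
    (K9 d a b c).mul_mem ((K9 d a b c).mul_mem ht hk) ((K9 d a b c).inv_mem ht)
  have hn' : t * n * t⁻¹ ∈ N := hN.conj_mem hK hn
  have hti : t⁻¹ = t := inv_eq_of_mul_eq_one_left ht2
  have hmN : n * (t * n * t⁻¹) ∈ N := N.mul_mem hn hn'
  have hcm : t * (n * (t * n * t⁻¹)) = (n * (t * n * t⁻¹)) * t := by
    have e1 : t * (n * (t * n * t⁻¹)) * t⁻¹ = (t * n * t⁻¹) * n := by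
      rw [hti]
      calc t * (n * (t * n * t)) * t = (t * n * t) * n * (t * t) := by simp only [mul_assoc]
      _ = _ := by rw [ht2, mul_one]
    rw [hN.comm _ hn' _ hn] at e1
    exact mul_inv_eq_iff_eq_mul.1 e1
  have hm1 : n * (t * n * t⁻¹) = 1 := by
    by_contra hne
    apply ht1
    have hmp : (n * (t * n * t⁻¹)).1 p ≠ p := fun hh => hne (hN.free _ hmN p hp hh)
    have h3 : t.1 ((n * (t * n * t⁻¹)).1 p) = (n * (t * n * t⁻¹)).1 p := by
      have := congrArg (fun z : ↥M24 => z.1 p) hcm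
      have h4 : t.1 ((n * (t * n * t⁻¹)).1 p) = (n * (t * n * t⁻¹)).1 (t.1 p) := this
      rw [h4, htp]
    exact eq_one_of_fix h ht hp (K9_maps (hN.le hmN) hp) hmp.symm htp h3
  exact eq_inv_of_mul_eq_one_right hm1

theorem comm_of_triple (h : Hyp d a b c) {N : Subgroup ↥M24} (hN : IsN9 d a b c N) (hp : p ∈ E9 d a b c)
    {x : ↥M24} (hx : x ∈ K9 d a b c) (hxp : x.1 p = p) (hx2 : x * x = 1) (hx1 : x ≠ 1)
    {g : ↥M24} (hgd : g.1 • d = d) (hgT : g.1 • ({a, b, c} : Finset GolayPt) = {a, b, c})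
    (hgp : g.1 p = p) : g * x = x * g := by
  have hy : g * x * g⁻¹ ∈ K9 d a b c := conjK hgd hgT x hx
  have hyp : (g * x * g⁻¹).1 p = p := by
    show g.1 (x.1 (g.1⁻¹ p)) = p
    have : g.1⁻¹ p = p := by rw [Equiv.Perm.inv_eq_iff_eq, hgp]
    rw [this, hxp, hgp]
  have hy2 : (g * x * g⁻¹) * (g * x * g⁻¹) = 1 := by
    calc (g * x * g⁻¹) * (g * x * g⁻¹) = g * (x * x) * g⁻¹ := by group
    _ = 1 := by rw [hx2]; group
  have hy1 : g * x * g⁻¹ ≠ 1 := fun hh => hx1 (conj_eq_one_iff.1 hh)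
  have hxy : x * (g * x * g⁻¹) = 1 := by
    apply hN.eq_one_of_comm h (g := x * (g * x * g⁻¹)) ?_ hp ?_ ?_
    · show (x.1 * (g * x * g⁻¹).1) • d = d
      rw [mul_smul, (mem_K9.1 hy).1, (mem_K9.1 hx).1]
    · show x.1 ((g * x * g⁻¹).1 p) = p
      rw [hyp, hxp]
    · intro n hn
      have e1 := inverts h hN hp hy hyp hy2 hy1 hn
      have e2 := inverts h hN hp hx hxp hx2 hx1 (N.inv_mem hn)
      have : x * (g * x * g⁻¹) * n * (x * (g * x * g⁻¹))⁻¹ = n := by
        rw [mul_inv_rev]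
        calc x * (g * x * g⁻¹) * n * ((g * x * g⁻¹)⁻¹ * x⁻¹)
            = x * ((g * x * g⁻¹) * n * (g * x * g⁻¹)⁻¹) * x⁻¹ := by simp only [mul_assoc]
        _ = n := by rw [e1, e2, inv_inv]
      exact mul_inv_eq_iff_eq_mul.1 this
  have h1 : g * x * g⁻¹ = x := by
    rw [eq_inv_of_mul_eq_one_right hxy]
    exact inv_eq_of_mul_eq_one_left hx2
  exact mul_inv_eq_iff_eq_mul.1 h1

theorem centralizer_gl23 (hd : d ∈ dodecads) (hp : p ∈ d)
    (x : ↥(MulAction.stabilizer M24 d ⊓ MulAction.stabilizer M24 p)) (hx : orderOf x = 2) :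
    Nonempty (↥(Subgroup.centralizer ({x} : Set ↥(MulAction.stabilizer M24 d ⊓ MulAction.stabilizer M24 p))) ≃*
      GL (Fin 2) (ZMod 3)) := by
  have hx2 : x * x = 1 := by rw [← pow_two, ← hx]; exact pow_orderOf_eq_one x
  have hx1 : x ≠ 1 := by intro hh; rw [hh, orderOf_one] at hx; omega
  have hxd : x.1.1 • d = d := x.2.1
  have hxp : x.1.1 p = p := x.2.2
  obtain ⟨a, b, c, h, hpE, ha, hb, hc⟩ := invol_fixed hd hp x.1.2 hxd hxp
    (congrArg (fun z : ↥(MulAction.stabilizer M24 d ⊓ MulAction.stabilizer M24 p) => z.1.1) hx2)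
    (fun hh => hx1 (Subtype.ext (Subtype.ext hh)))
  obtain ⟨N, hN⟩ := exists_N h
  have hxK : x.1 ∈ K9 d a b c := mem_K9.2 ⟨hxd, ha, hb, hc⟩
  have hx2' : x.1 * x.1 = 1 := congrArg Subtype.val hx2
  have hx1' : x.1 ≠ 1 := fun hh => hx1 (Subtype.ext hh)
  obtain ⟨hp0, hp1, hp2, hp3⟩ := mem_E9.1 hpE
  have hfixed : ∀ y ∈ d, x.1.1 y = y → y = p ∨ y ∈ ({a, b, c} : Finset GolayPt) := by
    intro y hy hxy
    by_contra hcon
    rw [not_or] at hcon
    have h2 := hcon.2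
    simp only [Finset.mem_insert, Finset.mem_singleton, not_or] at h2
    have hyE : y ∈ E9 d a b c := mem_E9.2 ⟨hy, h2.1, h2.2.1, h2.2.2⟩
    exact hx1' (eq_one_of_fix h hxK hpE hyE (Ne.symm hcon.1) hxp hxy)
  have hT : ∀ g : ↥(Subgroup.centralizer ({x} : Set ↥(MulAction.stabilizer M24 d ⊓ MulAction.stabilizer M24 p))),
      g.1.1.1 • ({a, b, c} : Finset GolayPt) = {a, b, c} := by
    intro g
    apply smul_eq_of_maps
    intro y hy
    have hcomm : x * g.1 = g.1 * x := (Subgroup.mem_centralizer_iff.1 g.2) x rfl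
    have hy' := hy
    simp only [Finset.mem_insert, Finset.mem_singleton] at hy'
    have hxy : x.1.1 y = y := by
      rcases hy' with rfl | rfl | rfl
      · exact ha
      · exact hb
      · exact hc
    have hyd : y ∈ d := by
      rcases hy' with rfl | rfl | rfl
      · exact h.hp
      · exact h.hq
      · exact h.hr
    have hyp : y ≠ p := by
      rcases hy' with rfl | rfl | rfl
      · exact hp1.symm
      · exact hp2.symm
      · exact hp3.symm
    have e : x.1.1 (g.1.1.1 y) = g.1.1.1 y := by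
      have := congrArg (fun z : ↥(MulAction.stabilizer M24 d ⊓ MulAction.stabilizer M24 p) => z.1.1 y) hcomm
      have e2 : x.1.1 (g.1.1.1 y) = g.1.1.1 (x.1.1 y) := this
      rw [e2, hxy]
    have hgd : g.1.1.1 • d = d := g.1.2.1
    have hgp : g.1.1.1 p = p := g.1.2.2
    rcases hfixed _ ((apply_mem_iff_of_smul_eq hgd y).2 hyd) e with h1 | h1
    · exfalso
      exact hyp (g.1.1.1.injective (h1.trans hgp.symm))
    · exact h1
  apply gl23_of_normalizing N (hN.card h) (fun n hn => ((hN.mem_iff n).1 hn).2) hN.comm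
    ((MulAction.stabilizer M24 d ⊓ MulAction.stabilizer M24 p).subtype.comp
      (Subgroup.centralizer ({x} : Set ↥(MulAction.stabilizer M24 d ⊓ MulAction.stabilizer M24 p))).subtype)
  · intro g n hn
    exact hN.conj_mem (conjK g.1.2.1 (hT g)) hn
  · intro g hg
    have := hN.eq_one_of_comm h (g := g.1.1) g.1.2.1 hpE g.1.2.2 hg
    exact Subtype.ext (Subtype.ext this)
  · rw [← card_stab_triple_pt h hpE]
    apply Nat.card_congr
    exact
      { toFun := fun g => ⟨g.1.1, ⟨⟨g.1.2.1, hT g⟩, g.1.2.2⟩⟩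
        invFun := fun g => ⟨⟨g.1, ⟨g.2.1.1, g.2.2⟩⟩, by
          rw [Subgroup.mem_centralizer_iff]
          intro z hz
          rw [Set.mem_singleton_iff.1 hz]
          apply Subtype.ext
          exact (comm_of_triple h hN hpE hxK hxp hx2' hx1' g.2.1.1 g.2.1.2 g.2.2).symm⟩
        left_inv := fun _ => rfl
        right_inv := fun _ => rfl }

end Cfsg.Agent.Lib.Helper28.M9
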