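/-
The stabiliser of a triple of points of a dodecad: 3^2 : GL(2,3).
-/
import Cfsg.Agent.Lib.Helper28.M9e
import Cfsg.Agent.Lib.Helper28.GL23b
set_option autoImplicit false
open Cfsg
open scoped Pointwise
namespace Cfsg.Agent.Lib.Helper28.M9

variable {d : Finset GolayPt} {a b c : GolayPt}

theorem triple_quotient (h : Hyp d a b c) :
    ∃ (N' : Subgroup ↥(MulAction.stabilizer M24 d ⊓ MulAction.stabilizer M24 ({a, b, c} : Finset GolayPt)))
      (_ : N'.Normal), Nat.card N' = 9 ∧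
      Nonempty (↥(MulAction.stabilizer M24 d ⊓ MulAction.stabilizer M24 ({a, b, c} : Finset GolayPt)) ⧸ N' ≃*
        GL (Fin 2) (ZMod 3)) := by
  obtain ⟨N, hN⟩ := exists_N h
  apply gl23_quotient N _ (hN.le.trans K9_le_triple) (hN.card h) (fun n hn => ((hN.mem_iff n).1 hn).2) hN.comm
  · intro g hg n hn
    exact hN.conj_mem (conjK hg.1 hg.2) hn
  · intro g hg hc
    obtain ⟨u, hu, -⟩ := exists_two h
    obtain ⟨n, hn, hnu⟩ := hN.trans u hu _ (triple_maps hg.1 hg.2 hu)
    have h1 : n⁻¹ * g = 1 := by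
      apply hN.eq_one_of_comm h (g := n⁻¹ * g) ?_ hu ?_ ?_
      · show (n.1⁻¹ * g.1) • d = d
        have hgd : g.1 • d = d := hg.1
        rw [mul_smul, hgd, inv_smul_eq_iff, (mem_K9.1 (hN.le hn)).1]
      · show n.1⁻¹ (g.1 u) = u
        rw [← hnu]; simp
      · intro m hm
        rw [mul_assoc, hc m hm, ← mul_assoc, ← mul_assoc, hN.comm _ (N.inv_mem hn) _ hm]
    rw [inv_mul_eq_one] at h1
    rw [← h1]; exact hn
  · exact card_stab_triple h

end Cfsg.Agent.Lib.Helper28.M9
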