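/-
The punctured binary code of length 23: weights and perfection.
-/
import Cfsg.Agent.Lib.Helper28.Frame3
import Cfsg.Agent.Lib.Helper28.GolayMod2
set_option autoImplicit false
set_option maxRecDepth 100000
open Cfsg Finset
namespace Cfsg.Agent.Lib.Helper28.Punct
open Cfsg.Agent.Lib.Helper28.Stein Cfsg.Agent.Lib.Helper28

def pun (w : GolayPt → ZMod 2) : ZMod 23 → ZMod 2 := fun x => w (some x)

def U : Set (ZMod 23 → ZMod 2) := {u | ∃ w ∈ golayCode, ∀ x : ZMod 23, u x = w (some x)}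

theorem pun_add (v w : GolayPt → ZMod 2) : pun (v + w) = pun v + pun w := rfl

theorem norm_pun (m : ℕ) : hammingNorm (pun (ofMask m)) = pc 23 m := by
  rw [pc_eq_sum, hammingNorm, card_filter]
  have h1 : ∀ x : ZMod 23, (if pun (ofMask m) x ≠ 0 then 1 else 0) = (m.testBit (ZMod.val x)).toNat := by
    intro x
    show (if (if m.testBit (idx (some x)) = true then (1 : ZMod 2) else 0) ≠ 0 then 1 else 0) = _
    have : idx (some x) = ZMod.val x := rfl
    rw [this]
    cases m.testBit (ZMod.val x) <;> simp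
  rw [sum_congr rfl (fun x _ => h1 x)]
  exact Fin.sum_univ_eq_sum_range (fun i => (m.testBit i).toNat) 23

theorem pc23_eq {m : ℕ} : pc 23 m = pcF (Nat.land m 8388607) := by
  have h1 : Nat.land m 8388607 = m % 2 ^ 23 := by
    show m &&& (2 ^ 23 - 1) = _
    rw [Nat.and_two_pow_sub_one_eq_mod]
  have h2 : m % 2 ^ 23 < 2 ^ 23 := Nat.mod_lt _ (by norm_num)
  rw [h1, pcF_eq (lt_trans h2 (by norm_num)), pc24_eq (by norm_num) h2, pc_mod]

theorem pc23_le (m : ℕ) : pc 23 m ≤ pc 24 m := by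
  rw [show (24 : ℕ) = 23 + 1 from rfl, pc_add]
  exact Nat.le_add_right _ _

theorem pc24_le (m : ℕ) : pc 24 m ≤ pc 23 m + 1 := by
  rw [show (24 : ℕ) = 23 + 1 from rfl, pc_add]
  simp only [pc]
  omega

def pw (j : ℕ) : ZMod 23 → ZMod 2 := pun (ofMask (enc j))

theorem mem_U_iff (u : ZMod 23 → ZMod 2) : u ∈ U ↔ ∃ j < 4096, pw j = u := by
  constructor
  · rintro ⟨w, hw, hu⟩
    obtain ⟨j, hj, hjw⟩ := exists_enc_of_isCode (maskV_lt w) ((mem_golayCode_iff w).1 hw)
    refine ⟨j, hj, ?_⟩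
    funext x
    rw [hu x, pw, hjw, ofMask_maskV]; rfl
  · rintro ⟨j, hj, rfl⟩
    refine ⟨ofMask (enc j), ?_, fun x => rfl⟩
    rw [mem_golayCode_iff, maskV_ofMask _ (enc_lt j hj)]
    exact isCode_enc j hj

theorem zmod2_add_self (v : ZMod 23 → ZMod 2) : v + v = 0 := by
  funext x
  have : ∀ a : ZMod 2, a + a = 0 := by decide
  exact this _

theorem pw_injOn {i j : ℕ} (hi : i < 4096) (hj : j < 4096) (h : pw i = pw j) : i = j := by
  have hc : isCode (enc i ^^^ enc j) = true := isCode_xor _ _ (isCode_enc i hi) (isCode_enc j hj)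
  have hlt : enc i ^^^ enc j < 2 ^ 24 := Nat.xor_lt_two_pow (enc_lt i hi) (enc_lt j hj)
  have h0 : pc 23 (enc i ^^^ enc j) = 0 := by
    rw [← norm_pun, ofMask_xor, pun_add]
    have : pun (ofMask (enc i)) = pun (ofMask (enc j)) := h
    rw [this, zmod2_add_self]
    exact hammingNorm_eq_zero.2 rfl
  have h1 := pc24_le (enc i ^^^ enc j)
  have h2 : pc 24 (enc i ^^^ enc j) = 0 := by
    rcases code_weight hlt hc with h | h | h | h | h <;> omega
  have h3 := code_weight_zero hlt h2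
  exact enc_injOn hi hj (Nat.xor_eq_zero_iff.1 h3)

theorem norm_pw {j : ℕ} (hj : j < 4096) : hammingNorm (pw j) = pcF (Nat.land (encF j) 8388607) := by
  rw [pw, norm_pun, pc23_eq, encF_eq j hj]

theorem ncard_filter (f : ℕ → Bool) {P : (ZMod 23 → ZMod 2) → Prop} (h : ∀ j < 4096, (P (pw j) ↔ f j = true)) :
    {u | u ∈ U ∧ P u}.ncard = countBelow f 4096 := by
  rw [countBelow_eq]
  have : {u | u ∈ U ∧ P u} = pw '' (((range 4096).filter (fun j => f j = true) : Finset ℕ) : Set ℕ) := by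
    ext u
    simp only [Set.mem_setOf_eq, Set.mem_image, coe_filter, mem_range, mem_U_iff]
    constructor
    · rintro ⟨⟨j, hj, rfl⟩, hP⟩
      exact ⟨j, ⟨hj, (h j hj).1 hP⟩, rfl⟩
    · rintro ⟨j, ⟨hj, hf⟩, rfl⟩
      exact ⟨⟨j, hj, rfl⟩, (h j hj).2 hf⟩
  rw [this, Set.InjOn.ncard_image, Set.ncard_coe_finset]
  intro i hi j hj hij
  simp only [coe_filter, mem_range, Set.mem_setOf_eq] at hi hj
  exact pw_injOn hi.1 hj.1 hij

theorem ncard_wt (k : ℕ) : {u | u ∈ U ∧ hammingNorm u = k}.ncard =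
    countBelow (fun j => Nat.beq (pcF (Nat.land (encF j) 8388607)) k) 4096 := by
  apply ncard_filter
  intro j hj
  rw [norm_pw hj]
  constructor
  · intro h; rw [h]; exact Nat.beq_refl k
  · intro h; exact Nat.eq_of_beq_eq_true h

theorem c7 : countBelow (fun j => Nat.beq (pcF (Nat.land (encF j) 8388607)) 7) 4096 = 253 := by decide +kernel
theorem c8 : countBelow (fun j => Nat.beq (pcF (Nat.land (encF j) 8388607)) 8) 4096 = 506 := by decide +kernel
theorem c11 : countBelow (fun j => Nat.beq (pcF (Nat.land (encF j) 8388607)) 11) 4096 = 1288 := by decide +kernel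
theorem c12 : countBelow (fun j => Nat.beq (pcF (Nat.land (encF j) 8388607)) 12) 4096 = 1288 := by decide +kernel
theorem c15 : countBelow (fun j => Nat.beq (pcF (Nat.land (encF j) 8388607)) 15) 4096 = 506 := by decide +kernel
theorem c16 : countBelow (fun j => Nat.beq (pcF (Nat.land (encF j) 8388607)) 16) 4096 = 253 := by decide +kernel
theorem call : countBelow (fun _ => true) 4096 = 4096 := by decide +kernel
theorem cmin : allBelow (fun j => Nat.beq j 0 || Nat.ble 7 (pcF (Nat.land (encF j) 8388607))) 4096 = true := by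
  decide +kernel

theorem pw_zero : pw 0 = 0 := by
  have : enc 0 = 0 := encAux_zero _
  rw [pw, this, ofMask_zero]; rfl

theorem min_wt {u : ZMod 23 → ZMod 2} (hu : u ∈ U) (h0 : u ≠ 0) : 7 ≤ hammingNorm u := by
  obtain ⟨j, hj, rfl⟩ := (mem_U_iff u).1 hu
  have h := allBelow_spec cmin j hj
  rw [Bool.or_eq_true] at h
  rcases h with h | h
  · rw [Nat.eq_of_beq_eq_true h, pw_zero] at h0
    exact absurd rfl h0
  · rw [norm_pw hj]; exact Nat.le_of_ble_eq_true h

theorem ncard_U : U.ncard = 4096 := by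
  have h := ncard_filter (fun _ => true) (P := fun _ => True) (fun j _ => by simp)
  rw [call] at h
  rw [← h]
  congr 1
  ext u
  simp

theorem main1636 : U.ncard = 4096 ∧ {u | u ∈ U ∧ hammingNorm u = 7}.ncard = 253 ∧
    {u | u ∈ U ∧ hammingNorm u = 8}.ncard = 506 ∧ {u | u ∈ U ∧ hammingNorm u = 11}.ncard = 1288 ∧
    {u | u ∈ U ∧ hammingNorm u = 12}.ncard = 1288 ∧ {u | u ∈ U ∧ hammingNorm u = 15}.ncard = 506 ∧
    {u | u ∈ U ∧ hammingNorm u = 16}.ncard = 253 ∧ ∀ u ∈ U, u ≠ 0 → 7 ≤ hammingNorm u :=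
  ⟨ncard_U, (ncard_wt 7).trans c7, (ncard_wt 8).trans c8, (ncard_wt 11).trans c11, (ncard_wt 12).trans c12,
    (ncard_wt 15).trans c15, (ncard_wt 16).trans c16, fun _ hu h0 => min_wt hu h0⟩

/-! ### perfection -/

theorem pc_xor_parity {a b : ℕ} (ha : a < 2 ^ 24) (hb : b < 2 ^ 24) :
    pc 24 (a ^^^ b) % 2 = (pc 24 a + pc 24 b) % 2 := by
  have h := card_symmDiff_add (unmask a) (unmask b)
  rw [card_eq_pc, card_eq_pc (unmask a), card_eq_pc (unmask b), mask_symmDiff, mask_unmask a ha,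
    mask_unmask b hb] at h
  omega

theorem sub_mem_U {c1 c2 : ZMod 23 → ZMod 2} (h1 : c1 ∈ U) (h2 : c2 ∈ U) : -c1 + c2 ∈ U := by
  obtain ⟨w1, hw1, e1⟩ := h1
  obtain ⟨w2, hw2, e2⟩ := h2
  refine ⟨-w1 + w2, Submodule.add_mem _ (Submodule.neg_mem _ hw1) hw2, fun x => ?_⟩
  simp only [Pi.add_apply, Pi.neg_apply, e1 x, e2 x]

theorem exists_odd (u : ZMod 23 → ZMod 2) : ∃ m < 2 ^ 24, pc 24 m % 2 = 1 ∧ pun (ofMask m) = u := by
  have hw : pun (ofMask (maskV (fun p : GolayPt => p.elim 0 u))) = u := by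
    rw [ofMask_maskV]; rfl
  have hlt := maskV_lt (fun p : GolayPt => p.elim 0 u)
  generalize maskV (fun p : GolayPt => p.elim 0 u) = m0 at hw hlt
  rcases Nat.mod_two_eq_zero_or_one (pc 24 m0) with h | h
  · refine ⟨m0 ^^^ 2 ^ 23, Nat.xor_lt_two_pow hlt (by norm_num), ?_, ?_⟩
    · rw [pc_xor_parity hlt (by norm_num)]
      have : pc 24 (2 ^ 23) = 1 := by decide +kernel
      omega
    · rw [ofMask_xor, pun_add, hw]
      have : pun (ofMask (2 ^ 23)) = 0 := by
        rw [← hammingNorm_eq_zero, norm_pun]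
        decide +kernel
      rw [this, add_zero]
  · exact ⟨m0, hlt, h, hw⟩

theorem main1637 (u : ZMod 23 → ZMod 2) : ∃! c : ZMod 23 → ZMod 2, c ∈ U ∧ hammingDist u c ≤ 3 := by
  obtain ⟨m, hm, hodd, rfl⟩ := exists_odd u
  obtain ⟨c, e, hc, hcode, he, he4, hme⟩ := Cfsg.Agent.Lib.Helper28.GMod.exists_leader hm
  have hpar := pc_xor_parity hc he
  rw [← hme] at hpar
  have hceven : pc 24 c % 2 = 0 := by
    rcases code_weight hc hcode with h | h | h | h | h <;> omega
  have he3 : pc 24 e ≤ 3 := by omega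
  refine ⟨pun (ofMask c), ⟨⟨ofMask c, ?_, fun x => rfl⟩, ?_⟩, ?_⟩
  · rw [mem_golayCode_iff, maskV_ofMask _ hc]; exact hcode
  · rw [hammingDist_comm, hammingDist_eq_hammingNorm]
    have h1 : -pun (ofMask c) + pun (ofMask m) = pun (ofMask e) := by
      rw [hme, ofMask_xor, pun_add, ← add_assoc, neg_add_cancel, zero_add]
    rw [h1, norm_pun]
    exact le_trans (pc23_le e) he3
  · rintro c' ⟨hc', hd'⟩
    by_contra hne
    have hcU : pun (ofMask c) ∈ U := ⟨ofMask c, by
      rw [mem_golayCode_iff, maskV_ofMask _ hc]; exact hcode, fun x => rfl⟩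
    have hd : hammingDist (pun (ofMask m)) (pun (ofMask c)) ≤ 3 := by
      rw [hammingDist_comm, hammingDist_eq_hammingNorm]
      have h1 : -pun (ofMask c) + pun (ofMask m) = pun (ofMask e) := by
        rw [hme, ofMask_xor, pun_add, ← add_assoc, neg_add_cancel, zero_add]
      rw [h1, norm_pun]
      exact le_trans (pc23_le e) he3
    have h6 : hammingDist c' (pun (ofMask c)) ≤ 6 :=
      le_trans (hammingDist_triangle_left _ _ (pun (ofMask m))) (by omega)
    rw [hammingDist_eq_hammingNorm] at h6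
    have h7 := min_wt (sub_mem_U hc' hcU) (by
      intro h0
      apply hne
      have := neg_add_eq_zero.1 h0
      exact this)
    omega

end Cfsg.Agent.Lib.Helper28.Punct
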