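/-
Quartets of a dodecad: equivariance, the standard quartet, two triples determine a quartet.
-/
import Cfsg.Agent.Lib.Helper28.M9e
set_option autoImplicit false
open Cfsg
open scoped Pointwise
namespace Cfsg.Agent.Lib.Helper28.Quart

/-- masks of the 132 hexads of the standard dodecad -/
def hexM : List ℕ := [461, 591, 903, 970, 4239, 4430, 4547, 4806, 4809, 4875, 4933, 5004, 16590, 16711, 16779, 17037, 17091, 17166, 17225, 17348, 20555, 20677, 20749, 20870, 20936, 20999, 21068, 21130, 21314, 21377, 32971, 33039, 33222, 33422, 33477, 33603, 33612, 33673, 36935, 37068, 37193, 37253, 37258, 37389, 37450, 37507, 37638, 37824, 49229, 49287, 49482, 49548, 49601, 49675, 49734, 49864, 49925, 50050, 53262, 53385, 53442, 53507, 53572, 53825, 53892, 54024, 8388807, 8388939, 8389006, 8389259, 8389324, 8389389, 8389446, 8389569, 8392781, 8392906, 8392967, 8393097, 8393156, 8393230, 8393283, 8393349, 8393544, 8393602, 8405007, 8405193, 8405324, 8405381, 8405442, 8405573, 8405578,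 8405638, 8405763, 8405896, 8409158, 8409219, 8409228, 8409354, 8409409, 8409609, 8409792, 8409860, 8421454, 8421517, 8421701, 8421763, 8421832, 8421895, 8421961, 8422082, 8422154, 8422276, 8425483, 8425606, 8425665, 8425740, 8425794, 8426052, 8426120, 8426241, 8437827, 8437898, 8437956, 8438022, 8438025, 8438284, 8438401, 8438592, 8441861, 8441928, 8442240, 8442370]

def tt : List ℕ := [8388611, 16396, 4672, 33152]
def sixL : List ℕ := [8536111, 8524371, 8421811, 21116, 180636, 168928]
def hex6 : List ℕ := [8405007, 8393283, 8421763, 21068, 49548, 37824]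

/-- the standard quartet -/
def Q0 : Finset (Finset GolayPt) := {unmask 8388611, unmask 16396, unmask 4672, unmask 33152}

theorem mem_Q0 {t : Finset GolayPt} : t ∈ Q0 ↔ mask t ∈ tt := by
  constructor
  · intro h
    simp only [Q0, Finset.mem_insert, Finset.mem_singleton] at h
    rcases h with rfl | rfl | rfl | rfl <;> rw [mask_unmask _ (by norm_num)] <;> simp [tt]
  · intro h
    simp only [tt, List.mem_cons, List.not_mem_nil, or_false] at h
    simp only [Q0, Finset.mem_insert, Finset.mem_singleton]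
    rcases h with h | h | h | h
    · left; rw [← h, unmask_mask]
    · right; left; rw [← h, unmask_mask]
    · right; right; left; rw [← h, unmask_mask]
    · right; right; right; rw [← h, unmask_mask]

theorem card_Q0 : Q0.card = 4 := by decide +kernel

theorem hexadsOn_smul {g : Equiv.Perm GolayPt} (hg : g ∈ M24) {d h : Finset GolayPt} (hh : h ∈ hexadsOn d) :
    g • h ∈ hexadsOn (g • d) := by
  obtain ⟨h6, o, ho, rfl⟩ := hh
  exact ⟨by rw [Finset.card_smul_finset]; exact h6, g • o, smul_mem_octads hg ho,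
    by rw [Finset.smul_finset_inter]⟩

theorem quartets_smul {g : Equiv.Perm GolayPt} (hg : g ∈ M24) {d : Finset GolayPt}
    {Q : Finset (Finset GolayPt)} (hQ : Q ∈ quartets d) : g • Q ∈ quartets (g • d) := by
  obtain ⟨h4, h3, hu⟩ := hQ
  refine ⟨by rw [Finset.card_smul_finset]; exact h4, ?_, ?_⟩
  · intro t ht
    obtain ⟨t', ht', rfl⟩ := Finset.mem_smul_finset.1 ht
    exact ⟨by rw [Finset.card_smul_finset]; exact (h3 t' ht').1,
      Finset.smul_finset_subset_smul_finset (h3 t' ht').2⟩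
  · intro t ht u hu' htu
    obtain ⟨t', ht', rfl⟩ := Finset.mem_smul_finset.1 ht
    obtain ⟨u', hu'', rfl⟩ := Finset.mem_smul_finset.1 hu'
    rw [← Finset.smul_finset_union]
    exact hexadsOn_smul hg (hu t' ht' u' hu'' (fun hh => htu (by rw [hh])))

theorem mask_hexadsOn_std {h : Finset GolayPt} (hh : h ∈ hexadsOn stdDodecad) : mask h ∈ hexM := by
  obtain ⟨h6, o, ho, rfl⟩ := hh
  have := forall_octads_of_check (f := fun m => or (not (Nat.beq (pcF (Nat.land m 8442831)) 6))
    (hexM.contains (Nat.land m 8442831))) (by decide +kernel) ho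
  rw [card_eq_pcF, mask_inter, mask_stdDodecad] at h6
  have h7 : pcF (Nat.land (mask o) 8442831) = 6 := h6
  rw [h7] at this
  rw [mask_inter, mask_stdDodecad]
  simpa using this

theorem sixL_spec : ∀ o ∈ sixL, o < 2 ^ 24 ∧ isCode o = true ∧ pc 24 o = 8 ∧ pc 24 (o &&& 8442831) = 6 := by
  decide +kernel

theorem unmask_six_mem {o : ℕ} (ho : o ∈ sixL) : unmask o ∈ octads := by
  obtain ⟨h1, h2, h3, -⟩ := sixL_spec o ho
  exact unmask_mem_octads h1 h2 h3

theorem hexadsOn_of_six {o : ℕ} (ho : o ∈ sixL) : unmask (o &&& 8442831) ∈ hexadsOn stdDodecad := by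
  obtain ⟨h1, h2, h3, h4⟩ := sixL_spec o ho
  refine ⟨?_, unmask o, unmask_mem_octads h1 h2 h3, ?_⟩
  · rw [card_eq_pc, mask_unmask _ (and_lt_left _ h1)]; exact h4
  · apply mask_injective
    rw [mask_inter, mask_unmask o h1, mask_stdDodecad, mask_unmask _ (and_lt_left _ h1)]

theorem tt_spec : ∀ a ∈ tt, a < 2 ^ 24 ∧ pc 24 a = 3 ∧ 8442831 &&& a = a := by decide +kernel

theorem tt_pair : ∀ a ∈ tt, ∀ b ∈ tt, a ≠ b → ∃ o ∈ sixL, a ||| b = o &&& 8442831 := by decide +kernel

theorem Q0_mem : Q0 ∈ quartets stdDodecad := by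
  refine ⟨card_Q0, ?_, ?_⟩
  · intro t ht
    obtain ⟨-, h2, h3⟩ := tt_spec _ (mem_Q0.1 ht)
    refine ⟨by rw [card_eq_pc]; exact h2, ?_⟩
    rw [subset_iff_mask, mask_stdDodecad]; exact h3
  · intro t ht u hu htu
    obtain ⟨o, ho, hou⟩ := tt_pair _ (mem_Q0.1 ht) _ (mem_Q0.1 hu) (fun hh => htu (mask_injective hh))
    have : t ∪ u = unmask (o &&& 8442831) := by
      apply mask_injective
      rw [mask_union, mask_unmask _ (and_lt_left _ (sixL_spec o ho).1), hou]
    rw [this]; exact hexadsOn_of_six ho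

theorem symmDiff_union_left {s v : Finset GolayPt} (h : Disjoint s v) : symmDiff (s ∪ v) s = v := by
  ext y
  have : y ∈ s → y ∉ v := fun hy => Finset.disjoint_left.1 h hy
  simp only [Finset.mem_symmDiff, Finset.mem_union]
  tauto

theorem uniq_check : ∀ h ∈ hexM, ∀ h' ∈ hexM, h &&& 8388611 = 8388611 → h' &&& 16396 = 16396 →
    h ^^^ 8388611 = h' ^^^ 16396 → (h ^^^ 8388611) ∈ tt := by decide +kernel

theorem disjoint_of_quartet {d : Finset GolayPt} {Q : Finset (Finset GolayPt)} (hQ : Q ∈ quartets d)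
    {t u : Finset GolayPt} (ht : t ∈ Q) (hu : u ∈ Q) (htu : t ≠ u) : Disjoint t u := by
  rw [← Finset.card_union_eq_card_add_card, (hQ.2.1 t ht).1, (hQ.2.1 u hu).1]
  exact (hQ.2.2 t ht u hu htu).1

theorem Q0_unique {Q : Finset (Finset GolayPt)} (hQ : Q ∈ quartets stdDodecad) (h1 : unmask 8388611 ∈ Q)
    (h2 : unmask 16396 ∈ Q) : Q = Q0 := by
  apply Finset.eq_of_subset_of_card_le
  · intro v hv
    by_cases hv1 : v = unmask 8388611
    · rw [hv1]; simp [Q0]
    by_cases hv2 : v = unmask 16396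
    · rw [hv2]; simp [Q0]
    have H1 := mask_hexadsOn_std (hQ.2.2 _ h1 v hv (Ne.symm hv1))
    have H2 := mask_hexadsOn_std (hQ.2.2 _ h2 v hv (Ne.symm hv2))
    have D1 := disjoint_of_quartet hQ h1 hv (Ne.symm hv1)
    have D2 := disjoint_of_quartet hQ h2 hv (Ne.symm hv2)
    have S1 := (subset_iff_mask _ _).1 (Finset.subset_union_left (s₁ := unmask 8388611) (s₂ := v))
    have S2 := (subset_iff_mask _ _).1 (Finset.subset_union_left (s₁ := unmask 16396) (s₂ := v))
    have X1 := congrArg mask (symmDiff_union_left D1)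
    have X2 := congrArg mask (symmDiff_union_left D2)
    rw [mask_symmDiff] at X1 X2
    rw [mask_unmask 8388611 (by norm_num)] at S1 X1
    rw [mask_unmask 16396 (by norm_num)] at S2 X2
    have := uniq_check _ H1 _ H2 S1 S2 (X1.trans X2.symm)
    rw [X1] at this
    exact mem_Q0.2 this
  · rw [hQ.1, card_Q0]

theorem five_check : allBelow (fun j => or (not (Nat.beq (pcF (encF j)) 8))
    ((fun m => or (not (Nat.beq (Nat.land m 8388623) 8388623)) (Nat.beq (Nat.land m 8442831) 8405007)) (encF j)))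
    4096 = true := by decide +kernel

theorem normalize {d t u : Finset GolayPt} (hd : d ∈ dodecads) (ht : t.card = 3) (hu : u.card = 3)
    (htu : Disjoint t u) (hh : t ∪ u ∈ hexadsOn d) :
    ∃ g ∈ M24, g • d = stdDodecad ∧ g • t = unmask 8388611 ∧ g • u = unmask 16396 := by
  obtain ⟨x0, x1, x2, h01, h02, h12, ht'⟩ := Finset.card_eq_three.1 ht
  obtain ⟨x3, x4, x5, h34, h35, h45, hu'⟩ := Finset.card_eq_three.1 hu
  obtain ⟨h6, o, ho, hod⟩ := hh
  have hsub : ∀ y ∈ t ∪ u, y ∈ o ∧ y ∈ d := by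
    intro y hy; rw [← hod] at hy; exact Finset.mem_inter.1 hy
  have m0 : x0 ∈ t := by rw [ht']; simp
  have m1 : x1 ∈ t := by rw [ht']; simp
  have m2 : x2 ∈ t := by rw [ht']; simp
  have m3 : x3 ∈ u := by rw [hu']; simp
  have m4 : x4 ∈ u := by rw [hu']; simp
  have hH : M9.Hyp d x0 x1 x2 := ⟨hd, (hsub x0 (Finset.mem_union_left _ m0)).2,
    (hsub x1 (Finset.mem_union_left _ m1)).2, (hsub x2 (Finset.mem_union_left _ m2)).2, h01, h02, h12⟩
  have hdis : ∀ y ∈ u, y ∈ M9.E9 d x0 x1 x2 := by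
    intro y hy
    have h1 := Finset.disjoint_right.1 htu hy
    exact M9.mem_E9.2 ⟨(hsub y (Finset.mem_union_right _ hy)).2, fun hh => h1 (hh ▸ m0),
      fun hh => h1 (hh ▸ m1), fun hh => h1 (hh ▸ m2)⟩
  obtain ⟨i1, i2⟩ := M9.five hH (hdis x3 m3) (hdis x4 m4) h34
  obtain ⟨g, hg, hgd, hh⟩ := dodecad_five_to_std hd _ i1 i2
  have g0 : g x0 = pt 23 := hh 0
  have g1 : g x1 = pt 0 := hh 1
  have g2 : g x2 = pt 1 := hh 2
  have g3 : g x3 = pt 2 := hh 3
  have g4 : g x4 = pt 3 := hh 4
  have hT : g • t = unmask 8388611 := by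
    rw [ht', Finset.smul_finset_insert, Finset.smul_finset_insert, Finset.smul_finset_singleton]
    simp only [Equiv.Perm.smul_def, g0, g1, g2]
    decide +kernel
  refine ⟨g, hg, hgd, hT, ?_⟩
  have hU : g • (t ∪ u) = unmask 8405007 := by
    rw [← hod, Finset.smul_finset_inter, hgd]
    have hgo := smul_mem_octads hg ho
    have hc := forall_octads_of_check (f := fun m => or (not (Nat.beq (Nat.land m 8388623) 8388623))
      (Nat.beq (Nat.land m 8442831) 8405007)) five_check hgo
    have hs : unmask 8388623 ⊆ g • o := by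
      have e : unmask 8388623 = {pt 23, pt 0, pt 1, pt 2, pt 3} := by decide +kernel
      rw [e]
      intro y hy
      simp only [Finset.mem_insert, Finset.mem_singleton] at hy
      rcases hy with rfl | rfl | rfl | rfl | rfl
      · rw [← g0]; exact Finset.smul_mem_smul_finset (hsub x0 (Finset.mem_union_left _ m0)).1
      · rw [← g1]; exact Finset.smul_mem_smul_finset (hsub x1 (Finset.mem_union_left _ m1)).1
      · rw [← g2]; exact Finset.smul_mem_smul_finset (hsub x2 (Finset.mem_union_left _ m2)).1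
      · rw [← g3]; exact Finset.smul_mem_smul_finset (hsub x3 (Finset.mem_union_right _ m3)).1
      · rw [← g4]; exact Finset.smul_mem_smul_finset (hsub x4 (Finset.mem_union_right _ m4)).1
    have hs' := (subset_iff_mask _ _).1 hs
    rw [mask_unmask 8388623 (by norm_num)] at hs'
    have hs'' : Nat.land (mask (g • o)) 8388623 = 8388623 := hs'
    rw [hs''] at hc
    have hc' : Nat.land (mask (g • o)) 8442831 = 8405007 := by simpa using hc
    apply mask_injective
    rw [mask_inter, mask_stdDodecad, mask_unmask 8405007 (by norm_num)]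
    exact hc'
  rw [← Finset.union_sdiff_cancel_left htu, Finset.smul_finset_sdiff, hU, hT]
  decide +kernel

theorem two_triples {d t u : Finset GolayPt} (hd : d ∈ dodecads) (ht : t.card = 3) (hu : u.card = 3)
    (htu : Disjoint t u) (hh : t ∪ u ∈ hexadsOn d) :
    ∃! Q : Finset (Finset GolayPt), Q ∈ quartets d ∧ t ∈ Q ∧ u ∈ Q := by
  obtain ⟨g, hg, hgd, hgt, hgu⟩ := normalize hd ht hu htu hh
  refine ⟨g⁻¹ • Q0, ⟨?_, ?_, ?_⟩, ?_⟩
  · have := quartets_smul (M24.inv_mem hg) Q0_mem
    rwa [← hgd, inv_smul_smul] at this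
  · rw [Finset.mem_inv_smul_finset_iff, hgt]; simp [Q0]
  · rw [Finset.mem_inv_smul_finset_iff, hgu]; simp [Q0]
  · rintro Q' ⟨h1, h2, h3⟩
    rw [eq_inv_smul_iff]
    apply Q0_unique
    · have := quartets_smul hg h1
      rwa [hgd] at this
    · rw [← hgt]; exact Finset.smul_mem_smul_finset h2
    · rw [← hgu]; exact Finset.smul_mem_smul_finset h3

theorem exists_to_std {d : Finset GolayPt} {Q : Finset (Finset GolayPt)} (hd : d ∈ dodecads)
    (hQ : Q ∈ quartets d) : ∃ g ∈ M24, g • d = stdDodecad ∧ g • Q = Q0 := by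
  obtain ⟨t, ht, u, hu, htu⟩ := Finset.one_lt_card.1 (show 1 < Q.card by rw [hQ.1]; norm_num)
  obtain ⟨g, hg, hgd, hgt, hgu⟩ := normalize hd (hQ.2.1 t ht).1 (hQ.2.1 u hu).1
    (disjoint_of_quartet hQ ht hu htu) (hQ.2.2 t ht u hu htu)
  refine ⟨g, hg, hgd, ?_⟩
  apply Q0_unique
  · have := quartets_smul hg hQ
    rwa [hgd] at this
  · rw [← hgt]; exact Finset.smul_mem_smul_finset ht
  · rw [← hgu]; exact Finset.smul_mem_smul_finset hu

theorem quartets_trans {d : Finset GolayPt} {Q Q' : Finset (Finset GolayPt)} (hd : d ∈ dodecads)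
    (hQ : Q ∈ quartets d) (hQ' : Q' ∈ quartets d) : ∃ g ∈ M24, g • d = d ∧ g • Q = Q' := by
  obtain ⟨g, hg, hgd, hgQ⟩ := exists_to_std hd hQ
  obtain ⟨g', hg', hgd', hgQ'⟩ := exists_to_std hd hQ'
  refine ⟨g'⁻¹ * g, M24.mul_mem (M24.inv_mem hg') hg, ?_, ?_⟩
  · rw [mul_smul, hgd, ← hgd', inv_smul_smul]
  · rw [mul_smul, hgQ, ← hgQ', inv_smul_smul]

end Cfsg.Agent.Lib.Helper28.Quart
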