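/-
The stabiliser of a quartet of a dodecad is the stabiliser of a triple of the complementary dodecad.
-/
import Cfsg.Agent.Lib.Helper28.Quart1
import Cfsg.Agent.Lib.Helper28.M9f
set_option autoImplicit false
open Cfsg
open scoped Pointwise
namespace Cfsg.Agent.Lib.Helper28.Quart

/-- the triple of the complementary dodecad belonging to the standard quartet -/
def T0 : Finset GolayPt := {pt 4, pt 5, pt 17}

theorem mem_T0 : ∀ y : GolayPt, y ∈ T0 ↔ idx y ∈ [4, 5, 17] := by decide +kernel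

theorem T0_not_mem : ∀ y ∈ T0, y ∉ stdDodecad := by decide +kernel

theorem A1 : ∀ o ∈ sixL, ∃ a ∈ tt, ∃ b ∈ tt, a ≠ b ∧ o &&& 8442831 = a ||| b := by decide +kernel
theorem A2 : ∀ a ∈ tt, ∀ b ∈ tt, a ≠ b → (a ||| b) ∈ hex6 := by decide +kernel
theorem A4 : ∀ i ∈ [4, 5, 17], ∃ o ∈ sixL, o.testBit i = true := by decide +kernel
theorem A5 : ∀ o ∈ sixL, ∀ i < 24, o.testBit i = true → (8442831 : ℕ).testBit i = false → i ∈ [4, 5, 17] := by
  decide +kernel

theorem A3 {o : Finset GolayPt} (ho : o ∈ octads) (h : mask o &&& 8442831 ∈ hex6) : mask o ∈ sixL := by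
  have := forall_octads_of_check (f := fun m => or (not (hex6.contains (Nat.land m 8442831)))
    (sixL.contains m)) (by decide +kernel) ho
  have h' : hex6.contains (Nat.land (mask o) 8442831) = true := by simpa using h
  rw [h'] at this
  simpa using this

theorem unmask_tt_mem {a : ℕ} (ha : a ∈ tt) : unmask a ∈ Q0 := by
  rw [mem_Q0, mask_unmask _ (tt_spec a ha).1]; exact ha

variable {g : Equiv.Perm GolayPt}

theorem six_of_Q (hg : g ∈ M24) (hgd : g • stdDodecad = stdDodecad) (hgQ : g • Q0 = Q0) {o : ℕ}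
    (ho : o ∈ sixL) : mask (g • unmask o) ∈ sixL := by
  obtain ⟨a, ha, b, hb, hab, hoab⟩ := A1 o ho
  obtain ⟨h1, -, -, -⟩ := sixL_spec o ho
  have e1 : unmask o ∩ stdDodecad = unmask a ∪ unmask b := by
    apply mask_injective
    rw [mask_inter, mask_union, mask_unmask o h1, mask_stdDodecad, mask_unmask _ (tt_spec a ha).1,
      mask_unmask _ (tt_spec b hb).1, hoab]
  have ea : g • unmask a ∈ Q0 := by
    rw [← hgQ]; exact Finset.smul_mem_smul_finset (unmask_tt_mem ha)
  have eb : g • unmask b ∈ Q0 := by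
    rw [← hgQ]; exact Finset.smul_mem_smul_finset (unmask_tt_mem hb)
  have hne : mask (g • unmask a) ≠ mask (g • unmask b) := by
    intro hh
    have h2 := smul_left_cancel g (mask_injective hh)
    have h3 := congrArg mask h2
    rw [mask_unmask _ (tt_spec a ha).1, mask_unmask _ (tt_spec b hb).1] at h3
    exact hab h3
  apply A3 (smul_mem_octads hg (unmask_six_mem ho))
  have e2 : mask (g • unmask o) &&& 8442831 = mask (g • unmask a) ||| mask (g • unmask b) := by
    rw [← mask_stdDodecad, ← mask_inter, ← mask_union, ← Finset.smul_finset_union, ← e1,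
      Finset.smul_finset_inter, hgd]
  rw [e2]
  exact A2 _ (mem_Q0.1 ea) _ (mem_Q0.1 eb) hne

theorem T_of_Q (hg : g ∈ M24) (hgd : g • stdDodecad = stdDodecad) (hgQ : g • Q0 = Q0) : g • T0 = T0 := by
  apply smul_eq_of_maps
  intro y hy
  obtain ⟨o, ho, hoy⟩ := A4 _ ((mem_T0 y).1 hy)
  have h1 : y ∈ unmask o := (mem_unmask _ _).2 hoy
  have h2 : g y ∈ g • unmask o := Finset.smul_mem_smul_finset h1
  rw [← unmask_mask (g • unmask o), mem_unmask] at h2
  have hyd : y ∉ stdDodecad := T0_not_mem y hy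
  have h3 : g y ∉ stdDodecad := by rwa [apply_mem_iff_of_smul_eq hgd]
  have h4 : (8442831 : ℕ).testBit (idx (g y)) = false := by
    have : ¬ (8442831 : ℕ).testBit (idx (g y)) = true := fun hh => h3 ((mem_unmask _ _).2 hh)
    simpa using this
  exact (mem_T0 _).2 (A5 _ (six_of_Q hg hgd hgQ ho) _ (idx_lt _) h2 h4)

theorem B1 : ∀ o ∈ sixL, 8573951 &&& o = o := by decide +kernel
theorem B3 : ∀ a ∈ tt, ∃ o ∈ sixL, ∃ o' ∈ sixL, a = o &&& o' &&& 8442831 := by decide +kernel
theorem B4 : ∀ o ∈ sixL, ∀ o' ∈ sixL, pc 24 (o &&& o' &&& 8442831) = 3 → (o &&& o' &&& 8442831) ∈ tt := by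
  decide +kernel

theorem B2 {o : Finset GolayPt} (ho : o ∈ octads) (h6 : (o ∩ stdDodecad).card = 6)
    (h : 8573951 &&& mask o = mask o) : mask o ∈ sixL := by
  have := forall_octads_of_check (f := fun m => or (not (Nat.beq (pcF (Nat.land m 8442831)) 6))
    (or (not (Nat.beq (Nat.land 8573951 m) m)) (sixL.contains m))) (by decide +kernel) ho
  rw [card_eq_pcF, mask_inter, mask_stdDodecad] at h6
  have h7 : pcF (Nat.land (mask o) 8442831) = 6 := h6
  have h8 : Nat.land 8573951 (mask o) = mask o := h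
  rw [h7, h8] at this
  simpa using this

theorem mask_union_T0 : mask (stdDodecad ∪ T0) = 8573951 := by
  rw [mask_union, mask_stdDodecad]
  have : mask T0 = 131120 := by decide +kernel
  rw [this]
  decide +kernel

theorem six_of_T (hg : g ∈ M24) (hgd : g • stdDodecad = stdDodecad) (hgT : g • T0 = T0) {o : ℕ}
    (ho : o ∈ sixL) : mask (g • unmask o) ∈ sixL := by
  obtain ⟨h1, -, -, h4⟩ := sixL_spec o ho
  apply B2 (smul_mem_octads hg (unmask_six_mem ho))
  · rw [← hgd, ← Finset.smul_finset_inter, Finset.card_smul_finset, card_eq_pc, mask_inter, mask_unmask o h1,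
      mask_stdDodecad]
    exact h4
  · rw [← mask_union_T0, ← subset_iff_mask]
    have hs : unmask o ⊆ stdDodecad ∪ T0 := by
      rw [subset_iff_mask, mask_union_T0, mask_unmask o h1]; exact B1 o ho
    have := Finset.smul_finset_subset_smul_finset (a := g) hs
    rwa [Finset.smul_finset_union, hgd, hgT] at this

theorem Q_of_T (hg : g ∈ M24) (hgd : g • stdDodecad = stdDodecad) (hgT : g • T0 = T0) : g • Q0 = Q0 := by
  apply Finset.eq_of_subset_of_card_le
  · intro t' ht'
    obtain ⟨t, ht, rfl⟩ := Finset.mem_smul_finset.1 ht'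
    obtain ⟨o, ho, o', ho', hoo⟩ := B3 _ (mem_Q0.1 ht)
    have e1 : t = unmask o ∩ unmask o' ∩ stdDodecad := by
      apply mask_injective
      rw [mask_inter, mask_inter, mask_unmask o (sixL_spec o ho).1, mask_unmask o' (sixL_spec o' ho').1,
        mask_stdDodecad, hoo]
    have e2 : mask (g • t) = mask (g • unmask o) &&& mask (g • unmask o') &&& 8442831 := by
      rw [← mask_stdDodecad, ← mask_inter, ← mask_inter]
      conv_rhs => rw [← hgd]
      rw [← Finset.smul_finset_inter, ← Finset.smul_finset_inter, ← e1]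
    rw [mem_Q0, e2]
    apply B4 _ (six_of_T hg hgd hgT ho) _ (six_of_T hg hgd hgT ho')
    rw [← e2, ← card_eq_pc, Finset.card_smul_finset, card_eq_pc]
    exact (tt_spec _ (mem_Q0.1 ht)).2.1
  · rw [Finset.card_smul_finset]

theorem conj_smul_iff {X : Type*} [MulAction (Equiv.Perm GolayPt) X] (g k : Equiv.Perm GolayPt) {x y : X}
    (h : g • x = y) : (g * k * g⁻¹) • y = y ↔ k • x = x := by
  rw [← h, mul_smul, mul_smul, inv_smul_smul, smul_left_cancel_iff]

theorem stab_eq {d : Finset GolayPt} {Q : Finset (Finset GolayPt)} (hd : d ∈ dodecads) (hQ : Q ∈ quartets d) :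
    ∃ a b c, M9.Hyp (Finset.univ \ d) a b c ∧
      MulAction.stabilizer M24 d ⊓ MulAction.stabilizer M24 Q =
      MulAction.stabilizer M24 (Finset.univ \ d) ⊓ MulAction.stabilizer M24 ({a, b, c} : Finset GolayPt) := by
  obtain ⟨g, hg, hgd, hgQ⟩ := exists_to_std hd hQ
  have hT : g • ({g⁻¹ (pt 4), g⁻¹ (pt 5), g⁻¹ (pt 17)} : Finset GolayPt) = T0 := by
    rw [Finset.smul_finset_insert, Finset.smul_finset_insert, Finset.smul_finset_singleton]
    simp [T0]
  have hmem : ∀ i, pt i ∉ stdDodecad → g⁻¹ (pt i) ∈ Finset.univ \ d := by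
    intro i hi
    rw [Finset.mem_sdiff]
    refine ⟨Finset.mem_univ _, fun hh => hi ?_⟩
    rw [← hgd]
    have := Finset.smul_mem_smul_finset (a := g) hh
    simpa using this
  have hne : ∀ i j, pt i ≠ pt j → g⁻¹ (pt i) ≠ g⁻¹ (pt j) := fun i j hij hh => hij (g⁻¹.injective hh)
  refine ⟨g⁻¹ (pt 4), g⁻¹ (pt 5), g⁻¹ (pt 17), ⟨compl_mem_dodecads hd, hmem 4 (by decide +kernel),
    hmem 5 (by decide +kernel), hmem 17 (by decide +kernel), hne _ _ (by decide +kernel),
    hne _ _ (by decide +kernel), hne _ _ (by decide +kernel)⟩, ?_⟩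
  ext k
  simp only [Subgroup.mem_inf, MulAction.mem_stabilizer_iff]
  have hk' : g * k.1 * g⁻¹ ∈ M24 := M24.mul_mem (M24.mul_mem hg k.2) (M24.inv_mem hg)
  have c1 := conj_smul_iff g k.1 hgd
  have c2 := conj_smul_iff g k.1 hgQ
  have c3 := conj_smul_iff g k.1 hT
  have c4 := smul_eq_iff_compl k.1 d
  constructor
  · rintro ⟨h1, h2⟩
    have h1' : k.1 • d = d := h1
    have h2' : k.1 • Q = Q := h2
    exact ⟨c4.2 h1', c3.1 (T_of_Q hk' (c1.2 h1') (c2.2 h2'))⟩
  · rintro ⟨h1, h2⟩
    have h1' : k.1 • (Finset.univ \ d) = Finset.univ \ d := h1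
    have h2' : k.1 • ({g⁻¹ (pt 4), g⁻¹ (pt 5), g⁻¹ (pt 17)} : Finset GolayPt) = _ := h2
    exact ⟨c4.1 h1', c2.1 (Q_of_T hk' (c1.2 (c4.1 h1')) (c3.2 h2'))⟩

end Cfsg.Agent.Lib.Helper28.Quart
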