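/-
Orbit sizes of a quartet stabiliser on quartets: generic certificates.
-/
import Cfsg.Agent.Lib.Helper28.Quart2
set_option autoImplicit false
open Cfsg
open scoped Pointwise
namespace Cfsg.Agent.Lib.Helper28.Quart

/-- a family of four sets given by masks -/
def QF (a b c e : ℕ) : Finset (Finset GolayPt) := {unmask a, unmask b, unmask c, unmask e}

theorem Q0_eq : Q0 = QF 8388611 16396 4672 33152 := rfl

theorem smul_unmask (g : Equiv.Perm GolayPt) {a : ℕ} (ha : a < 2 ^ 24) : g • unmask a = unmask (pm g a) := by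
  apply mask_injective
  rw [mask_smul, mask_unmask a ha, mask_unmask _ (pm_lt g a)]

theorem smul_QF (g : Equiv.Perm GolayPt) {a b c e : ℕ} (ha : a < 2 ^ 24) (hb : b < 2 ^ 24) (hc : c < 2 ^ 24)
    (he : e < 2 ^ 24) : g • QF a b c e = QF (pm g a) (pm g b) (pm g c) (pm g e) := by
  unfold QF
  rw [Finset.smul_finset_insert, Finset.smul_finset_insert, Finset.smul_finset_insert,
    Finset.smul_finset_singleton, smul_unmask g ha, smul_unmask g hb, smul_unmask g hc, smul_unmask g he]

theorem QF_eq_of_mem {a b c e a' b' c' e' : ℕ} (h : ∀ m ∈ [a', b', c', e'], m ∈ [a, b, c, e])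
    (hcard : (QF a b c e).card ≤ (QF a' b' c' e').card) : QF a' b' c' e' = QF a b c e := by
  apply Finset.eq_of_subset_of_card_le _ hcard
  intro t ht
  simp only [QF, Finset.mem_insert, Finset.mem_singleton] at ht ⊢
  simp only [List.mem_cons, List.not_mem_nil, or_false, forall_eq_or_imp, forall_eq] at h
  obtain ⟨h1, h2, h3, h4⟩ := h
  rcases ht with rfl | rfl | rfl | rfl
  · rcases h1 with h | h | h | h <;> simp [h]
  · rcases h2 with h | h | h | h <;> simp [h]
  · rcases h3 with h | h | h | h <;> simp [h]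
  · rcases h4 with h | h | h | h <;> simp [h]

/-- a code separating quartets -/
def code (X : Finset (Finset GolayPt)) : ℕ × ℕ := (X.sup mask, X.sup (fun x => 16777215 - mask x))

def codeM (a b c e : ℕ) : ℕ × ℕ :=
  (max a (max b (max c e)), max (16777215 - a) (max (16777215 - b) (max (16777215 - c) (16777215 - e))))

theorem code_QF {a b c e : ℕ} (ha : a < 2 ^ 24) (hb : b < 2 ^ 24) (hc : c < 2 ^ 24) (he : e < 2 ^ 24) :
    code (QF a b c e) = codeM a b c e := by
  unfold code QF codeM
  simp only [Finset.sup_insert, Finset.sup_singleton, mask_unmask a ha, mask_unmask b hb, mask_unmask c hc,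
    mask_unmask e he]

theorem length_le_ncard {α : Type*} (S : Set α) (hS : S.Finite) (l : List α) (hn : l.Nodup)
    (hs : ∀ x ∈ l, x ∈ S) : l.length ≤ S.ncard := by
  classical
  have h1 : (l.toFinset : Set α) ⊆ S := by
    intro x hx
    exact hs x (by simpa using hx)
  calc l.length = l.toFinset.card := (List.toFinset_card_of_nodup hn).symm
    _ = (l.toFinset : Set α).ncard := (Set.ncard_coe_finset _).symm
    _ ≤ S.ncard := Set.ncard_le_ncard h1 hS

/-- the standard quartet stabiliser -/
abbrev A0 : Subgroup ↥M24 := MulAction.stabilizer M24 stdDodecad ⊓ MulAction.stabilizer M24 Q0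

/-- certificate that a table lies in the standard quartet stabiliser -/
def okA (τ : List ℕ) : Bool :=
  inM24 τ && (permMask τ 8442831 == 8442831) && tt.all (fun m => tt.contains (permMask τ m))

theorem okA_valid {τ : List ℕ} (h : okA τ = true) : validTbl τ = true := by
  simp only [okA, inM24, Bool.and_eq_true] at h
  exact h.1.1.1

theorem smul_std_of {τ : List ℕ} (hv : validTbl τ = true) (h : permMask τ 8442831 = 8442831) :
    permOf τ • stdDodecad = stdDodecad := by
  apply mask_injective
  rw [mask_smul, mask_stdDodecad, pm_permOf hv, h]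

theorem smul_QF_fix {τ : List ℕ} (hv : validTbl τ = true) {a b c e : ℕ} (ha : a < 2 ^ 24) (hb : b < 2 ^ 24)
    (hc : c < 2 ^ 24) (he : e < 2 ^ 24)
    (h : [a, b, c, e].all (fun m => [a, b, c, e].contains (permMask τ m)) = true) :
    permOf τ • QF a b c e = QF a b c e := by
  have hcard : (QF a b c e).card ≤ (permOf τ • QF a b c e).card := by rw [Finset.card_smul_finset]
  rw [smul_QF _ ha hb hc he] at hcard ⊢
  apply QF_eq_of_mem _ hcard
  simp only [List.all_eq_true, List.contains_iff_mem] at h
  intro m hm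
  simp only [List.mem_cons, List.not_mem_nil, or_false] at hm
  rcases hm with rfl | rfl | rfl | rfl
  · rw [pm_permOf hv]; exact h a (by simp)
  · rw [pm_permOf hv]; exact h b (by simp)
  · rw [pm_permOf hv]; exact h c (by simp)
  · rw [pm_permOf hv]; exact h e (by simp)

theorem okA_spec {τ : List ℕ} (h : okA τ = true) :
    ∃ hm : permOf τ ∈ M24, (⟨permOf τ, hm⟩ : ↥M24) ∈ A0 := by
  have hv := okA_valid h
  simp only [okA, Bool.and_eq_true, beq_iff_eq] at h
  refine ⟨permOf_mem_M24 h.1.1, Subgroup.mem_inf.2 ⟨MulAction.mem_stabilizer_iff.2 ?_,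
    MulAction.mem_stabilizer_iff.2 ?_⟩⟩
  · exact smul_std_of hv h.1.2
  · exact smul_QF_fix hv (by norm_num) (by norm_num) (by norm_num) (by norm_num) h.2

def tblCode (τ : List ℕ) : List ℕ := (List.range 24).map (fun j => τ.getD j 0)

theorem tblCode_spec {τ : List ℕ} (hv : validTbl τ = true) :
    (List.range 24).map (fun j => idx (permOf τ (pt j))) = tblCode τ := by
  apply List.map_congr_left
  intro j hj
  rw [idx_permOf hv, idx_pt j (List.mem_range.1 hj)]

theorem card_A0 : Nat.card ↥A0 = 432 := by
  obtain ⟨a, b, c, h, heq⟩ := stab_eq stdDodecad_mem Q0_mem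
  show Nat.card ↥(MulAction.stabilizer M24 stdDodecad ⊓ MulAction.stabilizer M24 Q0) = 432
  rw [heq]
  exact M9.card_stab_triple h

theorem stab_size {a b c e : ℕ} (ha : a < 2 ^ 24) (hb : b < 2 ^ 24) (hc : c < 2 ^ 24) (he : e < 2 ^ 24)
    (TL SL : List (List ℕ)) (n s : ℕ) (hns : s * n = 432) (hn0 : 0 < n)
    (hT : TL.all okA = true)
    (hTn : (TL.map (fun τ => codeM (permMask τ a) (permMask τ b) (permMask τ c) (permMask τ e))).Nodup)
    (hTl : TL.length = n)
    (hS : SL.all (fun τ => okA τ && [a, b, c, e].all (fun m => [a, b, c, e].contains (permMask τ m))) = true)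
    (hSn : (SL.map tblCode).Nodup) (hSl : SL.length = s) :
    Nat.card ↥(A0 ⊓ MulAction.stabilizer M24 (QF a b c e)) = s := by
  have key := M9.card_inf_stab (G := M24) A0 (QF a b c e)
  rw [card_A0] at key
  rw [List.all_eq_true] at hT hS
  have h1 : n ≤ (MulAction.orbit ↥A0 (QF a b c e)).ncard := by
    rw [← hTl, ← List.length_map (as := TL) (fun τ => permOf τ • QF a b c e)]
    apply length_le_ncard _ (Set.toFinite _)
    · apply List.Nodup.of_map code
      rw [List.map_map]
      have : TL.map (code ∘ fun τ => permOf τ • QF a b c e) =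
          TL.map (fun τ => codeM (permMask τ a) (permMask τ b) (permMask τ c) (permMask τ e)) := by
        apply List.map_congr_left
        intro τ hτ
        have hv := okA_valid (hT τ hτ)
        show code (permOf τ • QF a b c e) = _
        rw [smul_QF _ ha hb hc he, code_QF (pm_lt _ _) (pm_lt _ _) (pm_lt _ _) (pm_lt _ _), pm_permOf hv,
          pm_permOf hv, pm_permOf hv, pm_permOf hv]
      rw [this]; exact hTn
    · intro X hX
      obtain ⟨τ, hτ, rfl⟩ := List.mem_map.1 hX
      obtain ⟨hm, hA⟩ := okA_spec (hT τ hτ)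
      exact ⟨⟨⟨permOf τ, hm⟩, hA⟩, rfl⟩
  have h2 : s ≤ Nat.card ↥(A0 ⊓ MulAction.stabilizer M24 (QF a b c e)) := by
    have e1 : Nat.card ↥(A0 ⊓ MulAction.stabilizer M24 (QF a b c e)) =
        (Subtype.val '' ((A0 ⊓ MulAction.stabilizer M24 (QF a b c e) : Subgroup ↥M24) : Set ↥M24)).ncard := by
      rw [Set.ncard_image_of_injective _ Subtype.val_injective]
      exact (Nat.card_coe_set_eq _)
    rw [e1, ← hSl, ← List.length_map (as := SL) permOf]
    apply length_le_ncard _ (Set.toFinite _)
    · apply List.Nodup.of_map (fun σ : Equiv.Perm GolayPt => (List.range 24).map (fun j => idx (σ (pt j))))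
      rw [List.map_map]
      have : SL.map ((fun σ : Equiv.Perm GolayPt => (List.range 24).map (fun j => idx (σ (pt j)))) ∘ permOf) =
          SL.map tblCode := by
        apply List.map_congr_left
        intro τ hτ
        have h3 := hS τ hτ
        rw [Bool.and_eq_true] at h3
        exact tblCode_spec (okA_valid h3.1)
      rw [this]; exact hSn
    · intro σ hσ
      obtain ⟨τ, hτ, rfl⟩ := List.mem_map.1 hσ
      have h3 := hS τ hτ
      rw [Bool.and_eq_true] at h3
      obtain ⟨hm, hA⟩ := okA_spec h3.1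
      refine ⟨⟨permOf τ, hm⟩, Subgroup.mem_inf.2 ⟨hA, MulAction.mem_stabilizer_iff.2 ?_⟩, rfl⟩
      exact smul_QF_fix (okA_valid h3.1) ha hb hc he h3.2
  by_contra hne
  have h3 : s + 1 ≤ Nat.card ↥(A0 ⊓ MulAction.stabilizer M24 (QF a b c e)) := by omega
  have h4 : (s + 1) * n ≤ Nat.card ↥(A0 ⊓ MulAction.stabilizer M24 (QF a b c e)) *
      (MulAction.orbit ↥A0 (QF a b c e)).ncard := Nat.mul_le_mul h3 h1
  rw [key] at h4
  nlinarith

theorem card_conj3 {G α β γ : Type*} [Group G] [MulAction G α] [MulAction G β] [MulAction G γ]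
    (g : G) (a : α) (b : β) (c : γ) :
    Nat.card ↥(MulAction.stabilizer G (g • a) ⊓ MulAction.stabilizer G (g • b) ⊓
      MulAction.stabilizer G (g • c)) =
    Nat.card ↥(MulAction.stabilizer G a ⊓ MulAction.stabilizer G b ⊓ MulAction.stabilizer G c) := by
  have hinj : Function.Injective (MulAut.conj g).toMonoidHom := (MulAut.conj g).injective
  rw [MulAction.stabilizer_smul_eq_stabilizer_map_conj, MulAction.stabilizer_smul_eq_stabilizer_map_conj,
    MulAction.stabilizer_smul_eq_stabilizer_map_conj, ← Subgroup.map_inf _ _ _ hinj,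
    ← Subgroup.map_inf _ _ _ hinj, Subgroup.card_map_of_injective hinj]

end Cfsg.Agent.Lib.Helper28.Quart
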