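/-
Central extensions with kernel of order two: splitting over a subgroup `E : D8`.
-/
import Cfsg.Agent.Lib.Helper28.Schur4
set_option autoImplicit false
open Cfsg
open scoped commutatorElement
namespace Cfsg.Agent.Lib.Helper28

namespace CExt

variable {Γ G : Type*} [Group Γ] [Group G] {σ : Γ →* G} (h : CExt σ)
include h

theorem two_part (hcard : Nat.card σ.ker = 2) (E Q₁ Q₂ : Subgroup G) (e0 r s t e f g : G)
    (hE2 : ∀ x ∈ E, x * x = 1) (he0 : e0 * e0 = 1)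
    (hEc : ∀ x ∈ E, x ≠ 1 → ∃ c, x = c * e0 * c⁻¹)
    (he : e ∈ E) (hf : f ∈ E) (hg : g ∈ E)
    (hne : e ≠ 1 ∧ f ≠ 1 ∧ g ≠ 1 ∧ e * f ≠ 1 ∧ e * g ≠ 1 ∧ f * g ≠ 1 ∧ e * (f * g) ≠ 1)
    (hsc : ∃ c, s = c * e0 * c⁻¹) (htc : ∃ c, t = c * e0 * c⁻¹)
    (hρc : ∃ c, (s * t) * (s * t) = c * e0 * c⁻¹)
    (hr3 : r ^ 3 = 1) (hrE : ∀ x ∈ E, r * x * r⁻¹ ∈ E)
    (hN : ∀ x ∈ E, x * (r * x * r⁻¹) * (r * (r * x * r⁻¹) * r⁻¹) = 1)
    (hsE : ∀ x ∈ E, s * x * s⁻¹ ∈ E) (htE : ∀ x ∈ E, t * x * t⁻¹ ∈ E)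
    (hsr : s * r * s⁻¹ = r ∨ s * r * s⁻¹ = r⁻¹) (htr : t * r * t⁻¹ = r ∨ t * r * t⁻¹ = r⁻¹)
    (hEQ₁ : E ≤ Q₁) (hQ₁₂ : Q₁ ≤ Q₂)
    (h1 : (s * t) * (s * t) ∉ E) (h1' : (s * t) * (s * t) ∈ Q₁) (h2 : s * t ∉ Q₁) (h2' : s * t ∈ Q₂)
    (h3 : s ∉ Q₂) (P : Subgroup G)
    (hP : P ≤ Subgroup.closure (insert s (insert (s * t) (insert ((s * t) * (s * t)) (E : Set G))))) :
    ∀ z ∈ σ.ker, z ∈ ⁅P.comap σ, P.comap σ⁆ → z = 1 := by
  obtain ⟨z0, hz0k, hz01, hz0z0, hall⟩ := exists_two hcard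
  have hk2 : ∀ x ∈ σ.ker, x * x = 1 := by
    intro x hx
    rcases hall x hx with rfl | rfl
    · simp
    · exact hz0z0
  have hEcomm : ∀ x ∈ E, ∀ y ∈ E, x * y = y * x := fun x hx y hy =>
    comm_of_sq (σ := MonoidHom.id G) E (fun a ha => hE2 a ha) hx hy
  have hinv : ∀ a : Γ, (∃ c, σ a = c * e0 * c⁻¹) → a * a = 1 :=
    h.sq_eq_one_of_conj hk2 e0 e f g he0 (hEcomm e he f hf) (hEcomm e he g hg)
      (hEc e he hne.1) (hEc f hf hne.2.1) (hEc g hg hne.2.2.1) (hEc _ (E.mul_mem he hf) hne.2.2.2.1)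
      (hEc _ (E.mul_mem he hg) hne.2.2.2.2.1) (hEc _ (E.mul_mem hf hg) hne.2.2.2.2.2.1)
      (hEc _ (E.mul_mem he (E.mul_mem hf hg)) hne.2.2.2.2.2.2)
  have hsq : ∀ a : Γ, σ a ∈ E → a * a = 1 := by
    intro a ha
    by_cases h1 : σ a = 1
    · exact hk2 a h1
    · exact hinv a (hEc _ ha h1)
  obtain ⟨S, rfl⟩ := h.surj s
  obtain ⟨T, rfl⟩ := h.surj t
  have hSS : S * S = 1 := hinv S hsc
  have hTT : T * T = 1 := hinv T htc
  have hRR : (S * T * (S * T)) * (S * T * (S * T)) = 1 := hinv _ (by simpa only [map_mul] using hρc)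
  have hSi : S⁻¹ = S := inv_eq_of_mul_eq_one_left hSS
  have hTi : T⁻¹ = T := inv_eq_of_mul_eq_one_left hTT
  set E₀ := h.compl E r hsq hrE with hE₀
  have invS : ∀ a ∈ E₀, S⁻¹ * a * S ∈ E₀ := by
    intro a ha
    have := h.compl_invariant hr3 hsE hsr ha
    rw [act_map] at this
    rw [hSi]
    rw [hSi] at this
    exact this
  have invT : ∀ a ∈ E₀, T⁻¹ * a * T ∈ E₀ := by
    intro a ha
    have := h.compl_invariant hr3 htE htr ha
    rw [act_map] at this
    rw [hTi]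
    rw [hTi] at this
    exact this
  have invR : ∀ a ∈ E₀, (S * T)⁻¹ * a * (S * T) ∈ E₀ := by
    intro a ha
    have : (S * T)⁻¹ * a * (S * T) = T⁻¹ * (S⁻¹ * a * S) * T := by group
    rw [this]; exact invT _ (invS a ha)
  have hE₀E : ∀ x ∈ E₀, σ x ∈ E := fun x hx => (h.mem_compl.1 hx).1
  -- first step
  have s1 := chain_step_ker (σ := σ) (E₀ : Set Γ) (S * T * (S * T)) E
    (by rw [hRR]; exact Subgroup.one_mem _)
    (by
      intro x hx
      rw [Subgroup.closure_eq]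
      have : (S * T * (S * T))⁻¹ * x * (S * T * (S * T)) = (S * T)⁻¹ * ((S * T)⁻¹ * x * (S * T)) * (S * T) := by
        group
      rw [this]; exact invR _ (invR x hx))
    hE₀E (by simpa only [map_mul] using h1)
    (by
      intro x hx hk
      rw [Subgroup.closure_eq] at hx
      exact h.compl_inf_ker hx hk)
  -- second step
  have s2 := chain_step_ker (σ := σ) (insert (S * T * (S * T)) (E₀ : Set Γ)) (S * T) Q₁
    (Subgroup.subset_closure (Set.mem_insert _ _))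
    (by
      rintro x (rfl | hx)
      · have : (S * T)⁻¹ * (S * T * (S * T)) * (S * T) = S * T * (S * T) := by group
        rw [this]; exact Subgroup.subset_closure (Set.mem_insert _ _)
      · exact Subgroup.subset_closure (Set.mem_insert_of_mem _ (invR x hx)))
    (by
      rintro x (rfl | hx)
      · simpa only [map_mul] using h1'
      · exact hEQ₁ (hE₀E x hx))
    (by simpa only [map_mul] using h2) s1
  -- third step
  have hSR : S⁻¹ * (S * T) * S = (S * T)⁻¹ := by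
    rw [mul_inv_rev, hSi, hTi]
    calc S * (S * T) * S = (S * S) * T * S := by group
      _ = T * S := by rw [hSS, one_mul]
  have s3 := chain_step_ker (σ := σ) (insert (S * T) (insert (S * T * (S * T)) (E₀ : Set Γ))) S Q₂
    (by rw [hSS]; exact Subgroup.one_mem _)
    (by
      rintro x (rfl | rfl | hx)
      · rw [hSR]
        exact Subgroup.inv_mem _ (Subgroup.subset_closure (Set.mem_insert _ _))
      · have : S⁻¹ * (S * T * (S * T)) * S = (S⁻¹ * (S * T) * S) * (S⁻¹ * (S * T) * S) := by group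
        rw [this, hSR]
        have hm : (S * T)⁻¹ ∈ Subgroup.closure (insert (S * T) (insert (S * T * (S * T)) (E₀ : Set Γ))) :=
          Subgroup.inv_mem _ (Subgroup.subset_closure (Set.mem_insert _ _))
        exact Subgroup.mul_mem _ hm hm
      · exact Subgroup.subset_closure (Set.mem_insert_of_mem _ (Set.mem_insert_of_mem _ (invS x hx))))
    (by
      rintro x (rfl | rfl | hx)
      · simpa only [map_mul] using h2'
      · exact hQ₁₂ (by simpa only [map_mul] using h1')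
      · exact hQ₁₂ (hEQ₁ (hE₀E x hx)))
    h3 s2
  intro z hz hzc
  apply s3 z _ hz
  refine h.commutator_comap_le P _ (hP.trans ?_) hzc
  rw [Subgroup.closure_le]
  rintro x (rfl | rfl | rfl | hx)
  · exact ⟨S, Subgroup.subset_closure (Set.mem_insert _ _), rfl⟩
  · exact ⟨S * T, Subgroup.subset_closure (Set.mem_insert_of_mem _ (Set.mem_insert _ _)), map_mul _ _ _⟩
  · exact ⟨S * T * (S * T), Subgroup.subset_closure
      (Set.mem_insert_of_mem _ (Set.mem_insert_of_mem _ (Set.mem_insert _ _))), by simp only [map_mul]⟩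
  · obtain ⟨a, ha, rfl⟩ := h.compl_cover (hsq := hsq) (hrE := hrE) hN hx
    exact ⟨a, Subgroup.subset_closure
      (Set.mem_insert_of_mem _ (Set.mem_insert_of_mem _ (Set.mem_insert_of_mem _ ha))), rfl⟩

end CExt

end Cfsg.Agent.Lib.Helper28
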