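/-
Central extensions of 2-transitive groups: gluing a splitting over the point stabilizer.
-/
import Cfsg.Agent.Lib.Helper28.Schur2
set_option autoImplicit false
open Cfsg
open scoped commutatorElement
namespace Cfsg.Agent.Lib.Helper28

namespace CExt

universe u

/-- a central extension splits over a perfect subgroup with trivial multiplier -/
theorem split_over_perfect {Γ G : Type u} [Group Γ] [Group G] [Finite Γ] {σ : Γ →* G} (h : CExt σ)
    (H : Subgroup G) (hperf : H ≤ ⁅H, H⁆)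
    (hmult : ∀ (Γ' : Type u) [Group Γ'] [Finite Γ'] (τ : Γ' →* H), IsStemExtension τ → τ.ker = ⊥) :
    ∃ H₀ : Subgroup Γ, (∀ x ∈ H₀, σ x ∈ H) ∧ (∀ g ∈ H, ∃ x ∈ H₀, σ x = g) ∧ ∀ x ∈ H₀, σ x = 1 → x = 1 := by
  set H₀ := ⁅H.comap σ, H.comap σ⁆ with hH₀
  have hle : H₀ ≤ H.comap σ := by
    rw [hH₀, Subgroup.commutator_le]
    intro a ha b hb
    rw [commutatorElement_def]
    exact Subgroup.mul_mem _ (Subgroup.mul_mem _ (Subgroup.mul_mem _ ha hb) (Subgroup.inv_mem _ ha))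
      (Subgroup.inv_mem _ hb)
  have hmap : H ≤ H₀.map σ := by
    rw [hH₀, Subgroup.map_commutator, Subgroup.map_comap_eq_self_of_surjective h.surj]
    exact hperf
  have hperf₀ : H₀ ≤ ⁅H₀, H₀⁆ := by
    conv_lhs => rw [hH₀]
    apply h.commutator_comap_le
    rw [Subgroup.map_commutator]
    exact hperf.trans (Subgroup.commutator_mono hmap hmap)
  let τ : H₀ →* H := (σ.comp H₀.subtype).codRestrict H (fun x => hle x.2)
  have hτ : IsStemExtension τ := by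
    refine ⟨?_, ?_, ?_⟩
    · rintro ⟨g, hg⟩
      obtain ⟨x, hx, rfl⟩ := hmap hg
      exact ⟨⟨x, hx⟩, rfl⟩
    · intro x hx
      rw [Subgroup.mem_center_iff]
      intro y
      have hk : (x : Γ) ∈ σ.ker := by
        have := MonoidHom.mem_ker.1 hx
        exact congrArg Subtype.val this
      exact Subtype.ext (h.comm_of_mem_ker hk y).symm
    · intro x _
      have h1 : (x : Γ) ∈ ⁅H₀, H₀⁆ := hperf₀ x.2
      rw [← Subgroup.map_subtype_commutator] at h1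
      obtain ⟨y, hy, hyx⟩ := h1
      have : y = x := Subtype.ext hyx
      rw [← this]; exact hy
  have hker := hmult H₀ τ hτ
  refine ⟨H₀, fun x hx => hle hx, fun g hg => ?_, fun x hx hx1 => ?_⟩
  · obtain ⟨x, hx, rfl⟩ := hmap hg
    exact ⟨x, hx, rfl⟩
  · have : (⟨x, hx⟩ : H₀) ∈ τ.ker := by
      rw [MonoidHom.mem_ker]
      exact Subtype.ext hx1
    rw [hker, Subgroup.mem_bot] at this
    exact congrArg Subtype.val this

variable {Γ G : Type*} [Group Γ] [Group G] {σ : Γ →* G} (h : CExt σ)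
include h

/-- the gluing lemma -/
theorem glue (H K : Subgroup G) (t u : G)
    (hG : ∀ g : G, g ∈ H ∨ ∃ a ∈ H, ∃ b ∈ H, g = a * t * b)
    (hH : ∀ g ∈ H, g ∈ K ∨ ∃ a ∈ K, ∃ b ∈ K, g = a * u * b)
    (hKH : K ≤ H) (ht2 : t * t = 1) (hu2 : u * u = 1) (htu : t * u * t = u * t * u) (huH : u ∈ H) (htH : t ∉ H)
    (htK : ∀ k ∈ K, t * k * t⁻¹ ∈ K) (hKperf : K ≤ ⁅K, K⁆)
    (H₀ : Subgroup Γ) (h1 : ∀ x ∈ H₀, σ x ∈ H) (h2 : ∀ g ∈ H, ∃ x ∈ H₀, σ x = g)
    (h3 : ∀ x ∈ H₀, σ x = 1 → x = 1) :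
    ∃ X : Subgroup Γ, (∀ g : G, ∃ x ∈ X, σ x = g) ∧ ∀ x ∈ X, σ x = 1 → x = 1 := by
  have hinj : ∀ x ∈ H₀, ∀ y ∈ H₀, σ x = σ y → x = y := by
    intro x hx y hy hxy
    have := h3 (x * y⁻¹) (H₀.mul_mem hx (H₀.inv_mem hy)) (by rw [map_mul, map_inv, hxy, mul_inv_cancel])
    exact mul_inv_eq_one.1 this
  obtain ⟨U, hU, hUu⟩ := h2 u huH
  have hUU : U * U = 1 := h3 _ (H₀.mul_mem hU hU) (by rw [map_mul, hUu, hu2])
  have hUi : U⁻¹ = U := inv_eq_of_mul_eq_one_left hUU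
  have hti : t⁻¹ = t := inv_eq_of_mul_eq_one_left ht2
  have hui : u⁻¹ = u := inv_eq_of_mul_eq_one_left hu2
  -- a first lift of t
  obtain ⟨Gt, hGt⟩ := h.surj (u * t)
  obtain ⟨T₁, hT₁⟩ : ∃ T₁, T₁ = Gt * U * Gt⁻¹ := ⟨_, rfl⟩
  have hT₁t : σ T₁ = t := by
    rw [hT₁, map_mul, map_mul, map_inv, hGt, hUu, mul_inv_rev, hti, hui]
    calc u * t * u * (t * u) = u * (t * u * t) * u := by group
      _ = u * (u * t * u) * u := by rw [htu]
      _ = (u * u) * t * (u * u) := by group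
      _ = t := by rw [hu2]; group
  have hT₁2 : T₁ * T₁ = 1 := by
    rw [hT₁]
    calc Gt * U * Gt⁻¹ * (Gt * U * Gt⁻¹) = Gt * (U * U) * Gt⁻¹ := by group
      _ = 1 := by rw [hUU]; group
  have hT₁i : T₁⁻¹ = T₁ := inv_eq_of_mul_eq_one_left hT₁2
  obtain ⟨ζ, hζ⟩ : ∃ ζ, ζ = T₁ * U * (T₁ * U) * (T₁ * U) := ⟨_, rfl⟩
  have hζk : ζ ∈ σ.ker := by
    rw [MonoidHom.mem_ker, hζ]
    simp only [map_mul, hT₁t, hUu]
    calc t * u * (t * u) * (t * u) = (t * u * t) * (u * t * u) := by group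
      _ = (u * t * u) * (u * t * u) := by rw [htu]
      _ = u * t * (u * u) * t * u := by group
      _ = u * (t * t) * u := by rw [hu2]; group
      _ = 1 := by rw [ht2, mul_one, hu2]
  have hζc := h.comm_of_mem_ker hζk
  have hζ2 : ζ * ζ = 1 := by
    have e1 : T₁ * ζ * T₁ = U * T₁ * (U * T₁) * (U * T₁) := by
      rw [hζ]
      calc T₁ * (T₁ * U * (T₁ * U) * (T₁ * U)) * T₁ = (T₁ * T₁) * U * T₁ * U * T₁ * U * T₁ := by group
        _ = U * T₁ * (U * T₁) * (U * T₁) := by rw [hT₁2]; group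
    have e2 : T₁ * ζ * T₁ = ζ := by
      rw [← hζc, mul_assoc, hT₁2, mul_one]
    have e3 : ζ * (U * T₁ * (U * T₁) * (U * T₁)) = 1 := by
      rw [hζ]
      calc T₁ * U * (T₁ * U) * (T₁ * U) * (U * T₁ * (U * T₁) * (U * T₁))
          = T₁ * U * T₁ * U * T₁ * (U * U) * T₁ * U * T₁ * U * T₁ := by group
        _ = T₁ * U * T₁ * U * (T₁ * T₁) * U * T₁ * U * T₁ := by rw [hUU]; group
        _ = T₁ * U * T₁ * (U * U) * T₁ * U * T₁ := by rw [hT₁2]; group
        _ = T₁ * U * (T₁ * T₁) * U * T₁ := by rw [hUU]; group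
        _ = T₁ * (U * U) * T₁ := by rw [hT₁2]; group
        _ = 1 := by rw [hUU, mul_one, hT₁2]
    rw [← e1, e2] at e3
    exact e3
  -- the good lift
  obtain ⟨T, hT⟩ : ∃ T, T = T₁ * ζ := ⟨_, rfl⟩
  have hTt : σ T = t := by rw [hT, map_mul, hT₁t, MonoidHom.mem_ker.1 hζk, mul_one]
  have hTT : T * T = 1 := by
    rw [hT]
    calc T₁ * ζ * (T₁ * ζ) = T₁ * (ζ * T₁) * ζ := by group
      _ = T₁ * (T₁ * ζ) * ζ := by rw [hζc]
      _ = (T₁ * T₁) * (ζ * ζ) := by group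
      _ = 1 := by rw [hT₁2, hζ2, one_mul]
  have hTi : T⁻¹ = T := inv_eq_of_mul_eq_one_left hTT
  have hTU3 : T * U * (T * U) * (T * U) = 1 := by
    have e1 : ∀ x, T * x = T₁ * x * ζ := by
      intro x
      rw [hT, mul_assoc, hζc, ← mul_assoc]
    calc T * U * (T * U) * (T * U) = (T₁ * U * ζ) * (T₁ * U * ζ) * (T₁ * U * ζ) := by rw [e1]
      _ = T₁ * U * (ζ * (T₁ * U)) * (ζ * (T₁ * U)) * ζ := by group
      _ = T₁ * U * ((T₁ * U) * ζ) * ((T₁ * U) * ζ) * ζ := by rw [hζc]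
      _ = T₁ * U * (T₁ * U) * (ζ * (T₁ * U)) * ζ * ζ := by group
      _ = T₁ * U * (T₁ * U) * ((T₁ * U) * ζ) * ζ * ζ := by rw [hζc]
      _ = (T₁ * U * (T₁ * U) * (T₁ * U)) * ζ * (ζ * ζ) := by group
      _ = 1 := by rw [← hζ, hζ2, mul_one]
  have hbraid : T * U * T = U * T * U := by
    calc T * U * T = T * U * T * (U * T * U) * (U * T * U)⁻¹ := by group
      _ = (T * U * (T * U) * (T * U)) * (U * T * U)⁻¹ := by group
      _ = (U * T * U)⁻¹ := by rw [hTU3, one_mul]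
      _ = U⁻¹ * T⁻¹ * U⁻¹ := by group
      _ = U * T * U := by rw [hUi, hTi]
  -- the lift of K
  set K₀ := H₀ ⊓ K.comap σ with hK₀
  have hKmap : K ≤ K₀.map σ := by
    intro k hk
    obtain ⟨x, hx, rfl⟩ := h2 k (hKH hk)
    exact ⟨x, ⟨hx, hk⟩, rfl⟩
  have hK₀perf : K₀ ≤ ⁅K₀, K₀⁆ := by
    intro k hk
    have e1 : σ k ∈ (⁅K₀, K₀⁆).map σ := by
      rw [Subgroup.map_commutator]
      exact Subgroup.commutator_mono hKmap hKmap (hKperf hk.2)
    obtain ⟨k', hk', hkk⟩ := e1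
    have hle : ⁅K₀, K₀⁆ ≤ K₀ := by
      rw [Subgroup.commutator_le]
      intro a ha b hb
      rw [commutatorElement_def]
      exact Subgroup.mul_mem _ (Subgroup.mul_mem _ (Subgroup.mul_mem _ ha hb) (Subgroup.inv_mem _ ha))
        (Subgroup.inv_mem _ hb)
    have : k' = k := hinj k' (hle hk').1 k hk.1 hkk
    rw [← this]; exact hk'
  have hTK : ∀ k ∈ K₀, T * k * T ∈ K₀ := by
    intro k hk
    have e1 : (MulAut.conj T).toMonoidHom k ∈ (⁅K₀, K₀⁆).map (MulAut.conj T).toMonoidHom :=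
      ⟨k, hK₀perf hk, rfl⟩
    rw [Subgroup.map_commutator] at e1
    have hle : K₀.map (MulAut.conj T).toMonoidHom ≤ K.comap σ := by
      rintro _ ⟨x, hx, rfl⟩
      show σ (T * x * T⁻¹) ∈ K
      rw [map_mul, map_mul, map_inv, hTt]
      exact htK _ hx.2
    have e2 := h.commutator_comap_le K K₀ hKmap (Subgroup.commutator_mono hle hle e1)
    have e3 : (MulAut.conj T).toMonoidHom k = T * k * T := by
      show T * k * T⁻¹ = _
      rw [hTi]
    rw [← e3]; exact e2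
  -- the double coset decomposition
  have key : ∀ a ∈ H₀, T * a * T ∈ H₀ ∨ ∃ b ∈ H₀, ∃ c ∈ H₀, T * a * T = b * T * c := by
    intro a ha
    rcases hH _ (h1 a ha) with hk | ⟨k1, hk1, k2, hk2, he⟩
    · exact Or.inl (hTK a ⟨ha, hk⟩).1
    · right
      obtain ⟨x1, hx1, rfl⟩ := hKmap hk1
      obtain ⟨x2, hx2, rfl⟩ := hKmap hk2
      have : a = x1 * U * x2 := by
        apply hinj a ha _ (H₀.mul_mem (H₀.mul_mem hx1.1 hU) hx2.1)
        rw [he, map_mul, map_mul, hUu]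
      refine ⟨(T * x1 * T) * U, H₀.mul_mem (hTK x1 hx1).1 hU, U * (T * x2 * T), H₀.mul_mem hU (hTK x2 hx2).1, ?_⟩
      rw [this]
      calc T * (x1 * U * x2) * T = T * x1 * 1 * U * 1 * x2 * T := by group
        _ = T * x1 * (T * T) * U * (T * T) * x2 * T := by rw [hTT]
        _ = T * x1 * T * (T * U * T) * (T * x2 * T) := by group
        _ = T * x1 * T * (U * T * U) * (T * x2 * T) := by rw [hbraid]
        _ = T * x1 * T * U * T * (U * (T * x2 * T)) := by group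
  have hform : ∀ x ∈ Subgroup.closure (insert T (H₀ : Set Γ)),
      x ∈ H₀ ∨ ∃ b ∈ H₀, ∃ c ∈ H₀, x = b * T * c := by
    have stepH : ∀ g ∈ H₀, ∀ y, (y ∈ H₀ ∨ ∃ b ∈ H₀, ∃ c ∈ H₀, y = b * T * c) →
        (g * y ∈ H₀ ∨ ∃ b ∈ H₀, ∃ c ∈ H₀, g * y = b * T * c) := by
      rintro g hg y (hy | ⟨b, hb, c, hc, rfl⟩)
      · exact Or.inl (H₀.mul_mem hg hy)
      · exact Or.inr ⟨g * b, H₀.mul_mem hg hb, c, hc, by group⟩
    have stepT : ∀ y, (y ∈ H₀ ∨ ∃ b ∈ H₀, ∃ c ∈ H₀, y = b * T * c) →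
        (T * y ∈ H₀ ∨ ∃ b ∈ H₀, ∃ c ∈ H₀, T * y = b * T * c) := by
      rintro y (hy | ⟨b, hb, c, hc, rfl⟩)
      · exact Or.inr ⟨1, H₀.one_mem, y, hy, by group⟩
      · rcases key b hb with hk | ⟨b', hb', c', hc', he⟩
        · left
          have : T * (b * T * c) = (T * b * T) * c := by group
          rw [this]; exact H₀.mul_mem hk hc
        · right
          refine ⟨b', hb', c' * c, H₀.mul_mem hc' hc, ?_⟩
          calc T * (b * T * c) = (T * b * T) * c := by group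
            _ = b' * T * c' * c := by rw [he]
            _ = b' * T * (c' * c) := by group
    intro x hx
    induction hx using Subgroup.closure_induction_left with
    | one => exact Or.inl H₀.one_mem
    | mul_left g hg y _ ih =>
      rcases hg with rfl | hg
      · exact stepT y ih
      · exact stepH g hg y ih
    | inv_mul_cancel g hg y _ ih =>
      rcases hg with rfl | hg
      · rw [hTi]; exact stepT y ih
      · exact stepH g⁻¹ (H₀.inv_mem hg) y ih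
  refine ⟨Subgroup.closure (insert T (H₀ : Set Γ)), ?_, ?_⟩
  · intro g
    have hHX : ∀ x ∈ H₀, x ∈ Subgroup.closure (insert T (H₀ : Set Γ)) :=
      fun x hx => Subgroup.subset_closure (Set.mem_insert_of_mem _ hx)
    rcases hG g with hg | ⟨a, ha, b, hb, rfl⟩
    · obtain ⟨x, hx, rfl⟩ := h2 g hg
      exact ⟨x, hHX x hx, rfl⟩
    · obtain ⟨x, hx, rfl⟩ := h2 a ha
      obtain ⟨y, hy, rfl⟩ := h2 b hb
      exact ⟨x * T * y, Subgroup.mul_mem _ (Subgroup.mul_mem _ (hHX x hx)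
        (Subgroup.subset_closure (Set.mem_insert _ _))) (hHX y hy), by rw [map_mul, map_mul, hTt]⟩
  · intro x hx hx1
    rcases hform x hx with hx' | ⟨b, hb, c, hc, rfl⟩
    · exact h3 x hx' hx1
    · exfalso
      apply htH
      rw [map_mul, map_mul, hTt] at hx1
      have : t = (σ b)⁻¹ * (σ c)⁻¹ := by
        calc t = (σ b)⁻¹ * (σ b * t * σ c) * (σ c)⁻¹ := by group
          _ = (σ b)⁻¹ * (σ c)⁻¹ := by rw [hx1, mul_one]
      rw [this]
      exact H.mul_mem (H.inv_mem (h1 b hb)) (H.inv_mem (h1 c hc))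

/-- a stem extension with a complement to the kernel is trivial -/
theorem ker_eq_bot_of_complement (hd : σ.ker ≤ commutator Γ) (X : Subgroup Γ) (hX : ∀ g : G, ∃ x ∈ X, σ x = g)
    (hX1 : ∀ x ∈ X, σ x = 1 → x = 1) : σ.ker = ⊥ := by
  rw [eq_bot_iff]
  intro z hz
  have h1 := h.commutator_comap_le ⊤ X (by
    intro g _
    obtain ⟨x, hx, rfl⟩ := hX g
    exact ⟨x, hx, rfl⟩)
  rw [Subgroup.comap_top] at h1
  exact Subgroup.mem_bot.2 (hX1 z (h1 (hd hz)) hz)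

end CExt

end Cfsg.Agent.Lib.Helper28
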