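/-
Central extensions of semidihedral groups: the kernel avoids the commutator subgroup.
-/
import Cfsg.Agent.Lib.Helper28.Schur2
set_option autoImplicit false
open Cfsg
open scoped commutatorElement
namespace Cfsg.Agent.Lib.Helper28

/-- the commutator subgroup of a group generated by `S` lies in any subgroup normalized by `S` and containing
the commutators of the generators -/
theorem commutator_closure_le {G : Type*} [Group G] (S : Set G) (C : Subgroup G)
    (hN : ∀ s ∈ S, s ∈ Subgroup.normalizer (C : Set G)) (hS : ∀ s ∈ S, ∀ t ∈ S, ⁅s, t⁆ ∈ C) :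
    ⁅Subgroup.closure S, Subgroup.closure S⁆ ≤ C := by
  have hle : Subgroup.closure S ≤ Subgroup.normalizer (C : Set G) := (Subgroup.closure_le _).2 hN
  have hconj : ∀ g ∈ Subgroup.closure S, ∀ c ∈ C, g * c * g⁻¹ ∈ C := fun g hg c hc =>
    (Subgroup.mem_normalizer_iff.1 (hle hg) c).1 hc
  have hconj' : ∀ g ∈ Subgroup.closure S, ∀ c ∈ C, g⁻¹ * c * g ∈ C := fun g hg c hc => by
    have := hconj g⁻¹ (Subgroup.inv_mem _ hg) c hc
    rwa [inv_inv] at this
  -- first: generators against arbitrary elements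
  have h1 : ∀ s ∈ S, ∀ y ∈ Subgroup.closure S, ⁅s, y⁆ ∈ C := by
    intro s hs y hy
    induction hy using Subgroup.closure_induction with
    | mem t ht => exact hS s hs t ht
    | one => rw [commutatorElement_one_right]; exact C.one_mem
    | mul a b ha hb iha ihb =>
      have : ⁅s, a * b⁆ = ⁅s, a⁆ * (a * ⁅s, b⁆ * a⁻¹) := by
        simp only [commutatorElement_def]; group
      rw [this]
      exact C.mul_mem iha (hconj a ha _ ihb)
    | inv a ha iha =>
      have : ⁅s, a⁻¹⁆ = a⁻¹ * ⁅s, a⁆⁻¹ * a := by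
        simp only [commutatorElement_def]; group
      rw [this]
      exact hconj' a ha _ (C.inv_mem iha)
  rw [Subgroup.commutator_le]
  intro x hx y hy
  induction hx using Subgroup.closure_induction with
  | mem s hs => exact h1 s hs y hy
  | one => rw [commutatorElement_one_left]; exact C.one_mem
  | mul a b ha hb iha ihb =>
    have : ⁅a * b, y⁆ = (a * ⁅b, y⁆ * a⁻¹) * ⁅a, y⁆ := by
      simp only [commutatorElement_def]; group
    rw [this]
    exact C.mul_mem (hconj a ha _ ihb) iha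
  | inv a ha iha =>
    have : ⁅a⁻¹, y⁆ = a⁻¹ * ⁅a, y⁆⁻¹ * a := by
      simp only [commutatorElement_def]; group
    rw [this]
    exact hconj' a ha _ (C.inv_mem iha)

namespace CExt

variable {Γ G : Type*} [Group Γ] [Group G] {σ : Γ →* G} (h : CExt σ)
include h

/-- commutators of the preimage of `P` are commutators of any subgroup covering `P` -/
theorem commutator_comap_le_commutator (P : Subgroup G) (P₀ : Subgroup Γ) (hP : P ≤ P₀.map σ) :
    ⁅P.comap σ, P.comap σ⁆ ≤ ⁅P₀, P₀⁆ := by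
  rw [Subgroup.commutator_le]
  intro a ha b hb
  obtain ⟨a₀, ha₀, haa⟩ := hP ha
  obtain ⟨b₀, hb₀, hbb⟩ := hP hb
  obtain ⟨z, hz, rfl⟩ := exists_ker_of_map_eq haa.symm
  obtain ⟨w, hw, rfl⟩ := exists_ker_of_map_eq hbb.symm
  have : ⁅a₀ * z, b₀ * w⁆ = ⁅a₀, b₀⁆ := by
    rw [commutatorElement_def, commutatorElement_def]
    have hz' := h.comm_of_mem_ker hz
    have hw' := h.comm_of_mem_ker hw
    calc a₀ * z * (b₀ * w) * (a₀ * z)⁻¹ * (b₀ * w)⁻¹
        = a₀ * (z * b₀) * w * z⁻¹ * a₀⁻¹ * w⁻¹ * b₀⁻¹ := by group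
      _ = a₀ * (b₀ * z) * w * z⁻¹ * a₀⁻¹ * w⁻¹ * b₀⁻¹ := by rw [hz']
      _ = a₀ * b₀ * (z * w) * z⁻¹ * a₀⁻¹ * w⁻¹ * b₀⁻¹ := by group
      _ = a₀ * b₀ * (w * z) * z⁻¹ * a₀⁻¹ * w⁻¹ * b₀⁻¹ := by rw [hz']
      _ = a₀ * b₀ * (w * a₀⁻¹) * w⁻¹ * b₀⁻¹ := by group
      _ = a₀ * b₀ * (a₀⁻¹ * w) * w⁻¹ * b₀⁻¹ := by rw [hw']
      _ = a₀ * b₀ * a₀⁻¹ * b₀⁻¹ := by group
  rw [this]
  exact Subgroup.commutator_mem_commutator ha₀ hb₀

/-- semidihedral groups of order 16: a central extension by a group of exponent two has its kernel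
outside the commutator subgroup -/
theorem semidihedral (a b : G) (hb2 : b * b = 1) (hba : b * a * b⁻¹ = a * a * a)
    (ha4 : a * a * (a * a) ≠ 1) (hker : ∀ z ∈ σ.ker, z * z = 1) :
    ∀ z ∈ σ.ker, z ∈ ⁅(Subgroup.closure {a, b}).comap σ, (Subgroup.closure {a, b}).comap σ⁆ → z = 1 := by
  obtain ⟨A, rfl⟩ := h.surj a
  obtain ⟨B, rfl⟩ := h.surj b
  obtain ⟨ζ, hζ⟩ : ∃ ζ, ζ = B * A * B⁻¹ * (A * A * A)⁻¹ := ⟨_, rfl⟩
  have hζk : ζ ∈ σ.ker := by
    rw [MonoidHom.mem_ker, hζ]
    simp only [map_mul, map_inv]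
    rw [hba]; group
  have hζc := h.comm_of_mem_ker hζk
  have hζ2 := hker ζ hζk
  have hBA : B * A * B⁻¹ = ζ * (A * A * A) := by rw [hζ]; group
  have hBBk : B * B ∈ σ.ker := by rw [MonoidHom.mem_ker, map_mul, hb2]
  have hBBc := h.comm_of_mem_ker hBBk
  have hBζ : B * ζ * B⁻¹ = ζ := by rw [← hζc, mul_inv_cancel_right]
  -- A ^ 8 = 1
  have hA9 : A = A * A * A * (A * A * A) * (A * A * A) := by
    have e1 : B * (B * A * B⁻¹) * B⁻¹ = A := by
      calc B * (B * A * B⁻¹) * B⁻¹ = (B * B * A) * (B * B)⁻¹ := by group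
        _ = (A * (B * B)) * (B * B)⁻¹ := by rw [hBBc]
        _ = A := by group
    have e2 : B * (ζ * (A * A * A)) * B⁻¹ = (B * ζ * B⁻¹) * ((B * A * B⁻¹) * (B * A * B⁻¹) * (B * A * B⁻¹)) := by
      group
    rw [hBA, e2, hBζ, hBA] at e1
    have e3 : ζ * (ζ * (A * A * A) * (ζ * (A * A * A)) * (ζ * (A * A * A))) =
        (ζ * ζ) * (ζ * ζ) * (A * A * A * (A * A * A) * (A * A * A)) := by
      calc ζ * (ζ * (A * A * A) * (ζ * (A * A * A)) * (ζ * (A * A * A)))
          = ζ * ζ * ((A * A * A) * ζ) * ((A * A * A) * ζ) * (A * A * A) := by group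
        _ = ζ * ζ * (ζ * (A * A * A)) * (ζ * (A * A * A)) * (A * A * A) := by rw [← hζc (A * A * A)]
        _ = ζ * ζ * ζ * ((A * A * A) * ζ) * (A * A * A) * (A * A * A) := by group
        _ = ζ * ζ * ζ * (ζ * (A * A * A)) * (A * A * A) * (A * A * A) := by rw [← hζc (A * A * A)]
        _ = _ := by group
    rw [e3, hζ2, one_mul, one_mul] at e1
    exact e1.symm
  have hA8 : A * A * (A * A) * (A * A * (A * A)) = 1 := by
    have : A * (A * A * (A * A) * (A * A * (A * A))) = A * 1 := by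
      rw [mul_one]
      conv_rhs => rw [hA9]
      group
    exact mul_left_cancel this
  obtain ⟨c, hc⟩ : ∃ c, c = ζ * (A * A) := ⟨_, rfl⟩
  have hcA : A * c * A⁻¹ = c := by
    rw [hc]
    calc A * (ζ * (A * A)) * A⁻¹ = (A * ζ) * A := by group
      _ = (ζ * A) * A := by rw [hζc]
      _ = ζ * (A * A) := by group
  have hcc : c * c = A * A * (A * A) := by
    rw [hc]
    calc ζ * (A * A) * (ζ * (A * A)) = ζ * ((A * A) * ζ) * (A * A) := by group
      _ = ζ * (ζ * (A * A)) * (A * A) := by rw [← hζc]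
      _ = (ζ * ζ) * (A * A * (A * A)) := by group
      _ = _ := by rw [hζ2, one_mul]
  have hc4' : c * c * (c * c) = 1 := by rw [hcc, hA8]
  have hc4 : c ^ (4 : ℤ) = 1 := by
    have : c ^ (4 : ℤ) = c * c * (c * c) := by
      rw [zpow_ofNat]; simp only [pow_succ, pow_zero, one_mul, mul_assoc]
    rw [this, hc4']
  have hcB : B * c * B⁻¹ = c * c * c := by
    rw [hcc, hc]
    calc B * (ζ * (A * A)) * B⁻¹ = (B * ζ * B⁻¹) * ((B * A * B⁻¹) * (B * A * B⁻¹)) := by group
      _ = ζ * (ζ * (A * A * A) * (ζ * (A * A * A))) := by rw [hBζ, hBA]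
      _ = ζ * ζ * ((A * A * A) * ζ) * (A * A * A) := by group
      _ = ζ * ζ * (ζ * (A * A * A)) * (A * A * A) := by rw [← hζc (A * A * A)]
      _ = (ζ * ζ) * (ζ * (A * A * A * (A * A * A))) := by group
      _ = ζ * (A * A * A * (A * A * A)) := by rw [hζ2, one_mul]
      _ = (ζ * (A * A * (A * A))) * (A * A) := by group
      _ = ((A * A * (A * A)) * ζ) * (A * A) := by rw [hζc]
      _ = A * A * (A * A) * (ζ * (A * A)) := by group
  have hcB' : B⁻¹ * c * B = c * c * c := by
    have e1 : B * (c * c * c) * B⁻¹ = c := by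
      calc B * (c * c * c) * B⁻¹ = (B * c * B⁻¹) * (B * c * B⁻¹) * (B * c * B⁻¹) := by group
        _ = (c * c * (c * c)) * (c * c * (c * c)) * c := by rw [hcB]; simp only [mul_assoc]
        _ = c := by rw [hc4', one_mul, one_mul]
    calc B⁻¹ * c * B = B⁻¹ * (B * (c * c * c) * B⁻¹) * B := by rw [e1]
      _ = c * c * c := by group
  have hAn : A ∈ Subgroup.normalizer ((Subgroup.zpowers c : Subgroup Γ) : Set Γ) := by
    rw [Subgroup.mem_normalizer_iff]
    intro x
    have hx : ∀ x ∈ Subgroup.zpowers c, A * x * A⁻¹ = x := by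
      rintro _ ⟨k, rfl⟩
      show A * c ^ k * A⁻¹ = c ^ k
      rw [← conj_zpow, hcA]
    constructor
    · intro hxc
      rw [hx x hxc]; exact hxc
    · intro hxc
      have hcA' : A⁻¹ * c * A = c := by
        calc A⁻¹ * c * A = A⁻¹ * (A * c * A⁻¹) * A := by rw [hcA]
          _ = c := by group
      obtain ⟨k, hk⟩ := hxc
      have : x = c ^ k := by
        have e : x = A⁻¹ * (A * x * A⁻¹) * A := by group
        rw [e, ← hk]
        show A⁻¹ * c ^ k * A = c ^ k
        have := conj_zpow (a := A⁻¹) (b := c) (i := k)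
        rw [inv_inv, hcA'] at this
        exact this.symm
      rw [this]; exact ⟨k, rfl⟩
  have hBn : B ∈ Subgroup.normalizer ((Subgroup.zpowers c : Subgroup Γ) : Set Γ) := by
    rw [Subgroup.mem_normalizer_iff]
    intro x
    have hc3 : c * c * c ∈ Subgroup.zpowers c :=
      Subgroup.mul_mem _ (Subgroup.mul_mem _ (Subgroup.mem_zpowers c) (Subgroup.mem_zpowers c))
        (Subgroup.mem_zpowers c)
    constructor
    · rintro ⟨k, rfl⟩
      show B * c ^ k * B⁻¹ ∈ _
      rw [← conj_zpow, hcB]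
      exact Subgroup.zpow_mem _ hc3 k
    · rintro ⟨k, hk⟩
      have e : x = B⁻¹ * (B * x * B⁻¹) * B := by group
      rw [e, ← hk]
      show B⁻¹ * c ^ k * B ∈ _
      have := conj_zpow (a := B⁻¹) (b := c) (i := k)
      rw [inv_inv, hcB'] at this
      rw [← this]
      exact Subgroup.zpow_mem _ hc3 k
  have hBAc : ⁅B, A⁆ = c := by
    rw [commutatorElement_def, hBA, hc]; group
  have hABc : ⁅A, B⁆ = c⁻¹ := by
    rw [← hBAc, commutatorElement_inv]
  have hle : ⁅Subgroup.closure {A, B}, Subgroup.closure {A, B}⁆ ≤ Subgroup.zpowers c := by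
    apply commutator_closure_le
    · rintro s (rfl | rfl)
      · exact hAn
      · exact hBn
    · rintro s (rfl | rfl) t (rfl | rfl)
      · rw [commutatorElement_self]; exact Subgroup.one_mem _
      · rw [hABc]; exact Subgroup.inv_mem _ (Subgroup.mem_zpowers c)
      · rw [hBAc]; exact Subgroup.mem_zpowers c
      · rw [commutatorElement_self]; exact Subgroup.one_mem _
  have hcov : Subgroup.closure {σ A, σ B} ≤ (Subgroup.closure {A, B}).map σ := by
    rw [Subgroup.closure_le]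
    rintro s (rfl | rfl)
    · exact ⟨A, Subgroup.subset_closure (by simp), rfl⟩
    · exact ⟨B, Subgroup.subset_closure (by simp), rfl⟩
  intro z hz hzc
  obtain ⟨k, hk⟩ := hle (h.commutator_comap_le_commutator _ _ hcov hzc)
  have hk' : c ^ (k % 4) = z := by
    rw [← zpow_eq_zpow_emod k hc4]; exact hk
  have h0 : 0 ≤ k % 4 := Int.emod_nonneg _ (by norm_num)
  have h4 : k % 4 < 4 := Int.emod_lt_of_pos _ (by norm_num)
  have hσc : σ c = σ A * σ A := by
    rw [hc, map_mul, MonoidHom.mem_ker.1 hζk, one_mul, map_mul]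
  have hσz : σ z = 1 := hz
  have h8 : σ A * σ A * (σ A * σ A) * (σ A * σ A * (σ A * σ A)) = 1 := by
    have := congrArg σ hA8
    simpa only [map_mul, map_one] using this
  obtain ⟨r, hr⟩ : ∃ r, r = k % 4 := ⟨_, rfl⟩
  rw [← hr] at hk' h0 h4
  interval_cases r
  · rw [← hk', zpow_zero]
  · exfalso
    apply ha4
    rw [← hk', zpow_one, hσc] at hσz
    rw [hσz, one_mul]
  · exfalso
    apply ha4
    have e : c ^ (2 : ℤ) = c * c := by rw [zpow_ofNat, pow_two]
    rw [← hk', e, map_mul, hσc] at hσz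
    exact hσz
  · exfalso
    apply ha4
    have e : c ^ (3 : ℤ) = c * c * c := by rw [zpow_ofNat, pow_succ, pow_two]
    rw [← hk', e, map_mul, map_mul, hσc] at hσz
    have e2 : σ A * σ A = 1 := by
      have e3 : (σ A * σ A * (σ A * σ A) * (σ A * σ A)) * (σ A * σ A) = 1 := by
        rw [← h8]; simp only [mul_assoc]
      rw [hσz, one_mul] at e3
      exact e3
    rw [e2, one_mul]

end CExt

end Cfsg.Agent.Lib.Helper28
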