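/-
Gluing lemma, second form: the two point stabilizer need not be perfect.  Bound for the kernel of a stem
extension of a 3-transitive group whose two point stabilizer has a commutator quotient of order two.
-/
import Cfsg.Agent.Lib.Helper28.Schur6
set_option autoImplicit false
open Cfsg
open scoped commutatorElement
namespace Cfsg.Agent.Lib.Helper28

namespace CExt

section
variable {Γ G : Type*} [Group Γ] [Group G] {σ : Γ →* G} (h : CExt σ)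
include h

/-- the gluing lemma, general form -/
theorem glue' (H K : Subgroup G) (t u : G)
    (hG : ∀ g : G, g ∈ H ∨ ∃ a ∈ H, ∃ b ∈ H, g = a * t * b)
    (hH : ∀ g ∈ H, g ∈ K ∨ ∃ a ∈ K, ∃ b ∈ K, g = a * u * b)
    (hKH : K ≤ H) (ht2 : t * t = 1) (hu2 : u * u = 1) (htu : t * u * t = u * t * u) (htH : t ∉ H)
    (htK : ∀ k ∈ K, t * k * t⁻¹ ∈ K)
    (H₁ : Subgroup Γ) (h1 : ∀ x ∈ H₁, σ x ∈ H) (h2 : ∀ g ∈ H, ∃ x ∈ H₁, σ x = g)
    (U : Γ) (hU : U ∈ H₁) (hUu : σ U = u) (hUU : U * U = 1)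
    (hTK : ∀ T, σ T = t → ∀ k ∈ H₁, σ k ∈ K → T * k * T⁻¹ ∈ H₁) :
    ∃ X : Subgroup Γ, (∀ g : G, ∃ x ∈ X, σ x = g) ∧ ∀ x ∈ X, σ x = 1 → x ∈ H₁ := by
  have hUi : U⁻¹ = U := inv_eq_of_mul_eq_one_left hUU
  have hti : t⁻¹ = t := inv_eq_of_mul_eq_one_left ht2
  have hui : u⁻¹ = u := inv_eq_of_mul_eq_one_left hu2
  -- a first lift of t
  obtain ⟨Gt, hGt⟩ := h.surj (u * t)
  obtain ⟨T₁, hT₁⟩ : ∃ T₁, T₁ = Gt * U * Gt⁻¹ := ⟨_, rfl⟩
  have hT₁t : σ T₁ = t := by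
    rw [hT₁, map_mul, map_mul, map_inv, hGt, hUu, mul_inv_rev, hti, hui]
    calc u * t * u * (t * u) = u * (t * u * t) * u := by group
      _ = u * (u * t * u) * u := by rw [htu]
      _ = (u * u) * t * (u * u) := by group
      _ = t := by rw [hu2]; group
  have hT₁2 : T₁ * T₁ = 1 := by
    rw [hT₁]
    calc Gt * U * Gt⁻¹ * (Gt * U * Gt⁻¹) = Gt * (U * U) * Gt⁻¹ := by group
      _ = 1 := by rw [hUU]; group
  have hT₁i : T₁⁻¹ = T₁ := inv_eq_of_mul_eq_one_left hT₁2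
  obtain ⟨ζ, hζ⟩ : ∃ ζ, ζ = T₁ * U * (T₁ * U) * (T₁ * U) := ⟨_, rfl⟩
  have hζk : ζ ∈ σ.ker := by
    rw [MonoidHom.mem_ker, hζ]
    simp only [map_mul, hT₁t, hUu]
    calc t * u * (t * u) * (t * u) = (t * u * t) * (u * t * u) := by group
      _ = (u * t * u) * (u * t * u) := by rw [htu]
      _ = u * t * (u * u) * t * u := by group
      _ = u * (t * t) * u := by rw [hu2]; group
      _ = 1 := by rw [ht2, mul_one, hu2]
  have hζc := h.comm_of_mem_ker hζk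
  have hζ2 : ζ * ζ = 1 := by
    have e1 : T₁ * ζ * T₁ = U * T₁ * (U * T₁) * (U * T₁) := by
      rw [hζ]
      calc T₁ * (T₁ * U * (T₁ * U) * (T₁ * U)) * T₁ = (T₁ * T₁) * U * T₁ * U * T₁ * U * T₁ := by group
        _ = U * T₁ * (U * T₁) * (U * T₁) := by rw [hT₁2]; group
    have e2 : T₁ * ζ * T₁ = ζ := by
      rw [← hζc, mul_assoc, hT₁2, mul_one]
    have e3 : ζ * (U * T₁ * (U * T₁) * (U * T₁)) = 1 := by
      rw [hζ]
      calc T₁ * U * (T₁ * U) * (T₁ * U) * (U * T₁ * (U * T₁) * (U * T₁))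
          = T₁ * U * T₁ * U * T₁ * (U * U) * T₁ * U * T₁ * U * T₁ := by group
        _ = T₁ * U * T₁ * U * (T₁ * T₁) * U * T₁ * U * T₁ := by rw [hUU]; group
        _ = T₁ * U * T₁ * (U * U) * T₁ * U * T₁ := by rw [hT₁2]; group
        _ = T₁ * U * (T₁ * T₁) * U * T₁ := by rw [hUU]; group
        _ = T₁ * (U * U) * T₁ := by rw [hT₁2]; group
        _ = 1 := by rw [hUU, mul_one, hT₁2]
    rw [← e1, e2] at e3
    exact e3
  -- the good lift
  obtain ⟨T, hT⟩ : ∃ T, T = T₁ * ζ := ⟨_, rfl⟩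
  have hTt : σ T = t := by rw [hT, map_mul, hT₁t, MonoidHom.mem_ker.1 hζk, mul_one]
  have hTT : T * T = 1 := by
    rw [hT]
    calc T₁ * ζ * (T₁ * ζ) = T₁ * (ζ * T₁) * ζ := by group
      _ = T₁ * (T₁ * ζ) * ζ := by rw [hζc]
      _ = (T₁ * T₁) * (ζ * ζ) := by group
      _ = 1 := by rw [hT₁2, hζ2, one_mul]
  have hTi : T⁻¹ = T := inv_eq_of_mul_eq_one_left hTT
  have hTU3 : T * U * (T * U) * (T * U) = 1 := by
    have e1 : ∀ x, T * x = T₁ * x * ζ := by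
      intro x
      rw [hT, mul_assoc, hζc, ← mul_assoc]
    calc T * U * (T * U) * (T * U) = (T₁ * U * ζ) * (T₁ * U * ζ) * (T₁ * U * ζ) := by rw [e1]
      _ = T₁ * U * (ζ * (T₁ * U)) * (ζ * (T₁ * U)) * ζ := by group
      _ = T₁ * U * ((T₁ * U) * ζ) * ((T₁ * U) * ζ) * ζ := by rw [hζc]
      _ = T₁ * U * (T₁ * U) * (ζ * (T₁ * U)) * ζ * ζ := by group
      _ = T₁ * U * (T₁ * U) * ((T₁ * U) * ζ) * ζ * ζ := by rw [hζc]
      _ = (T₁ * U * (T₁ * U) * (T₁ * U)) * ζ * (ζ * ζ) := by group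
      _ = 1 := by rw [← hζ, hζ2, mul_one]
  have hbraid : T * U * T = U * T * U := by
    calc T * U * T = T * U * T * (U * T * U) * (U * T * U)⁻¹ := by group
      _ = (T * U * (T * U) * (T * U)) * (U * T * U)⁻¹ := by group
      _ = (U * T * U)⁻¹ := by rw [hTU3, one_mul]
      _ = U⁻¹ * T⁻¹ * U⁻¹ := by group
      _ = U * T * U := by rw [hUi, hTi]
  -- the lift of K
  set K₁ := H₁ ⊓ K.comap σ with hK₁
  have hKmap : K ≤ K₁.map σ := by
    intro k hk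
    obtain ⟨x, hx, rfl⟩ := h2 k (hKH hk)
    exact ⟨x, ⟨hx, hk⟩, rfl⟩
  have hTK' : ∀ k ∈ K₁, T * k * T ∈ K₁ := by
    intro k hk
    have e := hTK T hTt k hk.1 hk.2
    rw [hTi] at e
    refine ⟨e, ?_⟩
    show σ (T * k * T) ∈ K
    have e2 := htK _ hk.2
    rw [hti] at e2
    rw [map_mul, map_mul, hTt]
    exact e2
  -- the double coset decomposition
  have key : ∀ a ∈ H₁, T * a * T ∈ H₁ ∨ ∃ b ∈ H₁, ∃ c ∈ H₁, T * a * T = b * T * c := by
    intro a ha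
    rcases hH _ (h1 a ha) with hk | ⟨k1, hk1, k2, hk2, he⟩
    · exact Or.inl (hTK' a ⟨ha, hk⟩).1
    · right
      obtain ⟨x1, hx1, rfl⟩ := hKmap hk1
      obtain ⟨x2', hx2', rfl⟩ := hKmap hk2
      obtain ⟨x2, hx2d⟩ : ∃ x2, x2 = x2' * ((x1 * U * x2')⁻¹ * a) := ⟨_, rfl⟩
      have hz1 : (x1 * U * x2')⁻¹ * a ∈ H₁ :=
        H₁.mul_mem (H₁.inv_mem (H₁.mul_mem (H₁.mul_mem hx1.1 hU) hx2'.1)) ha
      have hz2 : σ ((x1 * U * x2')⁻¹ * a) = 1 := by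
        rw [map_mul, map_inv, he, map_mul, map_mul, hUu, inv_mul_cancel]
      have hx2 : x2 ∈ K₁ := by
        rw [hx2d]
        refine ⟨H₁.mul_mem hx2'.1 hz1, ?_⟩
        show σ (x2' * ((x1 * U * x2')⁻¹ * a)) ∈ K
        rw [map_mul, hz2, mul_one]
        exact hx2'.2
      have : a = x1 * U * x2 := by
        rw [hx2d]; group
      refine ⟨(T * x1 * T) * U, H₁.mul_mem (hTK' x1 hx1).1 hU, U * (T * x2 * T), H₁.mul_mem hU (hTK' x2 hx2).1, ?_⟩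
      rw [this]
      calc T * (x1 * U * x2) * T = T * x1 * 1 * U * 1 * x2 * T := by group
        _ = T * x1 * (T * T) * U * (T * T) * x2 * T := by rw [hTT]
        _ = T * x1 * T * (T * U * T) * (T * x2 * T) := by group
        _ = T * x1 * T * (U * T * U) * (T * x2 * T) := by rw [hbraid]
        _ = T * x1 * T * U * T * (U * (T * x2 * T)) := by group
  have hform : ∀ x ∈ Subgroup.closure (insert T (H₁ : Set Γ)),
      x ∈ H₁ ∨ ∃ b ∈ H₁, ∃ c ∈ H₁, x = b * T * c := by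
    have stepH : ∀ g ∈ H₁, ∀ y, (y ∈ H₁ ∨ ∃ b ∈ H₁, ∃ c ∈ H₁, y = b * T * c) →
        (g * y ∈ H₁ ∨ ∃ b ∈ H₁, ∃ c ∈ H₁, g * y = b * T * c) := by
      rintro g hg y (hy | ⟨b, hb, c, hc, rfl⟩)
      · exact Or.inl (H₁.mul_mem hg hy)
      · exact Or.inr ⟨g * b, H₁.mul_mem hg hb, c, hc, by group⟩
    have stepT : ∀ y, (y ∈ H₁ ∨ ∃ b ∈ H₁, ∃ c ∈ H₁, y = b * T * c) →
        (T * y ∈ H₁ ∨ ∃ b ∈ H₁, ∃ c ∈ H₁, T * y = b * T * c) := by
      rintro y (hy | ⟨b, hb, c, hc, rfl⟩)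
      · exact Or.inr ⟨1, H₁.one_mem, y, hy, by group⟩
      · rcases key b hb with hk | ⟨b', hb', c', hc', he⟩
        · left
          have : T * (b * T * c) = (T * b * T) * c := by group
          rw [this]; exact H₁.mul_mem hk hc
        · right
          refine ⟨b', hb', c' * c, H₁.mul_mem hc' hc, ?_⟩
          calc T * (b * T * c) = (T * b * T) * c := by group
            _ = b' * T * c' * c := by rw [he]
            _ = b' * T * (c' * c) := by group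
    intro x hx
    induction hx using Subgroup.closure_induction_left with
    | one => exact Or.inl H₁.one_mem
    | mul_left g hg y _ ih =>
      rcases hg with rfl | hg
      · exact stepT y ih
      · exact stepH g hg y ih
    | inv_mul_cancel g hg y _ ih =>
      rcases hg with rfl | hg
      · rw [hTi]; exact stepT y ih
      · exact stepH g⁻¹ (H₁.inv_mem hg) y ih
  refine ⟨Subgroup.closure (insert T (H₁ : Set Γ)), ?_, ?_⟩
  · intro g
    have hHX : ∀ x ∈ H₁, x ∈ Subgroup.closure (insert T (H₁ : Set Γ)) :=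
      fun x hx => Subgroup.subset_closure (Set.mem_insert_of_mem _ hx)
    rcases hG g with hg | ⟨a, ha, b, hb, rfl⟩
    · obtain ⟨x, hx, rfl⟩ := h2 g hg
      exact ⟨x, hHX x hx, rfl⟩
    · obtain ⟨x, hx, rfl⟩ := h2 a ha
      obtain ⟨y, hy, rfl⟩ := h2 b hb
      exact ⟨x * T * y, Subgroup.mul_mem _ (Subgroup.mul_mem _ (hHX x hx)
        (Subgroup.subset_closure (Set.mem_insert _ _))) (hHX y hy), by rw [map_mul, map_mul, hTt]⟩
  · intro x hx hx1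
    rcases hform x hx with hx' | ⟨b, hb, c, hc, rfl⟩
    · exact hx'
    · exfalso
      apply htH
      rw [map_mul, map_mul, hTt] at hx1
      have : t = (σ b)⁻¹ * (σ c)⁻¹ := by
        calc t = (σ b)⁻¹ * (σ b * t * σ c) * (σ c)⁻¹ := by group
          _ = (σ b)⁻¹ * (σ c)⁻¹ := by rw [hx1, mul_one]
      rw [this]
      exact H.mul_mem (H.inv_mem (h1 b hb)) (H.inv_mem (h1 c hc))

end

universe u

/-- a 3-transitive group whose point stabilizer is perfect with trivial multiplier and whose two point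
stabilizer has commutator quotient generated by an element with square in the commutator subgroup:
the kernel of a stem extension is generated by an element of order at most two -/
theorem ker_cyclic_two {Γ G : Type u} [Group Γ] [Group G] [Finite Γ] {σ : Γ →* G} (h : CExt σ)
    (hd : σ.ker ≤ commutator Γ) (H K : Subgroup G) (t u : G)
    (hG : ∀ g : G, g ∈ H ∨ ∃ a ∈ H, ∃ b ∈ H, g = a * t * b)
    (hH : ∀ g ∈ H, g ∈ K ∨ ∃ a ∈ K, ∃ b ∈ K, g = a * u * b)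
    (hKH : K ≤ H) (ht2 : t * t = 1) (hu2 : u * u = 1) (htu : t * u * t = u * t * u) (huH : u ∈ H) (htH : t ∉ H)
    (htK : ∀ k ∈ K, t * k * t⁻¹ ∈ K) (hHperf : H ≤ ⁅H, H⁆)
    (hmult : ∀ (Γ' : Type u) [Group Γ'] [Finite Γ'] (τ : Γ' →* H), IsStemExtension τ → τ.ker = ⊥)
    (b : G) (hbK : b ∈ K) (hK : K ≤ ⁅K, K⁆ ⊔ Subgroup.zpowers b) (hb2 : b * b ∈ ⁅K, K⁆) :
    ∃ ζ ∈ σ.ker, ζ * ζ = 1 ∧ ∀ z ∈ σ.ker, z ∈ Subgroup.zpowers ζ := by
  obtain ⟨H₀, h1, h2, h3⟩ := h.split_over_perfect H hHperf hmult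
  have hinj : ∀ x ∈ H₀, ∀ y ∈ H₀, σ x = σ y → x = y := by
    intro x hx y hy hxy
    have := h3 (x * y⁻¹) (H₀.mul_mem hx (H₀.inv_mem hy)) (by rw [map_mul, map_inv, hxy, mul_inv_cancel])
    exact mul_inv_eq_one.1 this
  obtain ⟨T₀, hT₀⟩ := h.surj t
  obtain ⟨B, hB, hBb⟩ := h2 b (hKH hbK)
  obtain ⟨Y, hY, hYb⟩ := h2 (t * b * t⁻¹) (hKH (htK b hbK))
  obtain ⟨ζ, hζ⟩ : ∃ ζ, ζ = T₀ * B * T₀⁻¹ * Y⁻¹ := ⟨_, rfl⟩
  have hζk : ζ ∈ σ.ker := by
    rw [MonoidHom.mem_ker, hζ]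
    simp only [map_mul, map_inv, hT₀, hBb, hYb]
    group
  have hζc := h.comm_of_mem_ker hζk
  have hTB : T₀ * B * T₀⁻¹ = ζ * Y := by rw [hζ]; group
  set K₀ := H₀ ⊓ K.comap σ with hK₀
  have hKmap : K ≤ K₀.map σ := by
    intro k hk
    obtain ⟨x, hx, rfl⟩ := h2 k (hKH hk)
    exact ⟨x, ⟨hx, hk⟩, rfl⟩
  have hK₀le : ⁅K₀, K₀⁆ ≤ K₀ := by
    rw [Subgroup.commutator_le]
    intro a ha b hb
    rw [commutatorElement_def]
    exact Subgroup.mul_mem _ (Subgroup.mul_mem _ (Subgroup.mul_mem _ ha hb) (Subgroup.inv_mem _ ha))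
      (Subgroup.inv_mem _ hb)
  have hA : ∀ x ∈ ⁅K₀, K₀⁆, T₀ * x * T₀⁻¹ ∈ H₀ := by
    intro x hx
    have e1 : (MulAut.conj T₀).toMonoidHom x ∈ (⁅K₀, K₀⁆).map (MulAut.conj T₀).toMonoidHom := ⟨x, hx, rfl⟩
    rw [Subgroup.map_commutator] at e1
    have hle : K₀.map (MulAut.conj T₀).toMonoidHom ≤ K.comap σ := by
      rintro _ ⟨y, hy, rfl⟩
      show σ (T₀ * y * T₀⁻¹) ∈ K
      rw [map_mul, map_mul, map_inv, hT₀]
      exact htK _ hy.2
    exact (h.commutator_comap_le K K₀ hKmap (Subgroup.commutator_mono hle hle e1)).1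
  have hBB : B * B ∈ ⁅K₀, K₀⁆ := by
    have e1 : b * b ∈ (⁅K₀, K₀⁆).map σ := by
      rw [Subgroup.map_commutator]
      exact Subgroup.commutator_mono hKmap hKmap hb2
    obtain ⟨x, hx, hxb⟩ := e1
    have : x = B * B := hinj x (hK₀le hx).1 _ (H₀.mul_mem hB hB) (by rw [hxb, map_mul, hBb])
    rw [← this]; exact hx
  have hζ2 : ζ * ζ = 1 := by
    have e1 := hA _ hBB
    have e2 : T₀ * (B * B) * T₀⁻¹ = (ζ * ζ) * (Y * Y) := by
      calc T₀ * (B * B) * T₀⁻¹ = (T₀ * B * T₀⁻¹) * (T₀ * B * T₀⁻¹) := by group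
        _ = ζ * Y * (ζ * Y) := by rw [hTB]
        _ = ζ * (Y * ζ) * Y := by simp only [mul_assoc]
        _ = ζ * (ζ * Y) * Y := by rw [hζc Y]
        _ = _ := by simp only [mul_assoc]
    rw [e2] at e1
    have e3 : ζ * ζ ∈ H₀ := by
      have := H₀.mul_mem e1 (H₀.inv_mem (H₀.mul_mem hY hY))
      rwa [mul_inv_cancel_right] at this
    exact h3 _ e3 (by rw [map_mul, MonoidHom.mem_ker.1 hζk, one_mul])
  have hnorm : (Subgroup.zpowers ζ).Normal := by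
    refine ⟨fun n hn g => ?_⟩
    obtain ⟨k, rfl⟩ := hn
    have : g * ζ ^ k * g⁻¹ = ζ ^ k := by
      rw [← conj_zpow, ← hζc g, mul_inv_cancel_right]
    show g * ζ ^ k * g⁻¹ ∈ _
    rw [this]; exact ⟨k, rfl⟩
  set H₁ := H₀ ⊔ Subgroup.zpowers ζ with hH₁
  have hH₀₁ : H₀ ≤ H₁ := le_sup_left
  have hζ₁ : ζ ∈ H₁ := (le_sup_right : Subgroup.zpowers ζ ≤ H₁) (Subgroup.mem_zpowers ζ)
  have hzk : Subgroup.zpowers ζ ≤ σ.ker := by
    rw [Subgroup.zpowers_le]; exact hζk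
  have h1' : ∀ x ∈ H₁, σ x ∈ H := by
    have : H₁ ≤ H.comap σ := by
      apply sup_le
      · exact fun x hx => h1 x hx
      · intro x hx
        show σ x ∈ H
        rw [MonoidHom.mem_ker.1 (hzk hx)]; exact H.one_mem
    exact fun x hx => this hx
  have h2' : ∀ g ∈ H, ∃ x ∈ H₁, σ x = g := by
    intro g hg
    obtain ⟨x, hx, hxg⟩ := h2 g hg
    exact ⟨x, hH₀₁ hx, hxg⟩
  have hker₁ : ∀ x ∈ H₁, σ x = 1 → x ∈ Subgroup.zpowers ζ := by
    intro x hx hx1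
    obtain ⟨y, hy, z, hz, rfl⟩ := Subgroup.mem_sup_of_normal_right.1 hx
    have hy1 : y = 1 := by
      apply h3 y hy
      rw [map_mul, MonoidHom.mem_ker.1 (hzk hz), mul_one] at hx1
      exact hx1
    rw [hy1, one_mul]; exact hz
  obtain ⟨U, hU, hUu⟩ := h2 u huH
  have hUU : U * U = 1 := h3 _ (H₀.mul_mem hU hU) (by rw [map_mul, hUu, hu2])
  have hTK : ∀ T, σ T = t → ∀ k ∈ H₁, σ k ∈ K → T * k * T⁻¹ ∈ H₁ := by
    intro T hT k hk hkK
    -- reduce to T₀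
    obtain ⟨w, hw, rfl⟩ := exists_ker_of_map_eq (hT.trans hT₀.symm)
    have hwc := h.comm_of_mem_ker hw
    have e0 : T₀ * w * k * (T₀ * w)⁻¹ = T₀ * k * T₀⁻¹ := by
      calc T₀ * w * k * (T₀ * w)⁻¹ = T₀ * (w * k) * w⁻¹ * T₀⁻¹ := by group
        _ = T₀ * (k * w) * w⁻¹ * T₀⁻¹ := by rw [hwc k]
        _ = T₀ * k * T₀⁻¹ := by group
    rw [e0]
    have hW : ⁅K₀, K₀⁆ ⊔ Subgroup.zpowers B ≤ H₁.comap (MulAut.conj T₀).toMonoidHom := by
      apply sup_le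
      · intro x hx
        exact hH₀₁ (hA x hx)
      · rw [Subgroup.zpowers_le]
        show T₀ * B * T₀⁻¹ ∈ H₁
        rw [hTB]
        exact H₁.mul_mem hζ₁ (hH₀₁ hY)
    have hle0 : ⁅K₀, K₀⁆ ⊔ Subgroup.zpowers B ≤ H₀ := by
      apply sup_le
      · exact fun x hx => (hK₀le hx).1
      · rw [Subgroup.zpowers_le]; exact hB
    have e1 : σ k ∈ (⁅K₀, K₀⁆ ⊔ Subgroup.zpowers B).map σ := by
      rw [Subgroup.map_sup, Subgroup.map_commutator, MonoidHom.map_zpowers, hBb]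
      exact sup_le_sup_right (Subgroup.commutator_mono hKmap hKmap) _ (hK hkK)
    obtain ⟨y, hy, hyk⟩ := e1
    have hz1 : y⁻¹ * k ∈ H₁ := H₁.mul_mem (H₁.inv_mem (hH₀₁ (hle0 hy))) hk
    have hz2 : y⁻¹ * k ∈ σ.ker := by
      rw [MonoidHom.mem_ker, map_mul, map_inv, hyk, inv_mul_cancel]
    have hzc := h.comm_of_mem_ker hz2
    have e2 : T₀ * k * T₀⁻¹ = (T₀ * y * T₀⁻¹) * (y⁻¹ * k) := by
      calc T₀ * k * T₀⁻¹ = T₀ * y * ((y⁻¹ * k) * T₀⁻¹) := by group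
        _ = T₀ * y * (T₀⁻¹ * (y⁻¹ * k)) := by rw [hzc]
        _ = _ := by group
    rw [e2]
    exact H₁.mul_mem (hW hy) hz1
  obtain ⟨X, hX, hX1⟩ := h.glue' H K t u hG hH hKH ht2 hu2 htu htH htK H₁ h1' h2' U (hH₀₁ hU) hUu hUU hTK
  refine ⟨ζ, hζk, hζ2, fun z hz => ?_⟩
  have e1 := h.commutator_comap_le ⊤ X (by
    intro g _
    obtain ⟨x, hx, rfl⟩ := hX g
    exact ⟨x, hx, rfl⟩)
  rw [Subgroup.comap_top] at e1
  exact hker₁ z (hX1 z (e1 (hd hz)) hz) hz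

end CExt

end Cfsg.Agent.Lib.Helper28
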