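/-
The Schur multiplier of M23 is trivial.
-/
import Cfsg.Agent.Lib.Helper28.Schur5
import Cfsg.Agent.Lib.Helper28.SporCard
set_option autoImplicit false
open Cfsg
open scoped commutatorElement
namespace Cfsg.Agent.Lib.Helper28

def eA23 : ℕ := 967237198270595335603018656432466945
def eB23 : ℕ := 959973560565328063986870286015988066
def eC23 : ℕ := 958647597513419993518369310461941955
def eD23 : ℕ := 981413334778847362470857851011251876
def pcE23 : List (ℕ × ℕ) := [(eA23, eA23), (eB23, eB23), (eC23, eC23), (eD23, eD23)]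
def s23 : ℕ := 960140851913554047273679183217887712
def t23 : ℕ := 984793914042464259937478985057934992
def r23 : ℕ := 960129481626663532034473671108629001
def ri23 : ℕ := 978313928745943874486746121610407124
def rho23 : ℕ := 960148251073084357182330055469777191
def rhoi23 : ℕ := 960136803844298983361608936356256912
def rhosq23 : ℕ := 984806797292990878012365697499365538
def e023 : ℕ := 962323784006705413376587370058093103
def cj23 : List (ℕ × ℕ) := [(981958418540938068203599560453031094, 955532973948903797763880577866701892), (960943023071903529831068163594279444, 958628378546933602386745647054344419), (981411697887582985165475911293210313, 957520287549528678081051925345814180), (961455166272475634029357131731966251, 982200110199166318567751307871395173), (967717353897354036446800131556776069, 964635536926401798183907356231389551), (962047430806033802848023322370855264, 977656005756144833268109369381457088), (967329446505634447003305414870782193, 963458088632685205601633460786007185), (963643370132712850840538853285739670,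 955530406367452147077330298561992167), (964536824747641393917545464563466534, 975685891145524875012744612403523234), (984818244535754528103549039458486304, 984818244535754528103549039458486304), (978066501135691720243817456329707632, 962565861507817804745256430801560783), (962321052058008972014817325596787345, 960942000239586177379540132225598095), (982703753800840661387833069034378454, 956284262662872550438861637573677734), (959363622090886420332285956904234646, 955627618163583545852052278365344871), (963541799547940443084958968717115889, 960863403442132428103721862664864098), (961149577405174667699566071822633206, 955714907767646670145731629937048076), (976240166190675147388111898790973060, 980371909152427847432667491878786597), (976663508224460363153251210251292740, 969137427547139306214905526690055409)]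
def x3_23 : ℕ := 975504799672534420365067488539547776
def xi3_23 : ℕ := 977983058810921419421258011726946944
def y3_23 : ℕ := 984596196465208489123314974593753312
def n3_23 : ℕ := 977780232491405351015359101098112043
def ni3_23 : ℕ := 977780232491405351015359101098112043

/-! ### generalities on packed tables -/

theorem permP_mul_eq {a b c : ℕ} (ha : validP a = true) (hb : validP b = true) (hc : validP c = true)
    (h : mulP a b = c) : permP a * permP b = permP c :=
  tb_injective (by rw [tb_mul, tb_permP ha, tb_permP hb, tb_permP hc, h])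

theorem permP_mul_eq_one {a b : ℕ} (ha : validP a = true) (hb : validP b = true)
    (h : mulP a b = idP) : permP a * permP b = 1 :=
  tb_injective (by rw [tb_mul, tb_permP ha, tb_permP hb, tb_one, h])

/-- conjugation on tables -/
def cjP (A A' t : ℕ) : ℕ := mulP (mulP A t) A'

theorem tb_conj {A A' : ℕ} (hA : validP A = true) (hA' : validP A' = true) (h : mulP A A' = idP)
    (x : Equiv.Perm GolayPt) : tb (permP A * x * (permP A)⁻¹) = cjP A A' (tb x) := by
  rw [← permP_inv hA hA' h, tb_mul, tb_mul, tb_permP hA, tb_permP hA']; rfl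

def invOK (A A' : ℕ) : Bool := validP A && validP A' && Nat.beq (mulP A A') idP

theorem invOK_spec {A A' : ℕ} (h : invOK A A' = true) : validP A = true ∧ validP A' = true ∧ mulP A A' = idP := by
  simp only [invOK, Bool.and_eq_true, Nat.beq_eq] at h
  exact ⟨h.1.1, h.1.2, h.2⟩

theorem conj_mem_of_chk {H : Subgroup (Equiv.Perm GolayPt)} {L : List ℕ} (hE : Enum H L) {A A' : ℕ}
    (hA : invOK A A' = true) (hchk : ∀ t ∈ L, memN (cjP A A' t) L = true) :
    ∀ x ∈ H, permP A * x * (permP A)⁻¹ ∈ H := by
  intro x hx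
  obtain ⟨h1, h2, h3⟩ := invOK_spec hA
  rw [hE.mem_iff, tb_conj h1 h2 h3, ← memN_iff]
  exact hchk _ ((hE.mem_iff x).1 hx)

/-- the conjugacy certificate -/
def cjOK (inK : ℕ → Bool) (cs : List (ℕ × ℕ)) (e0 t : ℕ) : Bool :=
  cs.any (fun c => inK c.1 && invOK c.1 c.2 && Nat.beq (cjP c.1 c.2 e0) t)

theorem cjOK_spec {K : Subgroup (Equiv.Perm GolayPt)} {inK : ℕ → Bool} (hK : ∀ t, inK t = true → permP t ∈ K)
    {cs : List (ℕ × ℕ)} {e0 : ℕ} (he0 : validP e0 = true) {x : Equiv.Perm GolayPt}
    (h : cjOK inK cs e0 (tb x) = true) : ∃ c ∈ K, x = c * permP e0 * c⁻¹ := by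
  simp only [cjOK, List.any_eq_true, Bool.and_eq_true, Nat.beq_eq] at h
  obtain ⟨c, -, ⟨h1, h2⟩, h3⟩ := h
  obtain ⟨k1, k2, k3⟩ := invOK_spec h2
  refine ⟨permP c.1, hK _ h1, tb_injective ?_⟩
  rw [tb_conj k1 k2 k3, tb_permP he0, h3]

/-! ### the data for M23 -/

def pcQ1 : List (ℕ × ℕ) := (rhosq23, rhosq23) :: pcE23
def pcQ2 : List (ℕ × ℕ) := (rho23, rhoi23) :: pcQ1
def pcP23 : List (ℕ × ℕ) := (s23, s23) :: pcQ2

theorem pcE23_ok : pcOK pcE23 = true := by decide +kernel
theorem pcQ1_ok : pcOK pcQ1 = true := by decide +kernel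
theorem pcQ2_ok : pcOK pcQ2 = true := by decide +kernel
theorem pcP23_ok : pcOK pcP23 = true := by decide +kernel
theorem pcP23_in : pcP23.all (fun a => inM23P a.1) = true := by decide +kernel

theorem inv_r23 : invOK r23 ri23 = true := by decide +kernel
theorem inv_s23 : invOK s23 s23 = true := by decide +kernel
theorem inv_t23 : invOK t23 t23 = true := by decide +kernel
theorem inv_e023 : invOK e023 e023 = true := by decide +kernel
theorem in_r23 : inM23P r23 = true := by decide +kernel
theorem in_s23 : inM23P s23 = true := by decide +kernel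
theorem in_t23 : inM23P t23 = true := by decide +kernel
theorem in_e023 : inM23P e023 = true := by decide +kernel

theorem chkE_sq : ∀ t ∈ dbl pcE23, mulP t t = idP := by decide +kernel
theorem chkE_cj : ∀ t ∈ dbl pcE23, (Nat.beq t idP || cjOK inM23P cj23 e023 t) = true := by decide +kernel
theorem chkE_r : ∀ t ∈ dbl pcE23, memN (cjP r23 ri23 t) (dbl pcE23) = true := by decide +kernel
theorem chkE_s : ∀ t ∈ dbl pcE23, memN (cjP s23 s23 t) (dbl pcE23) = true := by decide +kernel
theorem chkE_t : ∀ t ∈ dbl pcE23, memN (cjP t23 t23 t) (dbl pcE23) = true := by decide +kernel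
theorem chkE_N : ∀ t ∈ dbl pcE23, mulP (mulP t (cjP r23 ri23 t)) (cjP r23 ri23 (cjP r23 ri23 t)) = idP := by
  decide +kernel
theorem chk_s : cjOK inM23P cj23 e023 s23 = true := by decide +kernel
theorem chk_t : cjOK inM23P cj23 e023 t23 = true := by decide +kernel
theorem chk_rhosq : cjOK inM23P cj23 e023 rhosq23 = true := by decide +kernel
theorem chk_st : mulP s23 t23 = rho23 := by decide +kernel
theorem chk_rho2 : mulP rho23 rho23 = rhosq23 := by decide +kernel
theorem valid_rho : validP rho23 = true := by decide +kernel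
theorem valid_rhosq : validP rhosq23 = true := by decide +kernel
theorem chk_r3 : mulP r23 (mulP r23 r23) = idP := by decide +kernel
theorem chk_sr : cjP s23 s23 r23 = ri23 := by decide +kernel
theorem chk_tr : cjP t23 t23 r23 = r23 := by decide +kernel

theorem chk_r3' : mulP (mulP r23 r23) r23 = idP := by decide +kernel
theorem chk_ne : [eA23, eB23, eC23, mulP eA23 eB23, mulP eA23 eC23, mulP eB23 eC23,
    mulP eA23 (mulP eB23 eC23)].all (fun t => !(Nat.beq t idP)) = true := by decide +kernel
theorem chk_n1 : memN rhosq23 (dbl pcE23) = false := by decide +kernel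
theorem chk_n2 : memN rho23 (dbl pcQ1) = false := by decide +kernel
theorem chk_n3 : memN s23 (dbl pcQ2) = false := by decide +kernel

theorem pcGrp_mono (a : ℕ × ℕ) (as : List (ℕ × ℕ)) : pcGrp as ≤ pcGrp (a :: as) := by
  unfold pcGrp
  apply Subgroup.closure_mono
  rintro g ⟨b, hb, rfl⟩
  exact ⟨b, List.mem_cons_of_mem _ hb, rfl⟩

theorem pcP23_le : pcGrp pcP23 ≤ Spor.M23 := pcGrp_le inM23P_spec pcP23_in
theorem pcQ2_le : pcGrp pcQ2 ≤ Spor.M23 := (pcGrp_mono _ _).trans pcP23_le
theorem pcQ1_le : pcGrp pcQ1 ≤ Spor.M23 := (pcGrp_mono _ _).trans pcQ2_le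
theorem pcE23_le : pcGrp pcE23 ≤ Spor.M23 := (pcGrp_mono _ _).trans pcQ1_le

theorem not_mem_of_memN {H : Subgroup (Equiv.Perm GolayPt)} {L : List ℕ} (hE : Enum H L) {t : ℕ}
    (hv : validP t = true) (h : memN t L = false) : permP t ∉ H := by
  rw [hE.mem_iff, tb_permP hv, ← memN_iff, h]; simp

theorem M23_two {Γ : Type*} [Group Γ] [Finite Γ] (σ : Γ →* Spor.M23) (hσ : IsStemExtension σ)
    (hcard : Nat.card σ.ker = 2) : False := by
  have hC : CExt σ := ⟨hσ.1, hσ.2.1⟩
  have hEn := pcOK_spec pcE23_ok
  obtain ⟨vr, vri, hri⟩ := invOK_spec inv_r23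
  obtain ⟨vs, -, hss⟩ := invOK_spec inv_s23
  obtain ⟨vt, -, htt⟩ := invOK_spec inv_t23
  obtain ⟨ve, -, hee⟩ := invOK_spec inv_e023
  have vA : validP eA23 = true := pcOK_valid pcE23_ok (eA23, eA23) (by simp [pcE23])
  have vB : validP eB23 = true := pcOK_valid pcE23_ok (eB23, eB23) (by simp [pcE23])
  have vC : validP eC23 = true := pcOK_valid pcE23_ok (eC23, eC23) (by simp [pcE23])
  have mA : permP eA23 ∈ pcGrp pcE23 := permP_mem_pcGrp (a := (eA23, eA23)) (by simp [pcE23])
  have mB : permP eB23 ∈ pcGrp pcE23 := permP_mem_pcGrp (a := (eB23, eB23)) (by simp [pcE23])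
  have mC : permP eC23 ∈ pcGrp pcE23 := permP_mem_pcGrp (a := (eC23, eC23)) (by simp [pcE23])
  have hst : permP s23 * permP t23 = permP rho23 := permP_mul_eq vs vt valid_rho chk_st
  have hrr : permP rho23 * permP rho23 = permP rhosq23 := permP_mul_eq valid_rho valid_rho valid_rhosq chk_rho2
  have hstst : permP s23 * permP t23 * (permP s23 * permP t23) = permP rhosq23 := by rw [hst, hrr]
  let r' : Spor.M23 := ⟨permP r23, inM23P_spec _ in_r23⟩
  let s' : Spor.M23 := ⟨permP s23, inM23P_spec _ in_s23⟩
  let t' : Spor.M23 := ⟨permP t23, inM23P_spec _ in_t23⟩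
  let e0' : Spor.M23 := ⟨permP e023, inM23P_spec _ in_e023⟩
  let eA' : Spor.M23 := ⟨permP eA23, pcE23_le mA⟩
  let eB' : Spor.M23 := ⟨permP eB23, pcE23_le mB⟩
  let eC' : Spor.M23 := ⟨permP eC23, pcE23_le mC⟩
  have hne := chk_ne
  simp only [List.all_cons, List.all_nil, Bool.and_eq_true, Bool.not_eq_true', Bool.and_true] at hne
  have hne1 : ∀ (x : Spor.M23), Nat.beq (tb (x : Equiv.Perm GolayPt)) idP = false → x ≠ 1 := by
    intro x hx h
    rw [h] at hx
    have : tb ((1 : Spor.M23) : Equiv.Perm GolayPt) = idP := tb_one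
    rw [this] at hx
    simp at hx
  have hcj : ∀ x : Spor.M23, cjOK inM23P cj23 e023 (tb (x : Equiv.Perm GolayPt)) = true →
      ∃ c : Spor.M23, x = c * e0' * c⁻¹ := by
    intro x hx
    obtain ⟨c, hc, hxc⟩ := cjOK_spec inM23P_spec ve hx
    exact ⟨⟨c, hc⟩, Subtype.ext hxc⟩
  apply stem_prime_false σ hσ Nat.prime_two hcard ((pcGrp pcP23).subgroupOf Spor.M23) 7 79695
    (by rw [card_sporM23]; norm_num) (by norm_num)
    (by
      rw [Nat.card_congr (Subgroup.subgroupOfEquivOfLe pcP23_le).toEquiv, card_pcGrp pcP23_ok]; rfl)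
  apply hC.two_part hcard ((pcGrp pcE23).subgroupOf Spor.M23) ((pcGrp pcQ1).subgroupOf Spor.M23)
    ((pcGrp pcQ2).subgroupOf Spor.M23) e0' r' s' t' eA' eB' eC'
  · intro x hx
    apply Subtype.ext
    apply tb_injective
    show tb ((x : Equiv.Perm GolayPt) * x) = tb 1
    rw [tb_mul, tb_one]
    exact chkE_sq _ ((hEn.mem_iff _).1 hx)
  · exact Subtype.ext (permP_mul_eq_one ve ve hee)
  · intro x hx hx1
    have := chkE_cj _ ((hEn.mem_iff _).1 hx)
    simp only [Bool.or_eq_true, Nat.beq_eq] at this
    rcases this with h | h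
    · exfalso
      apply hx1
      apply Subtype.ext
      apply tb_injective
      exact h.trans tb_one.symm
    · exact hcj x h
  · exact mA
  · exact mB
  · exact mC
  · refine ⟨hne1 _ ?_, hne1 _ ?_, hne1 _ ?_, hne1 _ ?_, hne1 _ ?_, hne1 _ ?_, hne1 _ ?_⟩
    · show Nat.beq (tb (permP eA23)) idP = false
      rw [tb_permP vA]; exact hne.1
    · show Nat.beq (tb (permP eB23)) idP = false
      rw [tb_permP vB]; exact hne.2.1
    · show Nat.beq (tb (permP eC23)) idP = false
      rw [tb_permP vC]; exact hne.2.2.1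
    · show Nat.beq (tb (permP eA23 * permP eB23)) idP = false
      rw [tb_mul, tb_permP vA, tb_permP vB]; exact hne.2.2.2.1
    · show Nat.beq (tb (permP eA23 * permP eC23)) idP = false
      rw [tb_mul, tb_permP vA, tb_permP vC]; exact hne.2.2.2.2.1
    · show Nat.beq (tb (permP eB23 * permP eC23)) idP = false
      rw [tb_mul, tb_permP vB, tb_permP vC]; exact hne.2.2.2.2.2.1
    · show Nat.beq (tb (permP eA23 * (permP eB23 * permP eC23))) idP = false
      rw [tb_mul, tb_mul, tb_permP vA, tb_permP vB, tb_permP vC]; exact hne.2.2.2.2.2.2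
  · apply hcj
    show cjOK inM23P cj23 e023 (tb (permP s23)) = true
    rw [tb_permP vs]; exact chk_s
  · apply hcj
    show cjOK inM23P cj23 e023 (tb (permP t23)) = true
    rw [tb_permP vt]; exact chk_t
  · apply hcj
    show cjOK inM23P cj23 e023 (tb (permP s23 * permP t23 * (permP s23 * permP t23))) = true
    rw [hstst, tb_permP valid_rhosq]; exact chk_rhosq
  · apply Subtype.ext
    apply tb_injective
    show tb (permP r23 ^ 3) = tb 1
    rw [pow_succ, pow_two, tb_mul, tb_mul, tb_permP vr, tb_one]; exact chk_r3'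
  · intro x hx
    exact conj_mem_of_chk hEn inv_r23 chkE_r x hx
  · intro x hx
    apply Subtype.ext
    apply tb_injective
    show tb ((x : Equiv.Perm GolayPt) * (permP r23 * x * (permP r23)⁻¹) *
      (permP r23 * (permP r23 * x * (permP r23)⁻¹) * (permP r23)⁻¹)) = tb 1
    rw [tb_mul, tb_mul, tb_conj vr vri hri (permP r23 * x * (permP r23)⁻¹), tb_conj vr vri hri x, tb_one]
    exact chkE_N _ ((hEn.mem_iff _).1 hx)
  · intro x hx
    exact conj_mem_of_chk hEn inv_s23 chkE_s x hx
  · intro x hx
    exact conj_mem_of_chk hEn inv_t23 chkE_t x hx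
  · right
    apply Subtype.ext
    apply tb_injective
    show tb (permP s23 * permP r23 * (permP s23)⁻¹) = tb (permP r23)⁻¹
    rw [tb_conj vs vs hss, tb_permP vr, ← permP_inv vr vri hri, tb_permP vri]; exact chk_sr
  · left
    apply Subtype.ext
    apply tb_injective
    show tb (permP t23 * permP r23 * (permP t23)⁻¹) = tb (permP r23)
    rw [tb_conj vt vt htt, tb_permP vr]; exact chk_tr
  · intro x hx
    exact pcGrp_mono _ _ hx
  · intro x hx
    exact pcGrp_mono _ _ hx
  · show permP s23 * permP t23 * (permP s23 * permP t23) ∉ pcGrp pcE23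
    rw [hstst]; exact not_mem_of_memN hEn valid_rhosq chk_n1
  · show permP s23 * permP t23 * (permP s23 * permP t23) ∈ pcGrp pcQ1
    rw [hstst]; exact permP_mem_pcGrp (a := (rhosq23, rhosq23)) (by simp [pcQ1])
  · show permP s23 * permP t23 ∉ pcGrp pcQ1
    rw [hst]; exact not_mem_of_memN (pcOK_spec pcQ1_ok) valid_rho chk_n2
  · show permP s23 * permP t23 ∈ pcGrp pcQ2
    rw [hst]; exact permP_mem_pcGrp (a := (rho23, rhoi23)) (by simp [pcQ2])
  · exact not_mem_of_memN (pcOK_spec pcQ2_ok) vs chk_n3
  · set W := Subgroup.closure (insert s' (insert (s' * t') (insert ((s' * t') * (s' * t'))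
      (((pcGrp pcE23).subgroupOf Spor.M23 : Subgroup Spor.M23) : Set Spor.M23)))) with hW
    have hle : pcGrp pcP23 ≤ W.map Spor.M23.subtype := by
      unfold pcGrp
      rw [Subgroup.closure_le]
      rintro g ⟨a, ha, rfl⟩
      simp only [pcP23, pcQ2, pcQ1, List.mem_cons] at ha
      rcases ha with rfl | rfl | rfl | ha
      · exact ⟨s', Subgroup.subset_closure (Set.mem_insert _ _), rfl⟩
      · exact ⟨s' * t', Subgroup.subset_closure (Set.mem_insert_of_mem _ (Set.mem_insert _ _)), hst⟩
      · exact ⟨(s' * t') * (s' * t'), Subgroup.subset_closure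
          (Set.mem_insert_of_mem _ (Set.mem_insert_of_mem _ (Set.mem_insert _ _))), hstst⟩
      · have hm : permP a.1 ∈ pcGrp pcE23 := permP_mem_pcGrp ha
        exact ⟨⟨permP a.1, pcE23_le hm⟩, Subgroup.subset_closure
          (Set.mem_insert_of_mem _ (Set.mem_insert_of_mem _ (Set.mem_insert_of_mem _ hm))), rfl⟩
    intro x hx
    obtain ⟨w, hw, hwx⟩ := hle hx
    have : w = x := Subtype.ext hwx
    rw [← this]; exact hw

/-- certificate for an elementary abelian subgroup of order nine with an inverting element -/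
def threeOK (inK : ℕ → Bool) (x xi y n ni : ℕ) : Bool :=
  inK x && inK y && inK n && invOK x xi && invOK n ni && validP y &&
  Nat.beq (mulP x y) (mulP y x) && Nat.beq (mulP (mulP x x) x) idP && Nat.beq (mulP (mulP y y) y) idP &&
  !(Nat.beq x idP) && !(Nat.beq y idP) && !(Nat.beq y x) && !(Nat.beq y (mulP x x)) &&
  Nat.beq (cjP n ni x) xi && Nat.beq (cjP n ni y) y

theorem three_false {K : Subgroup (Equiv.Perm GolayPt)} {inK : ℕ → Bool} (hK : ∀ t, inK t = true → permP t ∈ K)
    {x xi y n ni : ℕ} (hchk : threeOK inK x xi y n ni = true) (m : ℕ) (hKc : Nat.card K = 3 ^ 2 * m)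
    (hm : ¬ 3 ∣ m) {Γ : Type*} [Group Γ] [Finite Γ] (σ : Γ →* K) (hσ : IsStemExtension σ)
    (hcard : Nat.card σ.ker = 3) : False := by
  classical
  have hC : CExt σ := ⟨hσ.1, hσ.2.1⟩
  simp only [threeOK, Bool.and_eq_true, Nat.beq_eq, Bool.not_eq_true'] at hchk
  obtain ⟨⟨⟨⟨⟨⟨⟨⟨⟨⟨⟨⟨⟨⟨i1, i2⟩, i3⟩, i4⟩, i5⟩, vy⟩, c1⟩, c2⟩, c3⟩, c4⟩, c5⟩, c6⟩, c7⟩, c8⟩, c9⟩ := hchk
  obtain ⟨vx, vxi, hxi⟩ := invOK_spec i4
  obtain ⟨vn, vni, hni⟩ := invOK_spec i5
  let x' : K := ⟨permP x, hK _ i1⟩
  let y' : K := ⟨permP y, hK _ i2⟩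
  let n' : K := ⟨permP n, hK _ i3⟩
  have hxy : x' * y' = y' * x' := by
    apply Subtype.ext
    apply tb_injective
    show tb (permP x * permP y) = tb (permP y * permP x)
    rw [tb_mul, tb_mul, tb_permP vx, tb_permP vy, c1]
  have hx3 : x' ^ 3 = 1 := by
    apply Subtype.ext
    apply tb_injective
    show tb (permP x ^ 3) = tb 1
    rw [pow_succ, pow_two, tb_mul, tb_mul, tb_permP vx, tb_one, c2]
  have hy3 : y' ^ 3 = 1 := by
    apply Subtype.ext
    apply tb_injective
    show tb (permP y ^ 3) = tb 1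
    rw [pow_succ, pow_two, tb_mul, tb_mul, tb_permP vy, tb_one, c3]
  have hne : ∀ (a b : K), Nat.beq (tb (a : Equiv.Perm GolayPt)) (tb (b : Equiv.Perm GolayPt)) = false → a ≠ b := by
    intro a b hab h
    rw [h] at hab
    simp at hab
  have hx1 : x' ≠ 1 := by
    apply hne
    show Nat.beq (tb (permP x)) (tb 1) = false
    rw [tb_permP vx, tb_one, c4]
  have hox : orderOf x' = 3 := orderOf_eq_prime hx3 hx1
  have hy : y' ∉ Subgroup.zpowers x' := by
    rw [mem_zpowers_iff_mem_range_orderOf, hox]
    simp only [Finset.mem_image, Finset.mem_range, not_exists, not_and]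
    intro k hk
    apply Ne.symm
    apply hne
    interval_cases k
    · show Nat.beq (tb (permP y)) (tb 1) = false
      rw [tb_permP vy, tb_one, c5]
    · show Nat.beq (tb (permP y)) (tb (permP x ^ 1)) = false
      rw [pow_one, tb_permP vy, tb_permP vx, c6]
    · show Nat.beq (tb (permP y)) (tb (permP x ^ 2)) = false
      rw [pow_two, tb_mul, tb_permP vy, tb_permP vx, c7]
  have h27 : ¬ 27 ∣ Nat.card K := by
    rw [hKc]
    intro hd
    apply hm
    have : (3 : ℕ) ^ 2 * 3 ∣ 3 ^ 2 * m := by simpa using hd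
    exact Nat.dvd_of_mul_dvd_mul_left (by norm_num) this
  have hP := card_closure_pair_three x' y' hxy hx3 hy3 hx1 hy h27
  apply stem_prime_false σ hσ Nat.prime_three hcard (Subgroup.closure {x', y'}) 2 m hKc hm (by rw [hP]; norm_num)
  intro z _ hz
  rw [hC.commutator_comap_eq_bot_of_inverting x' y' n' hxy hx3 ?_ ?_] at hz
  · exact Subgroup.mem_bot.1 hz
  · apply Subtype.ext
    apply tb_injective
    show tb (permP n * permP x * (permP n)⁻¹) = tb (permP x)⁻¹
    rw [tb_conj vn vni hni, tb_permP vx, ← permP_inv vx vxi hxi, tb_permP vxi, c8]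
  · apply Subtype.ext
    apply tb_injective
    show tb (permP n * permP y * (permP n)⁻¹) = tb (permP y)
    rw [tb_conj vn vni hni, tb_permP vy, c9]

theorem three23_ok : threeOK inM23P x3_23 xi3_23 y3_23 n3_23 ni3_23 = true := by decide +kernel

theorem not_sq_dvd_M23 {p : ℕ} (hp : p.Prime) (h2 : p ≠ 2) (h3 : p ≠ 3) : ¬ p ^ 2 ∣ 10200960 := by
  intro hd
  have hcop : Nat.Coprime (p ^ 2) 1152 := by
    apply Nat.Coprime.pow_left
    rw [Nat.Prime.coprime_iff_not_dvd hp]
    intro h
    have h' : p ∣ 2 ^ 7 * 3 ^ 2 := by norm_num; exact h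
    rcases (Nat.Prime.dvd_mul hp).1 h' with h | h
    · exact h2 ((Nat.prime_dvd_prime_iff_eq hp Nat.prime_two).1 (hp.dvd_of_dvd_pow h))
    · exact h3 ((Nat.prime_dvd_prime_iff_eq hp Nat.prime_three).1 (hp.dvd_of_dvd_pow h))
  have hd' : p ^ 2 ∣ 1152 * 8855 := by norm_num; exact hd
  have h4 := hcop.dvd_of_dvd_mul_left hd'
  have h5 := Nat.le_of_dvd (by norm_num) h4
  have h6 : p ≤ 94 := by nlinarith
  have h7 : 2 ≤ p := hp.two_le
  interval_cases p <;> first | omega | (revert h4; norm_num; done) | (revert hp; norm_num; done)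

theorem multiplier_M23 : HasCyclicSchurMultiplier Spor.M23 1 := by
  apply trivial_multiplier_of_no_prime_stem
  intro p Γ _ _ σ hp hσ hc
  by_cases h2 : p = 2
  · subst h2; exact M23_two σ hσ hc
  by_cases h3 : p = 3
  · subst h3
    exact three_false inM23P_spec three23_ok 1133440 (by rw [card_sporM23]; norm_num) (by norm_num) σ hσ hc
  · exact stem_prime_false_of_sq σ hσ hp hc (by rw [card_sporM23]; exact not_sq_dvd_M23 hp h2 h3)

end Cfsg.Agent.Lib.Helper28
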