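/-
The Schur multiplier of M11 is trivial.
-/
import Cfsg.Agent.Lib.Helper28.Schur7
import Cfsg.Agent.Lib.Helper28.SchurM23
set_option autoImplicit false
open Cfsg
open scoped commutatorElement
namespace Cfsg.Agent.Lib.Helper28

def a11 : ℕ := 298219048105281147925419584865471552
def ai11 : ℕ := 892606707735054621644479155937543424
def b11 : ℕ := 858949039613306814270515363285830048
def asq11 : ℕ := 641562190592512525849550319157519456
def asqi11 : ℕ := 840428681443709194468743617575952800
def aq11 : ℕ := 235863649240358179170700359039883776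
def x3_11 : ℕ := 424942762087689257937405881162698816
def xi3_11 : ℕ := 796353730535638246152752447206458496
def y3_11 : ℕ := 422744641219535656573655626393469216
def n3_11 : ℕ := 944171812893421266547626144892749952
def ni3_11 : ℕ := 944171812893421266547626144892749952

def pcSD11 : List (ℕ × ℕ) := [(b11, b11), (a11, ai11), (asq11, asqi11), (aq11, aq11)]

theorem pcSD11_ok : pcOK pcSD11 = true := by decide +kernel
theorem pcSD11_in : pcSD11.all (fun a => inM11P a.1) = true := by decide +kernel
theorem in_a11 : inM11P a11 = true := by decide +kernel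
theorem in_b11 : inM11P b11 = true := by decide +kernel
theorem inv_b11 : invOK b11 b11 = true := by decide +kernel
theorem val_a11 : validP a11 = true := by decide +kernel
theorem val_asq11 : validP asq11 = true := by decide +kernel
theorem val_aq11 : validP aq11 = true := by decide +kernel
theorem chk_asq11 : mulP a11 a11 = asq11 := by decide +kernel
theorem chk_aq11 : mulP asq11 asq11 = aq11 := by decide +kernel
theorem chk_aq11_ne : aq11 ≠ idP := by decide +kernel
theorem chk_ba11 : cjP b11 b11 a11 = mulP asq11 a11 := by decide +kernel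
theorem three11_ok : threeOK inM11P x3_11 xi3_11 y3_11 n3_11 ni3_11 = true := by decide +kernel

theorem pcSD11_le : pcGrp pcSD11 ≤ Spor.M11 := pcGrp_le inM11P_spec pcSD11_in

theorem M11_two {Γ : Type*} [Group Γ] [Finite Γ] (σ : Γ →* Spor.M11) (hσ : IsStemExtension σ)
    (hcard : Nat.card σ.ker = 2) : False := by
  have hC : CExt σ := ⟨hσ.1, hσ.2.1⟩
  obtain ⟨vb, -, hbb⟩ := invOK_spec inv_b11
  have va := val_a11
  let a' : Spor.M11 := ⟨permP a11, inM11P_spec _ in_a11⟩
  let b' : Spor.M11 := ⟨permP b11, inM11P_spec _ in_b11⟩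
  have haa : permP a11 * permP a11 = permP asq11 := permP_mul_eq va va val_asq11 chk_asq11
  have haaaa : permP asq11 * permP asq11 = permP aq11 := permP_mul_eq val_asq11 val_asq11 val_aq11 chk_aq11
  have hker : ∀ z ∈ σ.ker, z * z = 1 := by
    intro z hz
    have := pow_card_eq_one' (G := σ.ker) (x := ⟨z, hz⟩)
    rw [hcard, pow_two] at this
    exact congrArg Subtype.val this
  apply stem_prime_false σ hσ Nat.prime_two hcard ((pcGrp pcSD11).subgroupOf Spor.M11) 4 495
    (by rw [card_sporM11]; norm_num) (by norm_num)
    (by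
      rw [Nat.card_congr (Subgroup.subgroupOfEquivOfLe pcSD11_le).toEquiv, card_pcGrp pcSD11_ok]; rfl)
  have hle : (pcGrp pcSD11).subgroupOf Spor.M11 ≤ Subgroup.closure {a', b'} := by
    have hle' : pcGrp pcSD11 ≤ (Subgroup.closure {a', b'}).map Spor.M11.subtype := by
      have ma : a' ∈ Subgroup.closure {a', b'} := Subgroup.subset_closure (by simp)
      have mb : b' ∈ Subgroup.closure {a', b'} := Subgroup.subset_closure (by simp)
      unfold pcGrp
      rw [Subgroup.closure_le]
      rintro g ⟨x, hx, rfl⟩
      simp only [pcSD11, List.mem_cons, List.not_mem_nil, or_false] at hx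
      rcases hx with rfl | rfl | rfl | rfl
      · exact ⟨b', mb, rfl⟩
      · exact ⟨a', ma, rfl⟩
      · exact ⟨a' * a', Subgroup.mul_mem _ ma ma, haa⟩
      · exact ⟨a' * a' * (a' * a'), Subgroup.mul_mem _ (Subgroup.mul_mem _ ma ma) (Subgroup.mul_mem _ ma ma), by
          show permP a11 * permP a11 * (permP a11 * permP a11) = _
          rw [haa, haaaa]⟩
    intro x hx
    obtain ⟨w, hw, hwx⟩ := hle' hx
    have : w = x := Subtype.ext hwx
    rw [← this]; exact hw
  intro z hz hzc
  refine hC.semidihedral a' b' ?_ ?_ ?_ hker z hz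
    (Subgroup.commutator_mono (Subgroup.comap_mono hle) (Subgroup.comap_mono hle) hzc)
  · exact Subtype.ext (permP_mul_eq_one vb vb hbb)
  · apply Subtype.ext
    apply tb_injective
    show tb (permP b11 * permP a11 * (permP b11)⁻¹) = tb (permP a11 * permP a11 * permP a11)
    rw [tb_conj vb vb hbb, tb_permP va, haa, tb_mul, tb_permP val_asq11, tb_permP va]; exact chk_ba11
  · intro hh
    have h1 : permP a11 * permP a11 * (permP a11 * permP a11) = 1 := congrArg Subtype.val hh
    rw [haa, haaaa] at h1
    have := congrArg tb h1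
    rw [tb_permP val_aq11, tb_one] at this
    exact chk_aq11_ne this

theorem not_sq_dvd_M11 {p : ℕ} (hp : p.Prime) (h2 : p ≠ 2) (h3 : p ≠ 3) : ¬ p ^ 2 ∣ 7920 := by
  intro h
  have h4 : p ^ 2 ≤ 7920 := Nat.le_of_dvd (by norm_num) h
  have h6 : p ≤ 89 := by nlinarith
  have h7 : 2 ≤ p := hp.two_le
  interval_cases p <;> first | omega | (revert h; norm_num; done) | (revert hp; norm_num; done)

theorem multiplier_M11 : HasCyclicSchurMultiplier Spor.M11 1 := by
  apply trivial_multiplier_of_no_prime_stem
  intro p Γ _ _ σ hp hσ hc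
  by_cases h2 : p = 2
  · subst h2; exact M11_two σ hσ hc
  by_cases h3 : p = 3
  · subst h3
    exact three_false inM11P_spec three11_ok 880 (by rw [card_sporM11]; norm_num) (by norm_num) σ hσ hc
  · exact stem_prime_false_of_sq σ hσ hp hc (by rw [card_sporM11]; exact not_sq_dvd_M11 hp h2 h3)

end Cfsg.Agent.Lib.Helper28
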