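/-
The Schur multiplier of M24 is trivial: glue a splitting over M23.
-/
import Cfsg.Agent.Lib.Helper28.Schur6
import Cfsg.Agent.Lib.Helper28.SchurM23
import Cfsg.Agent.S0377
import Cfsg.Agent.S0379
set_option autoImplicit false
open Cfsg
open scoped commutatorElement
namespace Cfsg.Agent.Lib.Helper28

universe u

theorem perfect_of_simple {G : Type*} [Group G] (H : Subgroup G) [IsSimpleGroup H] (a b : G) (ha : a ∈ H)
    (hb : b ∈ H) (hab : a * b ≠ b * a) : H ≤ ⁅H, H⁆ := by
  rcases (inferInstance : (commutator H).Normal).eq_bot_or_eq_top with h | h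
  · exfalso
    apply hab
    have h1 : ⁅(⟨a, ha⟩ : H), ⟨b, hb⟩⁆ ∈ commutator H :=
      Subgroup.commutator_mem_commutator (Subgroup.mem_top _) (Subgroup.mem_top _)
    rw [h, Subgroup.mem_bot, commutatorElement_eq_one_iff_mul_comm] at h1
    exact congrArg Subtype.val h1
  · rw [← Subgroup.map_subtype_commutator, h]
    intro x hx
    exact ⟨⟨x, hx⟩, Subgroup.mem_top _, rfl⟩

theorem ker_eq_bot_of_multiplier_one {G G' : Type u} [Group G] [Group G'] (hG : HasCyclicSchurMultiplier G 1)
    (e : G' ≃* G) (Γ : Type u) [Group Γ] [Finite Γ] (τ : Γ →* G') (hτ : IsStemExtension τ) : τ.ker = ⊥ := by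
  have hk : (e.toMonoidHom.comp τ).ker = τ.ker := by
    ext x; simp [MonoidHom.mem_ker]
  have hs : IsStemExtension (e.toMonoidHom.comp τ) := by
    refine ⟨e.surjective.comp hτ.1, ?_, ?_⟩
    · rw [hk]; exact hτ.2.1
    · rw [hk]; exact hτ.2.2
  obtain ⟨π, hπ⟩ := hG.2 Γ _ hs
  rw [← hk, eq_bot_iff]
  intro x hx
  obtain ⟨y, hy⟩ := hπ ⟨x, hx⟩
  have h2 : Subsingleton (Multiplicative (ZMod 1)) := by
    show Subsingleton (ZMod 1); infer_instance
  have : y = 1 := Subsingleton.elim _ _
  rw [this, map_one] at hy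
  exact Subgroup.mem_bot.2 (congrArg Subtype.val hy).symm

theorem trivial_multiplier_of_ker_bot (G : Type u) [Group G] [Finite G]
    (h : ∀ (Γ : Type u) [Group Γ] [Finite Γ] (σ : Γ →* G), IsStemExtension σ → σ.ker = ⊥) :
    HasCyclicSchurMultiplier G 1 := by
  apply trivial_multiplier_of_no_prime_stem
  intro p Γ _ _ σ hp hσ hc
  rw [h Γ σ hσ, Subgroup.card_bot] at hc
  exact hp.one_lt.ne hc

def t24 : ℕ := 20332486855309844224833258579412023
def u24 : ℕ := 971814605516929962114296071457984513
def a22 : ℕ := 974012622038974422156728601163248864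
def b22 : ℕ := 983171408060494778440699937005508032

theorem in_t24 : inM24P t24 = true := by decide +kernel
theorem in_u24 : inM24P u24 = true := by decide +kernel
theorem in_a22 : inM22P a22 = true := by decide +kernel
theorem in_b22 : inM22P b22 = true := by decide +kernel
theorem val_t24 : validP t24 = true := by decide +kernel
theorem val_u24 : validP u24 = true := by decide +kernel
theorem val_a22 : validP a22 = true := by decide +kernel
theorem val_b22 : validP b22 = true := by decide +kernel
theorem t24_sq : mulP t24 t24 = idP := by decide +kernel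
theorem u24_sq : mulP u24 u24 = idP := by decide +kernel
theorem tu24 : mulP (mulP t24 u24) t24 = mulP (mulP u24 t24) u24 := by decide +kernel
theorem ab22 : mulP a22 b22 ≠ mulP b22 a22 := by decide +kernel

theorem a22_b22_ne : permP a22 * permP b22 ≠ permP b22 * permP a22 := by
  intro h
  have := congrArg tb h
  rw [tb_mul, tb_mul, tb_permP val_a22, tb_permP val_b22] at this
  exact ab22 this

theorem t24_none : permP t24 none = some 0 := by
  have := permP_apply_pt in_t24 (x := 23) (by norm_num)
  exact this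
theorem t24_zero : permP t24 (some 0) = none := by
  have := permP_apply_pt in_t24 (x := 0) (by norm_num)
  exact this
theorem u24_none : permP u24 none = none := by
  have := permP_apply_pt in_u24 (x := 23) (by norm_num)
  exact this
theorem u24_zero : permP u24 (some 0) = some 1 := by
  have := permP_apply_pt in_u24 (x := 0) (by norm_num)
  exact this
theorem u24_one : permP u24 (some 1) = some 0 := by
  have := permP_apply_pt in_u24 (x := 1) (by norm_num)
  exact this


theorem t24_mul_self : permP t24 * permP t24 = 1 := permP_mul_eq_one val_t24 val_t24 t24_sq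
theorem u24_mul_self : permP u24 * permP u24 = 1 := permP_mul_eq_one val_u24 val_u24 u24_sq
theorem t24_braid : permP t24 * permP u24 * permP t24 = permP u24 * permP t24 * permP u24 :=
  tb_injective (by simp only [tb_mul, tb_permP val_t24, tb_permP val_u24]; exact tu24)

theorem perm_inv_apply_self' {α : Type*} (c : Equiv.Perm α) (x : α) : c⁻¹ (c x) = x := by
  rw [Equiv.Perm.inv_eq_iff_eq]

theorem multiplier_M24 : HasCyclicSchurMultiplier ↥M24 1 := by
  apply trivial_multiplier_of_ker_bot
  intro Γ _ _ σ hσ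
  have h : CExt σ := ⟨hσ.1, hσ.2.1⟩
  let H : Subgroup M24 := MulAction.stabilizer M24 (none : GolayPt)
  let K : Subgroup M24 := MulAction.stabilizer M24 (none : GolayPt) ⊓ MulAction.stabilizer M24 (some 0 : GolayPt)
  have memH : ∀ g : M24, g ∈ H ↔ g.1 none = none := fun g => Iff.rfl
  have memK : ∀ g : M24, g ∈ K ↔ g.1 none = none ∧ g.1 (some 0) = some 0 := fun g => Iff.rfl
  let t : M24 := ⟨permP t24, inM24P_spec _ in_t24⟩
  let u : M24 := ⟨permP u24, inM24P_spec _ in_u24⟩
  have ht2 : t * t = 1 := Subtype.ext t24_mul_self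
  have hu2 : u * u = 1 := Subtype.ext u24_mul_self
  have hti : t⁻¹ = t := inv_eq_of_mul_eq_one_left ht2
  have hui : u⁻¹ = u := inv_eq_of_mul_eq_one_left hu2
  have htu : t * u * t = u * t * u := Subtype.ext t24_braid
  have huH : u ∈ H := (memH u).2 u24_none
  have htH : t ∉ H := by
    intro hh
    have := (memH t).1 hh
    rw [show t.1 none = some 0 from t24_none] at this
    exact absurd this (by decide)
  have hKH : K ≤ H := inf_le_left
  have a22m := mem_M22.1 (inM22P_spec _ in_a22)
  have b22m := mem_M22.1 (inM22P_spec _ in_b22)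
  let a : M24 := ⟨permP a22, a22m.1⟩
  let b : M24 := ⟨permP b22, b22m.1⟩
  have hab : a * b ≠ b * a := fun hh => a22_b22_ne (congrArg Subtype.val hh)
  have haK : a ∈ K := (memK a).2 a22m.2
  have hbK : b ∈ K := (memK b).2 b22m.2
  have hKs : IsSimpleGroup K := Cfsg.Agent.S0379.result none (some 0) (by decide)
  have hHs : IsSimpleGroup H := Cfsg.Agent.S0377.result none
  have hKperf : K ≤ ⁅K, K⁆ := perfect_of_simple K a b haK hbK hab
  have hHperf : H ≤ ⁅H, H⁆ := perfect_of_simple H a b (hKH haK) (hKH hbK) hab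
  let e : H ≃* Spor.M23 :=
    { toFun := fun x => ⟨x.1.1, mem_M23.2 ⟨x.1.2, x.2⟩⟩
      invFun := fun x => ⟨⟨x.1, (mem_M23.1 x.2).1⟩, (mem_M23.1 x.2).2⟩
      left_inv := fun _ => rfl
      right_inv := fun _ => rfl
      map_mul' := fun _ _ => rfl }
  obtain ⟨H₀, h1, h2, h3⟩ := h.split_over_perfect H hHperf
    (fun Γ' _ _ τ hτ => ker_eq_bot_of_multiplier_one multiplier_M23 e Γ' τ hτ)
  have hG : ∀ g : M24, g ∈ H ∨ ∃ a ∈ H, ∃ b ∈ H, g = a * t * b := by
    intro g
    by_cases hg : g.1 none = none
    · exact Or.inl hg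
    · right
      obtain ⟨c, hc, hc1, hc2⟩ := M24_trans_pt2 (p := none) (q := some 0) (p' := none) (q' := g.1 none)
        (by decide) (fun hh => hg hh.symm)
      refine ⟨⟨c, hc⟩, hc1, t⁻¹ * (⟨c, hc⟩ : M24)⁻¹ * g, ?_, by group⟩
      rw [memH, hti]
      show permP t24 (c⁻¹ (g.1 none)) = none
      rw [← hc2, perm_inv_apply_self', t24_zero]
  have hH : ∀ g ∈ H, g ∈ K ∨ ∃ a ∈ K, ∃ b ∈ K, g = a * u * b := by
    intro g hgH
    have hgn : g.1 none = none := hgH
    by_cases hg : g.1 (some 0) = some 0
    · exact Or.inl ⟨hgH, hg⟩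
    · right
      have hne : (none : GolayPt) ≠ g.1 (some 0) := by
        intro hh
        rw [← hgn] at hh
        exact absurd (g.1.injective hh) (by decide)
      obtain ⟨c, hc, hc1, hc2, hc3⟩ := M24_trans_pt3 (p := none) (q := some 0) (r := some 1)
        (p' := none) (q' := some 0) (r' := g.1 (some 0))
        (by decide) (by decide) (by decide) (by decide) hne (fun hh => hg hh.symm)
      refine ⟨⟨c, hc⟩, ⟨hc1, hc2⟩, u⁻¹ * (⟨c, hc⟩ : M24)⁻¹ * g, ?_, by group⟩
      rw [memK, hui]
      constructor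
      · show permP u24 (c⁻¹ (g.1 none)) = none
        rw [hgn]
        conv_lhs => rw [← hc1]
        rw [perm_inv_apply_self', u24_none]
      · show permP u24 (c⁻¹ (g.1 (some 0))) = some 0
        rw [← hc3, perm_inv_apply_self', u24_one]
  have htK : ∀ k ∈ K, t * k * t⁻¹ ∈ K := by
    intro k hk
    obtain ⟨hk1, hk2⟩ := (memK k).1 hk
    rw [hti, memK]
    constructor
    · show permP t24 (k.1 (permP t24 none)) = none
      rw [t24_none, hk2, t24_zero]
    · show permP t24 (k.1 (permP t24 (some 0))) = some 0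
      rw [t24_zero, hk1, t24_none]
  obtain ⟨X, hX, hX1⟩ := h.glue H K t u hG hH hKH ht2 hu2 htu huH htH htK hKperf H₀ h1 h2 h3
  exact h.ker_eq_bot_of_complement hσ.2.2 X hX hX1

end Cfsg.Agent.Lib.Helper28
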