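/-
The Schur multiplier of M12, upper bound: the kernel of a finite stem extension has order at most two.
-/
import Cfsg.Agent.Lib.Helper28.Schur8
import Cfsg.Agent.Lib.Helper28.SchurM11
import Cfsg.Agent.Lib.Helper28.SchurM24
import Cfsg.Agent.Lib.Helper28.OutM11
import Cfsg.Agent.S0388
set_option autoImplicit false
open Cfsg
open scoped commutatorElement Pointwise
namespace Cfsg.Agent.Lib.Helper28

/-! ### words and lower bounds for the order of a generated group -/

/-- evaluate a word in two generators on tables -/
def evalW (a b : ℕ) : List Bool → ℕ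
  | [] => idP
  | x :: w => mulP (bif x then a else b) (evalW a b w)

theorem evalW_spec {a b : ℕ} (ha : validP a = true) (hb : validP b = true) (w : List Bool) :
    ∃ g ∈ Subgroup.closure {permP a, permP b}, tb g = evalW a b w := by
  induction w with
  | nil => exact ⟨1, Subgroup.one_mem _, tb_one⟩
  | cons x w ih =>
    obtain ⟨g, hg, hgw⟩ := ih
    cases x with
    | true =>
      exact ⟨permP a * g, Subgroup.mul_mem _ (Subgroup.subset_closure (by simp)) hg, by
        rw [tb_mul, tb_permP ha, hgw]; rfl⟩
    | false =>
      exact ⟨permP b * g, Subgroup.mul_mem _ (Subgroup.subset_closure (by simp)) hg, by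
        rw [tb_mul, tb_permP hb, hgw]; rfl⟩

def nodupN : List ℕ → Bool
  | [] => true
  | a :: l => !(memN a l) && nodupN l

theorem nodupN_spec {l : List ℕ} (h : nodupN l = true) : l.Nodup := by
  induction l with
  | nil => exact List.nodup_nil
  | cons a l ih =>
    simp only [nodupN, Bool.and_eq_true, Bool.not_eq_true'] at h
    rw [List.nodup_cons]
    refine ⟨?_, ih h.2⟩
    intro hm
    rw [← memN_iff, h.1] at hm
    exact Bool.false_ne_true hm

theorem card_ge_of_list {C : Subgroup (Equiv.Perm GolayPt)} (L : List ℕ) (hnd : L.Nodup)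
    (hL : ∀ n ∈ L, ∃ g ∈ C, tb g = n) : L.length ≤ Nat.card C := by
  classical
  choose f hf hf' using hL
  let F : {n // n ∈ L.toFinset} → C := fun n => ⟨f n.1 (List.mem_toFinset.1 n.2), hf _ _⟩
  have hF : Function.Injective F := by
    intro x y hxy
    have h1 : f x.1 (List.mem_toFinset.1 x.2) = f y.1 (List.mem_toFinset.1 y.2) := congrArg Subtype.val hxy
    apply Subtype.ext
    rw [← hf' x.1 (List.mem_toFinset.1 x.2), ← hf' y.1 (List.mem_toFinset.1 y.2), h1]
  have := Nat.card_le_card_of_injective F hF
  rw [Nat.card_eq_fintype_card, Fintype.card_coe, List.toFinset_card_of_nodup hnd] at this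
  exact this

/-! ### data -/

def t12 : ℕ := 970452037038246367669431024360720385
def t12i : ℕ := 970452037038246367669431024360720385
def u12 : ℕ := 648333173198446926654847902756766784
def u12i : ℕ := 648333173198446926654847902756766784
def a10 : ℕ := 984769902586367543974814854303385632
def a10i : ℕ := 984534996141977609297800625156032544
def b10 : ℕ := 648207209222844074498160541649210400
def b10i : ℕ := 226568071506530464018504838409175072
def c10 : ℕ := 970499966350631336865513127433832480
def c10i : ℕ := 970499966350631336865513127433832480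
def d10 : ℕ := 970531819526550031117983620406741024
def d10i : ℕ := 970531819526550031117983620406741024
def reps10 : List (List Bool) := [[], [true], [true, true], [false, true], [false, true, true], [true, false, true], [false, false, true], [true, false, true, true], [false, false, true, true], [true, true, false, true], [false, true, false, true], [true, false, false, true], [false, false, false, true], [true, true, false, true, true], [false, true, false, true, true], [true, false, false, true, true], [false, false, false, true, true], [false, true, true, false, true], [true, false, true, false, true], [false, false, true, false, true], [true, true, false, false, true], [true, false, false, false, true], [false, false, false, false, true], [false, true, true, false, true, true], [true, false, true, false, true, true], [false, false, true, false, true, true], [true, true, false, false, true, true], [false, true, false, false, true, true], [true, false, false, false, true, true], [false, false, false, false, true, true], [true, false, true, true,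 false, true], [true, true, false, true, false, true], [false, false, false, true, false, true], [false, true, true, false, false, true], [true, true, false, false, false, true], [false, true, false, false, false, true], [true, false, false, false, false, true], [false, false, false, false, false, true], [true, false, true, true, false, true, true], [true, true, false, true, false, true, true], [false, true, false, true, false, true, true], [true, false, false, true, false, true, true], [false, false, false, true, false, true, true], [false, true, true, false, false, true, true], [true, false, true, false, false, true, true], [true, true, false, false, false, true, true], [false, true, false, false, false, true, true], [true, false, false, false, false, true, true], [false, false, false, false, false, true, true], [false, true, true, false, true, false, true], [true, false, false, false, true, false, true], [true, false, true, true, false, false, true], [false, true, true, false, false, false, true], [true, false, true, false, false, false, true], [false,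 false, true, false, false, false, true], [true, true, false, false, false, false, true], [false, true, false, false, false, false, true], [true, false, false, false, false, false, true], [false, false, false, false, false, false, true], [false, true, true, false, true, false, true, true], [true, false, true, false, true, false, true, true], [true, true, false, false, true, false, true, true], [true, false, false, false, true, false, true, true], [false, false, false, false, true, false, true, true], [false, false, true, true, false, false, true, true], [false, true, false, true, false, false, true, true], [false, true, true, false, false, false, true, true], [true, false, true, false, false, false, true, true], [false, false, true, false, false, false, true, true], [true, true, false, false, false, false, true, true], [false, true, false, false, false, false, true, true], [true, false, true, true, false, true, false, true], [false, false, true, true, false, true, false, true], [false, true, false, true, true, false, false, true], [true, true, false,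 true, false, false, false, true], [false, true, false, true, false, false, false, true], [false, true, true, false, false, false, false, true], [true, false, true, false, false, false, false, true], [false, false, true, false, false, false, false, true], [true, true, false, false, false, false, false, true], [true, true, false, true, false, true, false, true, true], [false, true, true, false, false, true, false, true, true], [true, true, false, false, false, true, false, true, true], [true, false, false, false, false, true, false, true, true], [true, false, true, false, true, false, false, true, true], [false, true, false, true, false, false, false, true, true], [true, false, true, false, false, false, false, true, true], [true, true, false, true, true, false, true, false, true], [true, false, true, false, true, false, false, false, true], [true, true, false, true, false, false, false, false, true, true]]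

def pw10 : List (List Bool) := (List.range 8).map (fun i => List.replicate i false)

def L10 : List ℕ :=
  reps10.flatMap (fun w => pw10.map (fun v => mulP (evalW a10 b10 w) (evalW a10 b10 v)))

theorem L10_nodup : nodupN L10 = true := by decide +kernel
theorem L10_len : L10.length = 720 := by decide +kernel

def inM10P (t : ℕ) : Bool := inM11P t && Nat.beq (ap t 1) 1

theorem inM11P_M24 {t : ℕ} (h : inM11P t = true) : inM24P t = true := by
  simp only [inM11P, Bool.and_eq_true] at h
  exact h.1.1

theorem inM10P_spec (t : ℕ) (h : inM10P t = true) : permP t ∈ stabIn Spor.M11 (some 1) := by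
  simp only [inM10P, Bool.and_eq_true, Nat.beq_eq] at h
  rw [mem_stabIn]
  refine ⟨inM11P_spec t h.1, ?_⟩
  have := permP_apply_pt (inM11P_M24 h.1) (x := 1) (by norm_num)
  rw [h.2] at this
  exact this

theorem inv_a10 : invOK a10 a10i = true := by decide +kernel
theorem inv_b10 : invOK b10 b10i = true := by decide +kernel
theorem inv_c10 : invOK c10 c10i = true := by decide +kernel
theorem inv_d10 : invOK d10 d10i = true := by decide +kernel
theorem inv_t12 : invOK t12 t12 = true := by decide +kernel
theorem inv_u12 : invOK u12 u12 = true := by decide +kernel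
theorem in_a10 : inM10P a10 = true := by decide +kernel
theorem in_b10 : inM10P b10 = true := by decide +kernel
theorem in_c10 : inM10P c10 = true := by decide +kernel
theorem in_d10 : inM10P d10 = true := by decide +kernel
theorem in_t12 : inM12P t12 = true := by decide +kernel
theorem in_u12 : inM11P u12 = true := by decide +kernel
theorem chk_ca10 : mulP (cjP c10 c10i a10) a10i = a10 := by decide +kernel
theorem chk_db10 : mulP (cjP d10 d10i b10) b10i = mulP b10 b10 := by decide +kernel
theorem chk_ab10 : mulP a10 b10 ≠ mulP b10 a10 := by decide +kernel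
theorem chk_tu12 : mulP (mulP t12 u12) t12 = mulP (mulP u12 t12) u12 := by decide +kernel
theorem chk_t12 : (ap t12 0, ap t12 1) = (1, 0) := by decide +kernel
theorem chk_u12 : (ap u12 0, ap u12 1, ap u12 2) = (0, 2, 1) := by decide +kernel

theorem M10_eq : Subgroup.closure {permP a10, permP b10} = stabIn Spor.M11 (some 1) := by
  obtain ⟨va, -, -⟩ := invOK_spec inv_a10
  obtain ⟨vb, -, -⟩ := invOK_spec inv_b10
  apply Subgroup.eq_of_le_of_card_ge
  · rw [Subgroup.closure_le]
    rintro g (rfl | rfl)
    · exact inM10P_spec _ in_a10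
    · exact inM10P_spec _ in_b10
  · rw [card_stabIn_M11_D (by decide +kernel) (by decide), ← L10_len]
    apply card_ge_of_list L10 (nodupN_spec L10_nodup)
    intro n hn
    simp only [L10, List.mem_flatMap, List.mem_map] at hn
    obtain ⟨w, -, v, -, rfl⟩ := hn
    obtain ⟨g, hg, hgw⟩ := evalW_spec va vb w
    obtain ⟨g', hg', hgv⟩ := evalW_spec va vb v
    exact ⟨g * g', Subgroup.mul_mem _ hg hg', by rw [tb_mul, hgw, hgv]⟩

/-! ### transitivity on the dodecad -/

theorem exists_five_in_of_mem3 {s : Finset GolayPt} (h : 5 ≤ s.card) {p q r : GolayPt} (hp : p ∈ s) (hq : q ∈ s)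
    (hr : r ∈ s) (hpq : p ≠ q) (hpr : p ≠ r) (hqr : q ≠ r) :
    ∃ x : Fin 5 → GolayPt, Function.Injective x ∧ (∀ i, x i ∈ s) ∧ x 0 = p ∧ x 1 = q ∧ x 2 = r := by
  have hq' : q ∈ s.erase p := Finset.mem_erase.2 ⟨hpq.symm, hq⟩
  have hr' : r ∈ (s.erase p).erase q := Finset.mem_erase.2 ⟨hqr.symm, Finset.mem_erase.2 ⟨hpr.symm, hr⟩⟩
  obtain ⟨t, ht, ht5⟩ := Finset.exists_subset_card_eq (s := ((s.erase p).erase q).erase r) (n := 2)
    (by rw [Finset.card_erase_of_mem hr', Finset.card_erase_of_mem hq', Finset.card_erase_of_mem hp]; omega)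
  obtain ⟨x, hx, hxs⟩ := exists_injective_of_card_eq ht5
  have hx' : ∀ i, x i ∈ ((s.erase p).erase q).erase r := fun i => ht ((hxs _).2 ⟨i, rfl⟩)
  have hx1 : ∀ i, x i ≠ r := fun i => (Finset.mem_erase.1 (hx' i)).1
  have hx2 : ∀ i, x i ≠ q := fun i => (Finset.mem_erase.1 (Finset.mem_erase.1 (hx' i)).2).1
  have hx3 : ∀ i, x i ≠ p := fun i => (Finset.mem_erase.1 (Finset.mem_erase.1 (Finset.mem_erase.1 (hx' i)).2).2).1
  have hx4 : ∀ i, x i ∈ s := fun i => (Finset.mem_erase.1 (Finset.mem_erase.1 (Finset.mem_erase.1 (hx' i)).2).2).2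
  refine ⟨Fin.cons p (Fin.cons q (Fin.cons r x)), ?_, ?_, rfl, rfl, rfl⟩
  · rw [Fin.cons_injective_iff]
    refine ⟨?_, ?_⟩
    · rintro ⟨i, hi⟩
      revert hi
      refine Fin.cases ?_ (fun j => ?_) i
      · intro hi; exact hpq hi.symm
      · refine Fin.cases ?_ (fun l => ?_) j
        · intro hi; exact hpr hi.symm
        · intro hi; exact hx3 l hi
    · rw [Fin.cons_injective_iff]
      refine ⟨?_, ?_⟩
      · rintro ⟨i, hi⟩
        revert hi
        refine Fin.cases ?_ (fun j => ?_) i
        · intro hi; exact hqr hi.symm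
        · intro hi; exact hx2 j hi
      · rw [Fin.cons_injective_iff]
        refine ⟨?_, hx⟩
        rintro ⟨i, hi⟩
        exact hx1 i hi
  · intro i
    refine Fin.cases ?_ (fun j => ?_) i
    · simpa using hp
    · refine Fin.cases ?_ (fun l => ?_) j
      · simpa using hq
      · refine Fin.cases ?_ (fun m => ?_) l
        · exact hr
        · exact hx4 m

theorem one_mem_DD : (some 1 : GolayPt) ∈ DD := by decide +kernel
theorem two_mem_DD : (some 2 : GolayPt) ∈ DD := by decide +kernel

theorem M12_trans2 {q : GolayPt} (hq : q ∈ DD) (hq0 : q ≠ some 0) :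
    ∃ g ∈ Spor.M12, g (some 0) = some 0 ∧ g (some 1) = q := by
  have hc : 5 ≤ DD.card := by rw [card_DD]; norm_num
  obtain ⟨x, hx, hxd, hx0, hx1⟩ := exists_five_in_of_mem2 hc zero_mem_DD one_mem_DD (by decide)
  obtain ⟨y, hy, hyd, hy0, hy1⟩ := exists_five_in_of_mem2 hc zero_mem_DD hq hq0.symm
  obtain ⟨g, hg, hgd, h⟩ := dodecad_five_trans squareDodecad_mem x y hx hy hxd hyd
  have e0 := h 0
  have e1 := h 1
  rw [hx0, hy0] at e0
  rw [hx1, hy1] at e1
  exact ⟨g, mem_M12.2 ⟨hg, hgd⟩, e0, e1⟩

theorem M12_trans3 {q : GolayPt} (hq : q ∈ DD) (hq0 : q ≠ some 0) (hq1 : q ≠ some 1) :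
    ∃ g ∈ Spor.M12, g (some 0) = some 0 ∧ g (some 1) = some 1 ∧ g (some 2) = q := by
  have hc : 5 ≤ DD.card := by rw [card_DD]; norm_num
  obtain ⟨x, hx, hxd, hx0, hx1, hx2⟩ := exists_five_in_of_mem3 hc zero_mem_DD one_mem_DD two_mem_DD
    (by decide) (by decide) (by decide)
  obtain ⟨y, hy, hyd, hy0, hy1, hy2⟩ := exists_five_in_of_mem3 hc zero_mem_DD one_mem_DD hq
    (by decide) hq0.symm hq1.symm
  obtain ⟨g, hg, hgd, h⟩ := dodecad_five_trans squareDodecad_mem x y hx hy hxd hyd
  have e0 := h 0
  have e1 := h 1
  have e2 := h 2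
  rw [hx0, hy0] at e0
  rw [hx1, hy1] at e1
  rw [hx2, hy2] at e2
  exact ⟨g, mem_M12.2 ⟨hg, hgd⟩, e0, e1, e2⟩

theorem M12_DD : ∀ g ∈ Spor.M12, ∀ x, g x ∈ DD ↔ x ∈ DD :=
  fun g hg x => apply_mem_iff_of_smul_eq (mem_M12.1 hg).2 x

/-! ### the configuration inside M12 -/

def H12 : Subgroup Spor.M12 := MulAction.stabilizer Spor.M12 (some 0 : GolayPt)
def K12 : Subgroup Spor.M12 := H12 ⊓ MulAction.stabilizer Spor.M12 (some 1 : GolayPt)

theorem mem_H12 {g : Spor.M12} : g ∈ H12 ↔ g.1 (some 0) = some 0 := Iff.rfl
theorem mem_K12 {g : Spor.M12} : g ∈ K12 ↔ g.1 (some 0) = some 0 ∧ g.1 (some 1) = some 1 := Iff.rfl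

theorem M11_le_M12 : Spor.M11 ≤ Spor.M12 := fun _ hg => (Subgroup.mem_inf.1 hg).1

theorem M10_le_M12 : stabIn Spor.M11 (some 1) ≤ Spor.M12 := fun _ hg => M11_le_M12 (mem_stabIn.1 hg).1

noncomputable def t12' : Spor.M12 := ⟨permP t12, inM12P_spec _ in_t12⟩
noncomputable def u12' : Spor.M12 := ⟨permP u12, M11_le_M12 (inM11P_spec _ in_u12)⟩
noncomputable def a10' : Spor.M12 := ⟨permP a10, M10_le_M12 (inM10P_spec _ in_a10)⟩
noncomputable def b10' : Spor.M12 := ⟨permP b10, M10_le_M12 (inM10P_spec _ in_b10)⟩
noncomputable def c10' : Spor.M12 := ⟨permP c10, M10_le_M12 (inM10P_spec _ in_c10)⟩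
noncomputable def d10' : Spor.M12 := ⟨permP d10, M10_le_M12 (inM10P_spec _ in_d10)⟩

theorem mem_K12_of_M10 {g : Spor.M12} (h : g.1 ∈ stabIn Spor.M11 (some 1)) : g ∈ K12 :=
  mem_K12.2 ⟨(mem_M11.1 (mem_stabIn.1 h).1).2.2, (mem_stabIn.1 h).2⟩

theorem M10_of_mem_K12 {g : Spor.M12} (h : g ∈ K12) : g.1 ∈ stabIn Spor.M11 (some 1) :=
  mem_stabIn.2 ⟨mem_M11.2 ⟨(mem_M12.1 g.2).1, (mem_M12.1 g.2).2, (mem_K12.1 h).1⟩, (mem_K12.1 h).2⟩

theorem a10_mem : a10' ∈ K12 :=
  mem_K12_of_M10 (g := a10') (show permP a10 ∈ stabIn Spor.M11 (some 1) from inM10P_spec a10 in_a10)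
theorem b10_mem : b10' ∈ K12 :=
  mem_K12_of_M10 (g := b10') (show permP b10 ∈ stabIn Spor.M11 (some 1) from inM10P_spec b10 in_b10)
theorem c10_mem : c10' ∈ K12 :=
  mem_K12_of_M10 (g := c10') (show permP c10 ∈ stabIn Spor.M11 (some 1) from inM10P_spec c10 in_c10)
theorem d10_mem : d10' ∈ K12 :=
  mem_K12_of_M10 (g := d10') (show permP d10 ∈ stabIn Spor.M11 (some 1) from inM10P_spec d10 in_d10)

theorem inM12P_M24 {t : ℕ} (h : inM12P t = true) : inM24P t = true := by
  simp only [inM12P, Bool.and_eq_true] at h
  exact h.1

theorem t12_zero : permP t12 (some 0) = some 1 := permP_apply_pt (inM12P_M24 in_t12) (x := 0) (by norm_num)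
theorem t12_one : permP t12 (some 1) = some 0 := permP_apply_pt (inM12P_M24 in_t12) (x := 1) (by norm_num)
theorem u12_zero : permP u12 (some 0) = some 0 := permP_apply_pt (inM11P_M24 in_u12) (x := 0) (by norm_num)
theorem u12_one : permP u12 (some 1) = some 2 := permP_apply_pt (inM11P_M24 in_u12) (x := 1) (by norm_num)
theorem u12_two : permP u12 (some 2) = some 1 := permP_apply_pt (inM11P_M24 in_u12) (x := 2) (by norm_num)

theorem t12_sq : t12' * t12' = 1 := by
  obtain ⟨v, -, h⟩ := invOK_spec inv_t12
  exact Subtype.ext (permP_mul_eq_one v v h)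
theorem u12_sq : u12' * u12' = 1 := by
  obtain ⟨v, -, h⟩ := invOK_spec inv_u12
  exact Subtype.ext (permP_mul_eq_one v v h)
theorem t12_inv : t12'⁻¹ = t12' := inv_eq_of_mul_eq_one_left t12_sq
theorem u12_inv : u12'⁻¹ = u12' := inv_eq_of_mul_eq_one_left u12_sq
theorem tu12_braid : t12' * u12' * t12' = u12' * t12' * u12' := by
  obtain ⟨vt, -, -⟩ := invOK_spec inv_t12
  obtain ⟨vu, -, -⟩ := invOK_spec inv_u12
  apply Subtype.ext
  apply tb_injective
  show tb (permP t12 * permP u12 * permP t12) = tb (permP u12 * permP t12 * permP u12)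
  simp only [tb_mul, tb_permP vt, tb_permP vu]
  exact chk_tu12

theorem u12_mem : u12' ∈ H12 := mem_H12.2 u12_zero
theorem t12_not_mem : t12' ∉ H12 := by
  intro h
  have := mem_H12.1 h
  rw [show t12'.1 (some 0) = some 1 from t12_zero] at this
  exact absurd this (by decide)

theorem K12_le : K12 ≤ H12 := inf_le_left

theorem M12_dc1 (g : Spor.M12) : g ∈ H12 ∨ ∃ a ∈ H12, ∃ b ∈ H12, g = a * t12' * b := by
  by_cases hg : g.1 (some 0) = some 0
  · exact Or.inl hg
  · right
    obtain ⟨c, hc, hc1, hc2⟩ := M12_trans2 (q := g.1 (some 0)) ((M12_DD g.1 g.2 _).2 zero_mem_DD) hg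
    refine ⟨⟨c, hc⟩, hc1, t12'⁻¹ * (⟨c, hc⟩ : Spor.M12)⁻¹ * g, ?_, by group⟩
    rw [mem_H12, t12_inv]
    show permP t12 (c⁻¹ (g.1 (some 0))) = some 0
    rw [← hc2, perm_inv_apply_self', t12_one]

theorem M12_dc2 (g : Spor.M12) (hgH : g ∈ H12) : g ∈ K12 ∨ ∃ a ∈ K12, ∃ b ∈ K12, g = a * u12' * b := by
  have hg0 : g.1 (some 0) = some 0 := hgH
  by_cases hg : g.1 (some 1) = some 1
  · exact Or.inl ⟨hgH, hg⟩
  · right
    have hne : g.1 (some 1) ≠ some 0 := by
      intro hh
      rw [← hg0] at hh
      exact absurd (g.1.injective hh) (by decide)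
    obtain ⟨c, hc, hc1, hc2, hc3⟩ := M12_trans3 (q := g.1 (some 1)) ((M12_DD g.1 g.2 _).2 one_mem_DD) hne hg
    refine ⟨⟨c, hc⟩, ⟨hc1, hc2⟩, u12'⁻¹ * (⟨c, hc⟩ : Spor.M12)⁻¹ * g, ?_, by group⟩
    rw [mem_K12, u12_inv]
    constructor
    · show permP u12 (c⁻¹ (g.1 (some 0))) = some 0
      rw [hg0]
      conv_lhs => rw [← hc1]
      rw [perm_inv_apply_self', u12_zero]
    · show permP u12 (c⁻¹ (g.1 (some 1))) = some 1
      rw [← hc3, perm_inv_apply_self', u12_two]

theorem t12_norm (k : Spor.M12) (hk : k ∈ K12) : t12' * k * t12'⁻¹ ∈ K12 := by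
  obtain ⟨hk1, hk2⟩ := mem_K12.1 hk
  rw [t12_inv, mem_K12]
  constructor
  · show permP t12 (k.1 (permP t12 (some 0))) = some 0
    rw [t12_zero, hk2, t12_one]
  · show permP t12 (k.1 (permP t12 (some 1))) = some 1
    rw [t12_one, hk1, t12_zero]

theorem K12_le_closure : K12 ≤ Subgroup.closure {a10', b10'} := by
  have hle : stabIn Spor.M11 (some 1) ≤ (Subgroup.closure {a10', b10'}).map Spor.M12.subtype := by
    rw [← M10_eq, Subgroup.closure_le]
    rintro g (rfl | rfl)
    · exact ⟨a10', Subgroup.subset_closure (by simp), rfl⟩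
    · exact ⟨b10', Subgroup.subset_closure (by simp), rfl⟩
  intro g hg
  obtain ⟨w, hw, hwg⟩ := hle (M10_of_mem_K12 hg)
  have : w = g := Subtype.ext hwg
  rw [← this]; exact hw

theorem a10_comm : a10' = ⁅c10', a10'⁆ := by
  obtain ⟨va, vai, ha⟩ := invOK_spec inv_a10
  obtain ⟨vc, vci, hc⟩ := invOK_spec inv_c10
  apply Subtype.ext
  apply tb_injective
  show tb (permP a10) = tb (permP c10 * permP a10 * (permP c10)⁻¹ * (permP a10)⁻¹)
  rw [tb_mul, tb_conj vc vci hc, ← permP_inv va vai ha, tb_permP va, tb_permP vai]
  exact chk_ca10.symm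

theorem b10_sq_comm : b10' * b10' = ⁅d10', b10'⁆ := by
  obtain ⟨vb, vbi, hb⟩ := invOK_spec inv_b10
  obtain ⟨vd, vdi, hd⟩ := invOK_spec inv_d10
  apply Subtype.ext
  apply tb_injective
  show tb (permP b10 * permP b10) = tb (permP d10 * permP b10 * (permP d10)⁻¹ * (permP b10)⁻¹)
  rw [tb_mul, tb_mul, tb_conj vd vdi hd, ← permP_inv vb vbi hb, tb_permP vb, tb_permP vbi]
  exact chk_db10.symm

theorem K12_le_sup : K12 ≤ ⁅K12, K12⁆ ⊔ Subgroup.zpowers b10' := by
  refine K12_le_closure.trans ?_
  rw [Subgroup.closure_le]
  rintro g (rfl | rfl)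
  · apply (le_sup_left : ⁅K12, K12⁆ ≤ _)
    rw [a10_comm]
    exact Subgroup.commutator_mem_commutator c10_mem a10_mem
  · exact (le_sup_right : Subgroup.zpowers b10' ≤ _) (Subgroup.mem_zpowers _)

theorem b10_sq_mem : b10' * b10' ∈ ⁅K12, K12⁆ := by
  rw [b10_sq_comm]
  exact Subgroup.commutator_mem_commutator d10_mem b10_mem

theorem a10_b10_ne : a10' * b10' ≠ b10' * a10' := by
  obtain ⟨va, -, -⟩ := invOK_spec inv_a10
  obtain ⟨vb, -, -⟩ := invOK_spec inv_b10
  intro h
  have h1 : permP a10 * permP b10 = permP b10 * permP a10 := congrArg Subtype.val h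
  have := congrArg tb h1
  rw [tb_mul, tb_mul, tb_permP va, tb_permP vb] at this
  exact chk_ab10 this

noncomputable def H12_equiv_M11 : H12 ≃* Spor.M11 where
  toFun x := ⟨x.1.1, mem_M11.2 ⟨(mem_M12.1 x.1.2).1, (mem_M12.1 x.1.2).2, x.2⟩⟩
  invFun x := ⟨⟨x.1, M11_le_M12 x.2⟩, (mem_M11.1 x.2).2.2⟩
  left_inv _ := rfl
  right_inv _ := rfl
  map_mul' _ _ := rfl

noncomputable def H12_equiv_stab : H12 ≃* ↥(MulAction.stabilizer M24 Spor.squareDodecad ⊓
    MulAction.stabilizer M24 (some 0 : GolayPt)) where
  toFun x := ⟨⟨x.1.1, (mem_M12.1 x.1.2).1⟩, ⟨(mem_M12.1 x.1.2).2, x.2⟩⟩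
  invFun x := ⟨⟨x.1.1, mem_M12.2 ⟨x.1.2, x.2.1⟩⟩, x.2.2⟩
  left_inv _ := rfl
  right_inv _ := rfl
  map_mul' _ _ := rfl

theorem H12_perfect : H12 ≤ ⁅H12, H12⁆ := by
  have h1 : IsSimpleGroup ↥(MulAction.stabilizer M24 Spor.squareDodecad ⊓
    MulAction.stabilizer M24 (some 0 : GolayPt)) := Cfsg.Agent.S0388.result _ squareDodecad_mem _ zero_mem_DD
  have : IsSimpleGroup H12 := H12_equiv_stab.isSimpleGroup
  exact perfect_of_simple H12 a10' b10' (K12_le a10_mem) (K12_le b10_mem) a10_b10_ne

/-- the upper bound -/
theorem M12_ker_cyclic {Γ : Type} [Group Γ] [Finite Γ] (σ : Γ →* Spor.M12) (hσ : IsStemExtension σ) :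
    ∃ ζ ∈ σ.ker, ζ * ζ = 1 ∧ ∀ z ∈ σ.ker, z ∈ Subgroup.zpowers ζ := by
  have h : CExt σ := ⟨hσ.1, hσ.2.1⟩
  exact h.ker_cyclic_two hσ.2.2 H12 K12 t12' u12' M12_dc1 M12_dc2 K12_le t12_sq u12_sq tu12_braid u12_mem
    t12_not_mem t12_norm H12_perfect
    (fun Γ' _ _ τ hτ => ker_eq_bot_of_multiplier_one multiplier_M11 H12_equiv_M11 Γ' τ hτ)
    b10' b10_mem K12_le_sup b10_sq_mem

/-- generators of M12 -/
theorem M12_gen : Subgroup.closure {a10', b10', u12', t12'} = ⊤ := by
  rw [eq_top_iff]
  set C := Subgroup.closure {a10', b10', u12', t12'} with hC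
  have hK : K12 ≤ C := K12_le_closure.trans (Subgroup.closure_mono (by
    intro x hx
    rcases hx with rfl | rfl
    · simp
    · simp))
  have hu : u12' ∈ C := Subgroup.subset_closure (by simp)
  have ht : t12' ∈ C := Subgroup.subset_closure (by simp)
  have hH : H12 ≤ C := by
    intro g hg
    rcases M12_dc2 g hg with h | ⟨a, ha, b, hb, rfl⟩
    · exact hK h
    · exact C.mul_mem (C.mul_mem (hK ha) hu) (hK hb)
  intro g _
  rcases M12_dc1 g with h | ⟨a, ha, b, hb, rfl⟩
  · exact hH h
  · exact C.mul_mem (C.mul_mem (hH ha) ht) (hH hb)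

end Cfsg.Agent.Lib.Helper28
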