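/-
The Schur multiplier of M12: the double cover as a group of signed permutations preserving the ternary
Golay code (realised on 24 points: the twelve points of the dodecad with signs).
-/
import Cfsg.Agent.Lib.Helper28.SchurM12a
import Cfsg.Agent.Lib.Helper21.Gens
set_option autoImplicit false
open Cfsg
open scoped commutatorElement Pointwise
namespace Cfsg.Agent.Lib.Helper28

def lt12 : ℕ := 688674787027799087688157527831316481
def lt12i : ℕ := 688674787027799087688157527831316481
def lu12 : ℕ := 652348971612447440217620620982558016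
def lu12i : ℕ := 652348971612447440217620620982558016
def la10 : ℕ := 723219199249867629948949532080539680
def la10i : ℕ := 849611733499501223057759164475672608
def lb10 : ℕ := 885947314665510884685493154904411360
def lb10i : ℕ := 640887864585092192759995612283355360
def p12 : ℕ := 309409825559433963769467649812285700
def p12i : ℕ := 309409825559433963769467649812285700
def lp12 : ℕ := 109424444372530342829163073108429348
def lp12i : ℕ := 431759776658454632403164920350465294
def q12 : ℕ := 482294437713108819802737810243749072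
def q12i : ℕ := 422172904825248061489139032333238345
def lq12 : ℕ := 709345594964217274903476346273826000
def lq12i : ℕ := 837709405482248994620911633564981331
def nu12 : ℕ := 769002874855717960702853686564858085
def blkT : ℕ := 769002868658763904986625571813427232
def S264 : List ℕ := [591, 4441, 9124, 10356, 13505, 17762, 20652, 24128, 42514, 43267, 45608, 50056, 61700, 66323, 69718, 70412, 77313, 84161, 90408, 94848, 101648, 102816, 106636, 115236, 132664, 137857, 143410, 156225, 158848, 163989, 168970, 198336, 198694, 211008, 218113, 262996, 264624, 266503, 266778, 271402, 273088, 280193, 292865, 300080, 313350, 327709, 328010, 332353, 334976, 353344, 396353, 407040, 413888, 426530, 434200, 467073, 477696, 529808, 532633, 533832, 538630, 542981, 560288, 577539, 596016, 598114, 607242, 657490, 659556, 729108, 753673, 802920, 811266, 825600, 827397, 853280, 884880, 917644, 1049328, 1051076, 1051667, 1059600, 1073226, 1083137, 1115240, 1123586, 1149442, 1155089, 1187853, 1196550, 1230880, 1245336, 1313316, 1319060,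 1319264, 1328392, 1343625, 1392674, 1540100, 1573162, 1598496, 1605660, 1638533, 1655104, 1745024, 1836098, 1908744, 1966097, 2097438, 2101781, 2102082, 2104608, 2116130, 2136208, 2147337, 2163013, 2163288, 2163888, 2166795, 2228456, 2263556, 2342914, 2359379, 2360073, 2363468, 2393472, 2425350, 2429200, 2459680, 2506788, 2638020, 2654512, 2689408, 2724864, 2753539, 2773000, 2886672, 2887840, 3147400, 3162497, 3178534, 3229700, 3277904, 3342880, 3457536, 3540994, 3672129, 4195721, 4197012, 4197216, 4199970, 4202960, 4207640, 4217090, 4218887, 4227130, 4233221, 4334090, 4341836, 4362768, 4367392, 4456676, 4465200, 4466948, 4490760, 4501506, 4505857, 4588562, 4591656, 4719697, 4722888, 4731137, 4751622, 4777984, 4866208, 4982787, 5001220, 5243188, 5251652, 5253280, 5259785, 5293184, 5374019, 5505920, 5507152, 5901312, 6294594, 6309632, 6312032, 6324865, 6424593, 6426756, 6570120, 6815788, 7209024, 7373064, 7603201, 7864338, 8389848, 8392450, 8394850, 8398097, 8401288, 8409888, 8413708, 8421676, 8423953, 8426116, 8446112,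 8454824, 8464402, 8466468, 8470916, 8487939, 8495872, 8507400, 8525844, 8527942, 8536075, 8585328, 8912950, 8913345, 8918025, 8925264, 8980548, 9054240, 9094144, 9113602, 9445891, 9453637, 9470226, 9481216, 9504272, 9505025, 9568840, 9569440, 9980032, 10487392, 10487941, 10504512, 10507266, 10617488, 10653697, 10683400, 11042826, 11091969, 11534392, 11600064, 12058884, 12587153, 12588352, 12591177, 12599874, 12602400, 12714501, 12748928, 13107480, 13116544, 13631502, 13787136, 14188576, 14680354, 14686720, 14712852]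

/-! ### blocks -/

theorem permP_apply {t : ℕ} (h : validP t = true) (x : GolayPt) : permP t x = pt (ap t (idx x)) := by
  rw [← tb_permP h, ap_tb, tb_permP h, pt_idx]

/-- the block (a point of the dodecad) of a signed point -/
def blk (x : GolayPt) : GolayPt := pt (ap blkT (idx x))
/-- the negation of signed points -/
def nuF (x : GolayPt) : GolayPt := pt (ap nu12 (idx x))

theorem blk_nu : ∀ x, blk (nuF x) = blk x := by decide +kernel
theorem blk_eq : ∀ x y, blk y = blk x → y = x ∨ y = nuF x := by decide +kernel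
theorem nu_ne : ∀ x, nuF x ≠ x := by decide +kernel
theorem nu_nu : ∀ x, nuF (nuF x) = x := by decide +kernel
theorem idx_nuF : ∀ x, idx (nuF x) = ap nu12 (idx x) := by decide +kernel
theorem idx_blk : ∀ x, idx (blk x) = ap blkT (idx x) := by decide +kernel
theorem S264_lt : ∀ m ∈ S264, m < 2 ^ 24 := by decide +kernel
theorem val_nu12 : validP nu12 = true := by decide +kernel

theorem nu12_apply (x : GolayPt) : permP nu12 x = nuF x := permP_apply val_nu12 x

/-! ### the group -/

/-- the double cover: pairs of a signed permutation preserving the code and the element of M12 it induces -/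
def G2M12 : Subgroup (Equiv.Perm GolayPt × Equiv.Perm GolayPt) where
  carrier := {p | p.2 ∈ Spor.M12 ∧ (∀ x, blk (p.1 x) = p.2 (blk x)) ∧ (∀ m ∈ S264, pm p.1 m ∈ S264) ∧
    (∀ m ∈ S264, pm p.1⁻¹ m ∈ S264)}
  mul_mem' := by
    rintro a b ⟨a1, a2, a3, a4⟩ ⟨b1, b2, b3, b4⟩
    refine ⟨Spor.M12.mul_mem a1 b1, ?_, ?_, ?_⟩
    · intro x
      show blk (a.1 (b.1 x)) = a.2 (b.2 (blk x))
      rw [a2, b2]
    · intro m hm
      show pm (a.1 * b.1) m ∈ S264
      rw [pm_mul]
      exact a3 _ (b3 m hm)
    · intro m hm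
      show pm (a.1 * b.1)⁻¹ m ∈ S264
      rw [mul_inv_rev, pm_mul]
      exact b4 _ (a4 m hm)
  one_mem' := by
    refine ⟨Spor.M12.one_mem, fun x => rfl, ?_, ?_⟩
    · intro m hm
      show pm 1 m ∈ S264
      rw [pm_one m (S264_lt m hm)]; exact hm
    · intro m hm
      show pm 1⁻¹ m ∈ S264
      rw [inv_one, pm_one m (S264_lt m hm)]; exact hm
  inv_mem' := by
    rintro a ⟨a1, a2, a3, a4⟩
    refine ⟨Spor.M12.inv_mem a1, ?_, a4, ?_⟩
    · intro x
      show blk (a.1⁻¹ x) = a.2⁻¹ (blk x)
      rw [eq_comm, Equiv.Perm.inv_eq_iff_eq, ← a2]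
      simp
    · intro m hm
      show pm (a.1⁻¹)⁻¹ m ∈ S264
      rw [inv_inv]; exact a3 m hm

theorem mem_G2M12 {p : Equiv.Perm GolayPt × Equiv.Perm GolayPt} :
    p ∈ G2M12 ↔ p.2 ∈ Spor.M12 ∧ (∀ x, blk (p.1 x) = p.2 (blk x)) ∧ (∀ m ∈ S264, pm p.1 m ∈ S264) ∧
    (∀ m ∈ S264, pm p.1⁻¹ m ∈ S264) := Iff.rfl

/-- certificate for membership -/
def liftOK (l li g : ℕ) : Bool :=
  invOK l li && inM12P g && validP g &&
  (List.range 24).all (fun k => Nat.beq (ap blkT (ap l k)) (ap g (ap blkT k))) &&
  S264.all (fun m => memN (permMask (unpk l) m) S264) && S264.all (fun m => memN (permMask (unpk li) m) S264)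

theorem pm_permP {t : ℕ} (h : validP t = true) (m : ℕ) : pm (permP t) m = permMask (unpk t) m := by
  simp only [validP, Bool.and_eq_true] at h
  exact pm_permOf h.2 m

theorem liftOK_spec {l li g : ℕ} (h : liftOK l li g = true) : (permP l, permP g) ∈ G2M12 := by
  simp only [liftOK, Bool.and_eq_true, List.all_eq_true, List.mem_range, Nat.beq_eq, memN_iff] at h
  obtain ⟨⟨⟨⟨⟨h1, h2⟩, h3⟩, h4⟩, h5⟩, h6⟩ := h
  obtain ⟨vl, vli, hli⟩ := invOK_spec h1
  refine ⟨inM12P_spec g h2, ?_, ?_, ?_⟩
  · intro x
    show blk (permP l x) = permP g (blk x)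
    rw [permP_apply h3, idx_blk, ← h4 _ (idx_lt x)]
    unfold blk
    rw [← ap_tb, tb_permP vl]
  · intro m hm
    show pm (permP l) m ∈ S264
    rw [pm_permP vl]; exact h5 m hm
  · intro m hm
    show pm (permP l)⁻¹ m ∈ S264
    rw [← permP_inv vl vli hli, pm_permP vli]; exact h6 m hm

/-! ### the kernel -/

def chkF1 : Bool := (List.range 24).all (fun y => Nat.beq y 0 || Nat.beq y (ap nu12 0) ||
  S264.any (fun m => m.testBit 0 && m.testBit y))
def chkF2 : Bool := S264.all (fun m => !m.testBit 0 || S264.all (fun m' => !m'.testBit 0 ||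
  !((List.range 24).all (fun k => !m'.testBit k || m.testBit k || m.testBit (ap nu12 k))) || Nat.beq m' m))
def chkF3 : Bool := S264.all (fun m => (List.range 24).all (fun k => !(m.testBit k && m.testBit (ap nu12 k))))

theorem chkF1_ok : chkF1 = true := by decide +kernel
theorem chkF2_ok : chkF2 = true := by decide +kernel
theorem chkF3_ok : chkF3 = true := by decide +kernel

theorem F1_spec (y : GolayPt) (h0 : y ≠ some 0) (h1 : y ≠ nuF (some 0)) :
    ∃ m ∈ S264, m.testBit 0 = true ∧ m.testBit (idx y) = true := by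
  have h := chkF1_ok
  simp only [chkF1, List.all_eq_true, List.mem_range, Bool.or_eq_true, Nat.beq_eq, List.any_eq_true,
    Bool.and_eq_true] at h
  rcases h (idx y) (idx_lt y) with (h | h) | h
  · exfalso; apply h0
    rw [← pt_idx y, h]; rfl
  · exfalso; apply h1
    rw [← pt_idx y, h]; rfl
  · exact h

theorem F2_spec (m : ℕ) (hm : m ∈ S264) (hm0 : m.testBit 0 = true) (m' : ℕ) (hm' : m' ∈ S264)
    (hm0' : m'.testBit 0 = true)
    (hsub : ∀ k < 24, m'.testBit k = true → m.testBit k = true ∨ m.testBit (ap nu12 k) = true) : m' = m := by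
  have h := chkF2_ok
  simp only [chkF2, List.all_eq_true, List.mem_range, Bool.or_eq_true, Nat.beq_eq, Bool.not_eq_true'] at h
  rcases h m hm with h | h
  · rw [hm0] at h; exact absurd h (by simp)
  rcases h m' hm' with (h | h) | h
  · rw [hm0'] at h; exact absurd h (by simp)
  · exfalso
    rw [← Bool.not_eq_true, List.all_eq_true] at h
    apply h
    intro k hk
    rw [List.mem_range] at hk
    simp only [Bool.or_eq_true, Bool.not_eq_true']
    by_cases hb : m'.testBit k = true
    · rcases hsub k hk hb with h2 | h2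
      · exact Or.inl (Or.inr h2)
      · exact Or.inr h2
    · exact Or.inl (Or.inl (by simpa using hb))
  · exact h

theorem F3_spec (m : ℕ) (hm : m ∈ S264) (k : ℕ) (hk : k < 24) (h1 : m.testBit k = true)
    (h2 : m.testBit (ap nu12 k) = true) : False := by
  have h := chkF3_ok
  simp only [chkF3, List.all_eq_true, List.mem_range, Bool.not_eq_true', Bool.and_eq_false_iff] at h
  rcases h m hm k hk with h | h
  · rw [h1] at h; exact absurd h (by simp)
  · rw [h2] at h; exact absurd h (by simp)

theorem eq_one_of_fix {γ : Equiv.Perm GolayPt} (hb : ∀ x, blk (γ x) = blk x) (hS : ∀ m ∈ S264, pm γ m ∈ S264)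
    (h0 : γ (some 0) = some 0) : γ = 1 := by
  have hcase : ∀ x, γ x = x ∨ γ x = nuF x := fun x => blk_eq x (γ x) (hb x)
  apply Equiv.ext
  intro y
  show γ y = y
  by_cases hy0 : y = some 0
  · rw [hy0, h0]
  by_cases hy1 : y = nuF (some 0)
  · rcases hcase y with h | h
    · exact h
    · exfalso
      rw [hy1, nu_nu] at h
      exact nu_ne _ (γ.injective (h.trans h0.symm))
  obtain ⟨m, hm, hm0, hmy⟩ := F1_spec y hy0 hy1
  have hm' := hS m hm
  have h0' : (pm γ m).testBit 0 = true := by
    have := testBit_pm_idx γ m (some 0)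
    rw [h0] at this
    exact this.trans hm0
  have hsub : ∀ k < 24, (pm γ m).testBit k = true → m.testBit k = true ∨ m.testBit (ap nu12 k) = true := by
    intro k hk hbit
    rw [testBit_pm] at hbit
    simp only [Bool.and_eq_true, decide_eq_true_eq] at hbit
    obtain ⟨w, hw⟩ : ∃ w, w = γ⁻¹ (pt k) := ⟨_, rfl⟩
    have hγw : γ w = pt k := by rw [hw]; simp
    rw [← hw] at hbit
    rcases hcase w with h | h
    · left
      rw [hγw] at h
      rw [← h, idx_pt k hk] at hbit
      exact hbit.2
    · right
      have e : w = nuF (pt k) := by rw [← hγw, h, nu_nu]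
      rw [e, idx_nuF, idx_pt k hk] at hbit
      exact hbit.2
  have heq : pm γ m = m := F2_spec m hm hm0 _ hm' h0' hsub
  rcases hcase y with h | h
  · exact h
  · exfalso
    have h1 := testBit_pm_idx γ m y
    rw [heq, h, hmy, idx_nuF] at h1
    exact F3_spec m hm (idx y) (idx_lt y) hmy h1

theorem lift_nu : liftOK nu12 nu12 idP = true := by decide +kernel
theorem val_idP : validP idP = true := by decide +kernel
theorem permP_idP : permP idP = 1 := tb_injective (by rw [tb_permP val_idP, tb_one])

theorem nu_mem : (permP nu12, (1 : Equiv.Perm GolayPt)) ∈ G2M12 := by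
  have := liftOK_spec lift_nu
  rwa [permP_idP] at this

theorem nu12_sq : permP nu12 * permP nu12 = 1 := by
  apply Equiv.ext
  intro x
  show permP nu12 (permP nu12 x) = x
  rw [nu12_apply, nu12_apply, nu_nu]

theorem ker_cases {γ : Equiv.Perm GolayPt} (hb : ∀ x, blk (γ x) = blk x) (hS : ∀ m ∈ S264, pm γ m ∈ S264) :
    γ = 1 ∨ γ = permP nu12 := by
  rcases blk_eq (some 0) (γ (some 0)) (hb _) with h | h
  · exact Or.inl (eq_one_of_fix hb hS h)
  · right
    have h1 : permP nu12 * γ = 1 := by
      apply eq_one_of_fix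
      · intro x
        show blk (permP nu12 (γ x)) = blk x
        rw [nu12_apply, blk_nu, hb]
      · intro m hm
        rw [pm_mul]
        exact nu_mem.2.2.1 _ (hS m hm)
      · show permP nu12 (γ (some 0)) = some 0
        rw [h, nu12_apply, nu_nu]
    calc γ = (permP nu12 * permP nu12) * γ := by rw [nu12_sq, one_mul]
      _ = permP nu12 * (permP nu12 * γ) := by rw [mul_assoc]
      _ = permP nu12 := by rw [h1, mul_one]

theorem comm_nu {γ g : Equiv.Perm GolayPt} (hb : ∀ x, blk (γ x) = g (blk x)) :
    permP nu12 * γ = γ * permP nu12 := by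
  apply Equiv.ext
  intro x
  show permP nu12 (γ x) = γ (permP nu12 x)
  rw [nu12_apply, nu12_apply]
  have h1 : blk (γ (nuF x)) = blk (γ x) := by rw [hb, hb, blk_nu]
  rcases blk_eq _ _ h1 with h | h
  · exact absurd (γ.injective h) (nu_ne x)
  · exact h.symm

/-! ### the extension -/

def sig12 : G2M12 →* Spor.M12 :=
  ((MonoidHom.snd _ _).comp G2M12.subtype).codRestrict Spor.M12 (fun p => p.2.1)

theorem sig12_apply (p : G2M12) : (sig12 p).1 = p.1.2 := rfl

noncomputable def nuE : G2M12 := ⟨(permP nu12, 1), nu_mem⟩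

theorem mem_ker_sig12 {p : G2M12} : p ∈ sig12.ker ↔ p = 1 ∨ p = nuE := by
  constructor
  · intro hp
    have h2 : p.1.2 = 1 := congrArg Subtype.val (MonoidHom.mem_ker.1 hp)
    obtain ⟨-, q2, q3, -⟩ := p.2
    rw [h2] at q2
    rcases ker_cases q2 q3 with h | h
    · left
      exact Subtype.ext (Prod.ext h h2)
    · right
      exact Subtype.ext (Prod.ext h h2)
  · rintro (rfl | rfl)
    · exact Subgroup.one_mem _
    · rw [MonoidHom.mem_ker]
      exact Subtype.ext rfl

theorem nuE_ne_one : nuE ≠ 1 := by
  intro h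
  have h1 : permP nu12 = 1 := congrArg (fun p : G2M12 => p.1.1) h
  have h2 := nu12_apply (some 0)
  rw [h1] at h2
  exact nu_ne _ h2.symm

theorem card_ker_sig12 : Nat.card sig12.ker = 2 := by
  rw [Nat.card_eq_two_iff]
  refine ⟨1, ⟨nuE, mem_ker_sig12.2 (Or.inr rfl)⟩, ?_, ?_⟩
  · intro h
    exact nuE_ne_one (congrArg Subtype.val h).symm
  · ext x
    simp only [Set.mem_insert_iff, Set.mem_singleton_iff, Set.mem_univ, iff_true]
    rcases mem_ker_sig12.1 x.2 with h | h
    · left; exact Subtype.ext h
    · right; exact Subtype.ext h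

theorem lift_a10 : liftOK la10 la10i a10 = true := by decide +kernel
theorem lift_b10 : liftOK lb10 lb10i b10 = true := by decide +kernel
theorem lift_u12 : liftOK lu12 lu12i u12 = true := by decide +kernel
theorem lift_t12 : liftOK lt12 lt12i t12 = true := by decide +kernel
theorem lift_p12 : liftOK lp12 lp12i p12 = true := by decide +kernel
theorem lift_q12 : liftOK lq12 lq12i q12 = true := by decide +kernel
theorem inv_p12 : invOK p12 p12i = true := by decide +kernel
theorem inv_q12 : invOK q12 q12i = true := by decide +kernel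
theorem inv_lp12 : invOK lp12 lp12i = true := by decide +kernel
theorem inv_lq12 : invOK lq12 lq12i = true := by decide +kernel
theorem chk_pq : mulP (mulP (mulP p12 q12) p12i) q12i = idP := by decide +kernel
theorem chk_lpq : mulP (mulP (mulP lp12 lq12) lp12i) lq12i = nu12 := by decide +kernel

theorem sig12_surjective : Function.Surjective sig12 := by
  rw [← MonoidHom.range_eq_top, eq_top_iff, ← M12_gen, Subgroup.closure_le]
  rintro g (rfl | rfl | rfl | rfl)
  · exact ⟨⟨_, liftOK_spec lift_a10⟩, Subtype.ext rfl⟩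
  · exact ⟨⟨_, liftOK_spec lift_b10⟩, Subtype.ext rfl⟩
  · exact ⟨⟨_, liftOK_spec lift_u12⟩, Subtype.ext rfl⟩
  · exact ⟨⟨_, liftOK_spec lift_t12⟩, Subtype.ext rfl⟩

theorem nuE_comm : nuE = ⁅(⟨_, liftOK_spec lift_p12⟩ : G2M12), ⟨_, liftOK_spec lift_q12⟩⁆ := by
  obtain ⟨vp, vpi, hp⟩ := invOK_spec inv_p12
  obtain ⟨vq, vqi, hq⟩ := invOK_spec inv_q12
  obtain ⟨vlp, vlpi, hlp⟩ := invOK_spec inv_lp12
  obtain ⟨vlq, vlqi, hlq⟩ := invOK_spec inv_lq12
  apply Subtype.ext
  apply Prod.ext
  · show permP nu12 = permP lp12 * permP lq12 * (permP lp12)⁻¹ * (permP lq12)⁻¹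
    apply tb_injective
    rw [← permP_inv vlp vlpi hlp, ← permP_inv vlq vlqi hlq, tb_mul, tb_mul, tb_mul, tb_permP val_nu12,
      tb_permP vlp, tb_permP vlq, tb_permP vlpi, tb_permP vlqi]
    exact chk_lpq.symm
  · show (1 : Equiv.Perm GolayPt) = permP p12 * permP q12 * (permP p12)⁻¹ * (permP q12)⁻¹
    apply tb_injective
    rw [← permP_inv vp vpi hp, ← permP_inv vq vqi hq, tb_mul, tb_mul, tb_mul, tb_one,
      tb_permP vp, tb_permP vq, tb_permP vpi, tb_permP vqi]
    exact chk_pq.symm

theorem sig12_stem : IsStemExtension sig12 := by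
  refine ⟨sig12_surjective, ?_, ?_⟩
  · intro p hp
    rcases mem_ker_sig12.1 hp with rfl | rfl
    · exact Subgroup.one_mem _
    · rw [Subgroup.mem_center_iff]
      intro y
      apply Subtype.ext
      apply Prod.ext
      · show y.1.1 * permP nu12 = permP nu12 * y.1.1
        exact (comm_nu y.2.2.1).symm
      · show y.1.2 * 1 = 1 * y.1.2
        rw [mul_one, one_mul]
  · intro p hp
    rcases mem_ker_sig12.1 hp with rfl | rfl
    · exact Subgroup.one_mem _
    · rw [nuE_comm]
      exact Subgroup.commutator_mem_commutator (Subgroup.mem_top _) (Subgroup.mem_top _)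

theorem multiplier_M12 : HasCyclicSchurMultiplier Spor.M12 2 := by
  constructor
  · refine ⟨G2M12, inferInstance, inferInstance, sig12, sig12_stem, ?_⟩
    have : Fact (Nat.Prime 2) := ⟨Nat.prime_two⟩
    exact ⟨mulEquivOfPrimeCardEq (p := 2) card_ker_sig12 (by rw [Nat.card_congr Multiplicative.toAdd, Nat.card_zmod])⟩
  · intro Γ _ _ σ hσ
    obtain ⟨ζ, hζ, hζ2, hgen⟩ := M12_ker_cyclic σ hσ
    apply Cfsg.Agent.Lib.Helper21.exists_surj_zmod_of_zpowers (⟨ζ, hζ⟩ : σ.ker) 2
    · apply Subtype.ext
      show ζ ^ 2 = 1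
      rw [pow_two, hζ2]
    · intro k
      obtain ⟨j, hj⟩ := hgen k.1 k.2
      refine ⟨j, ?_⟩
      apply Subtype.ext
      show ((⟨ζ, hζ⟩ : σ.ker) ^ j : σ.ker).1 = k.1
      rw [Subgroup.coe_zpow]
      exact hj

end Cfsg.Agent.Lib.Helper28
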