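import Mathlib
import Cfsg.Agent.Lib.Helper28.SixIdx

set_option autoImplicit false

namespace Cfsg.Agent.Lib.Helper28.SixIdx

/-- coset representatives of `T0`: the permutations of `{0,1,2}` -/
def kk (b : Fin 6) : G6 :=
  (![1, Equiv.swap 0 1, Equiv.swap 0 2, Equiv.swap 1 2, Equiv.swap 0 1 * Equiv.swap 1 2,
    Equiv.swap 1 2 * Equiv.swap 0 1] : Fin 6 → G6) b

theorem kk_inj : ∀ b b' : Fin 6, (kk b)⁻¹ * kk b' ∈ T0 → b = b' := by
  decide +kernel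

theorem kk_sep' : ∀ b b' : Fin 6, b ≠ b' →
    ¬ ((kk b')⁻¹ * (kk b * c0 * (kk b)⁻¹) * kk b' ∈ T0) := by
  decide +kernel

theorem stab_sep : ∀ a a' : Fin 6, a ≠ a' → ∃ g : G6, g a = a ∧ g a' ≠ a' := by
  decide +kernel

end Cfsg.Agent.Lib.Helper28.SixIdx
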