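import Mathlib
import Cfsg.Agent.Lib.Helper28.SixIdx2
import Cfsg.Agent.Lib.Helper28.SixIdx3

set_option autoImplicit false

namespace Cfsg.Agent.Lib.Helper28.SixIdx

theorem stab_iso {B : Type*} [Fintype B] [DecidableEq B] (hB : Fintype.card B = 6) (b : B) :
    Nonempty (MulAction.stabilizer (Equiv.Perm B) b ≃* Equiv.Perm (Fin 5)) := by
  have hp : ∀ g : MulAction.stabilizer (Equiv.Perm B) b, ∀ x,
      (g : Equiv.Perm B) x ≠ b ↔ x ≠ b := by
    intro g x
    have hg : (g : Equiv.Perm B) b = b := g.2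
    constructor
    · intro h hx; exact h (by rw [hx, hg])
    · intro h hx; apply h; apply (g : Equiv.Perm B).injective; rw [hx, hg]
  let f : MulAction.stabilizer (Equiv.Perm B) b →* Equiv.Perm {x // x ≠ b} :=
    { toFun := fun g => (g : Equiv.Perm B).subtypePerm (hp g)
      map_one' := by ext; rfl
      map_mul' := fun g h => by ext; rfl }
  have hinj : Function.Injective f := by
    rw [injective_iff_map_eq_one]
    intro g hg
    ext x
    by_cases hx : x = b
    · rw [hx]; exact g.2
    · have := congrArg (fun σ : Equiv.Perm {x // x ≠ b} => (σ ⟨x, hx⟩ : B)) hg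
      exact this
  have hc1 : Fintype.card {x // x ≠ b} = 5 := by
    simp [Fintype.card_subtype_compl, hB]
  have hne : Nonempty B := ⟨b⟩
  have hc2 : Nat.card (MulAction.stabilizer (Equiv.Perm B) b) = 120 := by
    have h1 := Subgroup.card_mul_index (MulAction.stabilizer (Equiv.Perm B) b)
    rw [MulAction.index_stabilizer_of_transitive, Nat.card_eq_fintype_card (α := B), hB,
      Nat.card_eq_fintype_card (α := Equiv.Perm B), Fintype.card_perm, hB] at h1
    have h720 : (6 : ℕ).factorial = 720 := rfl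
    rw [h720] at h1
    omega
  have hbij : Function.Bijective f := by
    rw [Nat.bijective_iff_injective_and_card]
    refine ⟨hinj, ?_⟩
    rw [hc2, Nat.card_eq_fintype_card, Fintype.card_perm, hc1]
    rfl
  exact ⟨(MulEquiv.ofBijective f hbij).trans (Fintype.equivFinOfCardEq hc1).permCongrHom⟩

theorem iso_S5 (H : Subgroup G6) (hH : H.index = 6) : Nonempty (H ≃* Equiv.Perm (Fin 5)) := by
  classical
  have : Fintype (G6 ⧸ H) := Fintype.ofFinite _
  have hB : Fintype.card (G6 ⧸ H) = 6 := by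
    rw [← Nat.card_eq_fintype_card, ← Subgroup.index_eq_card, hH]
  have hcore : H.normalCore = ⊥ := by
    by_contra hne
    have hnt : Nontrivial H.normalCore := (Subgroup.nontrivial_iff_ne_bot _).2 hne
    have h1 := Equiv.Perm.alternatingGroup_le_of_normal
      (by rw [Nat.card_eq_fintype_card]; simp) hnt
    have h2 := Subgroup.index_dvd_of_le (h1.trans H.normalCore_le)
    rw [hH, alternatingGroup.index_eq_two] at h2
    norm_num at h2
  have hinj : Function.Injective (MulAction.toPermHom G6 (G6 ⧸ H)) := by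
    rw [← MonoidHom.ker_eq_bot_iff, ← Subgroup.normalCore_eq_ker, hcore]
  have hbij : Function.Bijective (MulAction.toPermHom G6 (G6 ⧸ H)) := by
    rw [Fintype.bijective_iff_injective_and_card]
    exact ⟨hinj, by rw [Fintype.card_perm, Fintype.card_perm, hB]; rfl⟩
  let e : G6 ≃* Equiv.Perm (G6 ⧸ H) := MulEquiv.ofBijective _ hbij
  have hmap : H.map e.toMonoidHom =
      MulAction.stabilizer (Equiv.Perm (G6 ⧸ H)) ((1 : G6) : G6 ⧸ H) := by
    ext σ
    obtain ⟨g, rfl⟩ := e.surjective σ
    rw [MulAction.mem_stabilizer_iff]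
    constructor
    · rintro ⟨h, hh, hhe⟩
      have : h = g := e.injective hhe
      subst this
      change h • ((1 : G6) : G6 ⧸ H) = _
      rw [MulAction.Quotient.smul_coe, smul_eq_mul, mul_one, QuotientGroup.eq]
      simpa using hh
    · intro hfix
      refine ⟨g, ?_, rfl⟩
      change g • ((1 : G6) : G6 ⧸ H) = _ at hfix
      rw [MulAction.Quotient.smul_coe, smul_eq_mul, mul_one, QuotientGroup.eq] at hfix
      simpa using hfix
  obtain ⟨ψ⟩ := stab_iso hB ((1 : G6) : G6 ⧸ H)
  exact ⟨((e.subgroupMap H).trans (MulEquiv.subgroupCongr hmap)).trans ψ⟩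

theorem mem_conj (k x : G6) (K : Subgroup G6) :
    x ∈ K.map (MulAut.conj k).toMonoidHom ↔ k⁻¹ * x * k ∈ K := by
  rw [Subgroup.mem_map_equiv]
  rfl

theorem index_conj (k : G6) (K : Subgroup G6) :
    (K.map (MulAut.conj k).toMonoidHom).index = K.index :=
  Subgroup.index_map_equiv K (MulAut.conj k)

theorem index_T0 : T0.index = 6 := by
  have := Subgroup.card_mul_index T0
  rw [card_T0, Nat.card_eq_fintype_card (α := G6), Fintype.card_perm] at this
  simp [Nat.factorial] at this
  omega

theorem kk_cover (k : G6) : ∃ b : Fin 6, (kk b)⁻¹ * k ∈ T0 := by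
  have hinj : Function.Injective (fun b : Fin 6 => (kk b : G6 ⧸ T0)) := by
    intro b b' h
    exact kk_inj b b' (QuotientGroup.eq.1 h)
  have hcard : Nat.card (Fin 6) = Nat.card (G6 ⧸ T0) := by
    rw [← Subgroup.index_eq_card, index_T0]; simp
  have hbij := (Nat.bijective_iff_injective_and_card _).2 ⟨hinj, hcard⟩
  obtain ⟨b, hb⟩ := hbij.2 (k : G6 ⧸ T0)
  exact ⟨b, QuotientGroup.eq.1 hb⟩

theorem index_stab (a : Fin 6) : (MulAction.stabilizer G6 a).index = 6 := by
  rw [MulAction.index_stabilizer_of_transitive]; simp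

theorem classify (H : Subgroup G6) (hH : H.index = 6) :
    ∃ g : G6, Subgroup.map (MulAut.conj g).toMonoidHom (MulAction.stabilizer G6 (5 : Fin 6)) = H ∨
      Subgroup.map (MulAut.conj g).toMonoidHom T0 = H := by
  have hcard := card_of_index H hH
  have : Fact (Nat.Prime 5) := ⟨by norm_num⟩
  obtain ⟨c, hc⟩ := exists_prime_orderOf_dvd_card' (G := H) 5 (by rw [hcard]; norm_num)
  have hc' : orderOf (c : G6) = 5 := by rw [Subgroup.orderOf_coe, hc]
  obtain ⟨k, hk⟩ : ∃ k : G6, k * c * k⁻¹ = c0 := by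
    apply conj_c0
    · rw [← hc']; exact pow_orderOf_eq_one _
    · intro h1
      rw [h1, orderOf_one] at hc'
      norm_num at hc'
  have := core (H.map (MulAut.conj k).toMonoidHom)
    ((Subgroup.index_map_equiv H (MulAut.conj k)).trans hH)
    (Subgroup.mem_map.2 ⟨c, c.2, by simpa using hk⟩)
  refine ⟨k⁻¹, ?_⟩
  rcases this with h | h
  · left; exact map_conj_inv k H _ h
  · right; exact map_conj_inv k H _ h

theorem conj_T0_ne_stab (k : G6) (a : Fin 6) :
    T0.map (MulAut.conj k).toMonoidHom ≠ MulAction.stabilizer G6 a := by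
  intro h
  have key : ∀ t ∈ T0, t (k⁻¹ a) = k⁻¹ a := by
    intro t ht
    have h1 : k * t * k⁻¹ ∈ T0.map (MulAut.conj k).toMonoidHom := by
      rw [mem_conj]; simpa [mul_assoc] using ht
    rw [h] at h1
    have h3 : k (t (k⁻¹ a)) = a := h1
    exact (Equiv.Perm.eq_inv_iff_eq).2 h3
  have h5 := c0_fix _ (key c0 c0_mem)
  obtain ⟨t, ht, htm⟩ := exists_move
  apply htm
  have := key t ht
  rwa [h5] at this

noncomputable def FF : Fin 6 ⊕ Fin 6 → {H : Subgroup G6 // H.index = 6}
  | Sum.inl a => ⟨MulAction.stabilizer G6 a, index_stab a⟩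
  | Sum.inr b => ⟨T0.map (MulAut.conj (kk b)).toMonoidHom, (index_conj _ _).trans index_T0⟩

theorem FF_inj : Function.Injective FF := by
  rintro (a | b) (a' | b') h
  · have h1 : MulAction.stabilizer G6 a = MulAction.stabilizer G6 a' := congrArg Subtype.val h
    by_contra hne
    have hne' : a ≠ a' := fun e => hne (by rw [e])
    obtain ⟨g, hg, hg'⟩ := stab_sep a a' hne'
    have : g ∈ MulAction.stabilizer G6 a := hg
    rw [h1] at this
    exact hg' this
  · exact absurd (congrArg Subtype.val h).symm (conj_T0_ne_stab _ _)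
  · exact absurd (congrArg Subtype.val h) (conj_T0_ne_stab _ _)
  · have h1 : T0.map (MulAut.conj (kk b)).toMonoidHom =
        T0.map (MulAut.conj (kk b')).toMonoidHom := congrArg Subtype.val h
    by_contra hne
    have hne' : b ≠ b' := fun e => hne (by rw [e])
    apply kk_sep' b b' hne'
    rw [← mem_conj, ← h1, mem_conj]
    simpa [mul_assoc] using c0_mem

theorem FF_surj : Function.Surjective FF := by
  rintro ⟨H, hH⟩
  obtain ⟨g, hg | hg⟩ := classify H hH
  · refine ⟨Sum.inl (g 5), Subtype.ext ?_⟩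
    change MulAction.stabilizer G6 (g 5) = H
    rw [← hg]
    exact MulAction.stabilizer_smul_eq_stabilizer_map_conj g (5 : Fin 6)
  · obtain ⟨b, hb⟩ := kk_cover g
    refine ⟨Sum.inr b, Subtype.ext ?_⟩
    change T0.map (MulAut.conj (kk b)).toMonoidHom = H
    rw [← hg]
    ext x
    rw [mem_conj, mem_conj]
    have e : g⁻¹ * x * g =
        ((kk b)⁻¹ * g)⁻¹ * ((kk b)⁻¹ * x * kk b) * ((kk b)⁻¹ * g) := by group
    rw [e]
    generalize (kk b)⁻¹ * g = u at hb ⊢
    generalize (kk b)⁻¹ * x * kk b = y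
    constructor
    · intro h; exact T0.mul_mem (T0.mul_mem (T0.inv_mem hb) h) hb
    · intro h
      have := T0.mul_mem (T0.mul_mem hb h) (T0.inv_mem hb)
      have e2 : u * (u⁻¹ * y * u) * u⁻¹ = y := by group
      rwa [e2] at this

theorem main5945 : Nat.card {H : Subgroup G6 // H.index = 6} = 12 ∧
    (∀ H : Subgroup G6, H.index = 6 → Nonempty (H ≃* Equiv.Perm (Fin 5))) ∧
    ∃ H : Subgroup G6, H.index = 6 ∧ ∀ a : Fin 6, H ≠ MulAction.stabilizer G6 a := by
  refine ⟨?_, iso_S5, ⟨T0.map (MulAut.conj 1).toMonoidHom, (index_conj _ _).trans index_T0,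
    fun a => conj_T0_ne_stab 1 a⟩⟩
  rw [← Nat.card_eq_of_bijective FF ⟨FF_inj, FF_surj⟩]
  simp

end Cfsg.Agent.Lib.Helper28.SixIdx
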