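/-
Strongly regular graphs from adjacency rows with respect to a labelling of the vertices.
-/
import Cfsg.Agent.Lib.Helper28.Frame2
set_option autoImplicit false
open Cfsg Finset
namespace Cfsg.Agent.Lib.Helper28.Srg
open Cfsg.Agent.Lib.Helper28.Stein Cfsg.Agent.Lib.Helper28

variable {V : Type*} [Fintype V] {n : ℕ} {gV : ℕ → V}

theorem ncard_mask (ginj : ∀ i < n, ∀ j < n, gV i = gV j → i = j) (m : ℕ) :
    {v : V | ∃ i < n, gV i = v ∧ m.testBit i = true}.ncard = pc n m := by
  have h1 : {v : V | ∃ i < n, gV i = v ∧ m.testBit i = true} =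
      gV '' (((range n).filter (fun i => m.testBit i = true) : Finset ℕ) : Set ℕ) := by
    ext v
    simp only [Set.mem_setOf_eq, coe_filter, mem_range, Set.mem_image]
    constructor
    · rintro ⟨i, hi, rfl, hb⟩
      exact ⟨i, ⟨hi, hb⟩, rfl⟩
    · rintro ⟨i, ⟨hi, hb⟩, rfl⟩
      exact ⟨i, hi, rfl, hb⟩
  rw [h1, Set.InjOn.ncard_image, Set.ncard_coe_finset, pc_eq_sum, card_filter]
  · apply sum_congr rfl
    intro i _
    cases m.testBit i <;> rfl
  · intro i hi j hj hij
    simp only [coe_filter, mem_range, Set.mem_setOf_eq] at hi hj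
    exact ginj i hi.1 j hj.1 hij

theorem srg_of_rows (G : SimpleGraph V) [DecidableRel G.Adj] (hV : Fintype.card V = n)
    (ginj : ∀ i < n, ∀ j < n, gV i = gV j → i = j) (row : ℕ → ℕ)
    (hrow : ∀ i < n, ∀ j < n, (G.Adj (gV i) (gV j) ↔ (row i).testBit j = true)) {k l m : ℕ}
    (hdeg : ∀ i < n, pc n (row i) = k)
    (hcn : ∀ i < n, ∀ j < n, i ≠ j → pc n (row i &&& row j) = if (row i).testBit j = true then l else m) :
    G.IsSRGWith n k l m := by
  classical
  have hcommon : ∀ i < n, ∀ j < n, Fintype.card (G.commonNeighbors (gV i) (gV j)) = pc n (row i &&& row j) := by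
    intro i hi j hj
    rw [← Nat.card_eq_fintype_card, Nat.card_coe_set_eq, ← ncard_mask ginj]
    congr 1
    ext v
    obtain ⟨x, hx, rfl⟩ := exists_idx hV ginj v
    rw [SimpleGraph.mem_commonNeighbors, hrow i hi x hx, hrow j hj x hx]
    constructor
    · rintro ⟨h1, h2⟩
      exact ⟨x, hx, rfl, by rw [Nat.testBit_and, h1, h2]; rfl⟩
    · rintro ⟨y, hy, hyx, hb⟩
      rw [ginj y hy x hx hyx, Nat.testBit_and, Bool.and_eq_true] at hb
      exact hb
  refine ⟨hV, ?_, ?_, ?_⟩
  · intro v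
    obtain ⟨i, hi, rfl⟩ := exists_idx hV ginj v
    rw [← G.card_neighborSet_eq_degree, ← Nat.card_eq_fintype_card, Nat.card_coe_set_eq, ← hdeg i hi,
      ← ncard_mask ginj]
    congr 1
    ext v
    obtain ⟨x, hx, rfl⟩ := exists_idx hV ginj v
    rw [SimpleGraph.mem_neighborSet, hrow i hi x hx]
    constructor
    · intro h1
      exact ⟨x, hx, rfl, h1⟩
    · rintro ⟨y, hy, hyx, hb⟩
      rwa [ginj y hy x hx hyx] at hb
  · intro v w hvw
    obtain ⟨i, hi, rfl⟩ := exists_idx hV ginj v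
    obtain ⟨j, hj, rfl⟩ := exists_idx hV ginj w
    have hne : i ≠ j := by
      rintro rfl
      exact G.loopless.irrefl _ hvw
    rw [hcommon i hi j hj, hcn i hi j hj hne, if_pos ((hrow i hi j hj).1 hvw)]
  · intro v w hne hvw
    obtain ⟨i, hi, rfl⟩ := exists_idx hV ginj v
    obtain ⟨j, hj, rfl⟩ := exists_idx hV ginj w
    have hne' : i ≠ j := by
      rintro rfl
      exact hne rfl
    rw [hcommon i hi j hj, hcn i hi j hj hne', if_neg (fun h => hvw ((hrow i hi j hj).2 h))]

end Cfsg.Agent.Lib.Helper28.Srg
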