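/-
The block graph and the point-block graph of an S(3,6,22) are strongly regular.
-/
import Cfsg.Agent.Lib.Helper28.Srg1
import Cfsg.Agent.Lib.Helper28.SteinD22
set_option autoImplicit false
set_option maxRecDepth 100000
open Cfsg Finset
namespace Cfsg.Agent.Lib.Helper28.Srg
open Cfsg.Agent.Lib.Helper28.Stein Cfsg.Agent.Lib.Helper28

def blkM (j : ℕ) : ℕ := std22.getD (j % 77) 0

theorem blkM_mem (j : ℕ) : blkM j ∈ std22 := by
  unfold blkM
  rw [List.getD_eq_getElem _ _ (by rw [std22_length]; exact Nat.mod_lt _ (by norm_num))]
  exact List.getElem_mem _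

theorem exists_blkM {c : ℕ} (hc : c ∈ std22) : ∃ j < 77, blkM j = c := by
  obtain ⟨j, hj, hjc⟩ := List.getElem_of_mem hc
  have hj' : j < 77 := by rw [← std22_length]; exact hj
  refine ⟨j, hj', ?_⟩
  unfold blkM
  rw [Nat.mod_eq_of_lt hj', List.getD_eq_getElem _ _ hj, hjc]

def adjD (x y : ℕ) : Bool :=
  if x = 0 then decide (0 < y ∧ y < 23)
  else if x < 23 then (if y = 0 then true else if y < 23 then false else (blkM (y - 23)).testBit (x - 1))
  else (if y = 0 then false else if y < 23 then (blkM (x - 23)).testBit (y - 1)
    else Nat.beq (Nat.land (blkM (x - 23)) (blkM (y - 23))) 0)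

def rows100 : List ℕ := [8388606, 50165742258732735927913807873, 635112207711759385755673165825, 45809885122776682756380295169, 319476857953395859635176472577, 326824067406445860772431003649, 89481145073355470798294351873, 178284564729754816957458153473, 161594857065278375869858971649, 84877170960734062663415365633, 82963791263317099347938639873, 634236346792449485776047046657, 42555095803148774449581391873, 163729754069637749425167138817, 634602659232726675431196983297, 59539683094583037260139069441, 99204624017491463992290312193, 322077335083345140877522632705, 169830205503999463601651843073, 338886421050465831932460531713, 670964067985875173589792063489, 1228037123424783667977663807489, 1267649995765319594182115852289, 223603392127867820453931256948, 970778012801680344433951778122, 505128125640653011284482088456, 719707713974134058285340328370, 409294379467748822531530860684, 371769248218065492820023657860, 961900007722792669667542545152, 484035499993559966905901631554, 813333926661873379325037908562, 260354651820336160744725954606, 149791695129812758006390221072, 677849855038214150119472963808,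 803114511960774759630690812952, 420903372660545290943770925318, 733537667298527206451378925624, 378834028952122998208751493700, 956323357494150071388675019968, 953564503931484790746163511946, 693566886586669404328332494624, 683541320214576700311980222096, 794941413874048945997321110120, 252564137805189654448953675796, 797350729328428588654131745826, 723046520800844730812552843656, 210453547420106997472967723524, 126318467870308897211026262176, 678413544896237294481736270160, 715536029697849673784081948674, 357931523924510212268890262464, 397499658188300445805395865730, 475839268590746668622769325574, 476087087371061954622709108812, 199675876449966911048582775344, 239552302145449780322015287328, 396479921225897927618338275592, 357186205412420644382556105728, 119777980745317402792665940116, 237880939648687359697024976922, 119094912588109898842432348452, 198162890392910077544948712512, 30196549127312128241322427164, 23715497808731108372796942882, 26103126299146965142021886304, 16753294015291319692264806544, 30412946845381397759276495876, 13941332555561511271704740480, 25112411590343271253337719826,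 8376647009881203251595280420, 22914584450240928472562534472, 7667007548536412561255956678, 15021507772256583893224295680, 12515404548220228696279703560, 1208925819616476710189401256, 2036435543141373982228389968, 1629027541931026036471038210, 76162326635721704003604992, 257965467768735536255652, 464141204080874737385688, 460515492851803903550496, 383549905586855534987560, 352153174841104326008854, 397907997633095791676546, 359583864235392078348612, 212697899322471788874256, 127535035190298244763648, 190970683638352315955264, 117100886143768117920514, 227097981133258387883020, 27467203484059064866064, 16048668241948696519176, 28859931336458986848354, 3163616611336344666240, 7821492813347983370, 4257397202929911360, 5899917863919296896, 466124556368216112, 1811637160921092]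

def rows77 : List ℕ := [26655601516707875782720, 115725757217607539228672, 60215964989740015421448, 85795845267073399816196, 48791692193478205505792, 44318347956903635599616, 114667416539525111874049, 57701528071589465964544, 96956959564909145751600, 31036693074743290036288, 17856561557032198668288, 80805999641205567135748, 95738710398766369775616, 50175592024391328208896, 87444504177394772344992, 45160535449042677665800, 114002628027695425914368, 113673747054515456050177, 82679615805944133320848, 81484475161382758654592, 94764401182418936013856, 30107991433762270742530, 95051613966039250928656, 86193862056832877494401, 25088017871392607387658, 15058334811962711478594, 80873196708707486925332, 85298541748267373297701, 42668762674869324239360, 47385651849305682874369, 56724461149066289499136, 56754003449805015876616, 23803219372030128365586, 28556859749013159313442, 47264089730489006950657, 42579913784554081485576, 14278647988476443623622, 28357617813192291223648, 14197219918740975718788, 23622857379068145459288, 3599709168352142362752, 2827107645121944948768, 3111735141175623553040,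 1997148277198233567746, 3625505786583590240392, 1661936349339665326083, 2993632744591626078288, 998574138865614324998, 2731631332664600428648, 913978522841502733380, 1790703269512246119168, 1491952484633949839625, 144115188076076115392, 242762034313842532900, 194195215932253126677, 9079256848778927803, 30751880141345922, 55329943189725248, 54897724729991424, 45722711752278272, 41979929785860100, 47434329704415296, 42865736989425668, 25355565467175458, 15203360937869339, 22765479521554984, 13959513442965521, 27072188989312456, 3274345813281424, 1913150339358889, 3440371911103604, 377132488648455, 932394601505, 507521295896, 703325016965, 55566377206, 215963978]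

def rowF (x : ℕ) : ℕ := rows100.getD x 0
def rowG (x : ℕ) : ℕ := rows77.getD x 0

theorem rows_ok : allBelow (fun x => allBelow (fun y => (rowF x).testBit y == adjD x y) 100) 100 = true := by
  decide +kernel
theorem deg_ok : allBelow (fun x => Nat.beq (pc 100 (rowF x)) 22) 100 = true := by decide +kernel
theorem cn_ok : allBelow (fun x => allBelow (fun y => Nat.beq x y ||
    Nat.beq (pc 100 (Nat.land (rowF x) (rowF y))) (cond ((rowF x).testBit y) 0 6)) 100) 100 = true := by
  decide +kernel

theorem rows_ok' : allBelow (fun x => allBelow (fun y => (rowG x).testBit y ==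
    Nat.beq (Nat.land (blkM x) (blkM y)) 0) 77) 77 = true := by decide +kernel
theorem deg_ok' : allBelow (fun x => Nat.beq (pc 77 (rowG x)) 16) 77 = true := by decide +kernel
theorem cn_ok' : allBelow (fun x => allBelow (fun y => Nat.beq x y ||
    Nat.beq (pc 77 (Nat.land (rowG x) (rowG y))) (cond ((rowG x).testBit y) 0 4)) 77) 77 = true := by
  decide +kernel

section
variable {α : Type*} [Fintype α] [DecidableEq α] {B : Set (Finset α)} {g : ℕ → α}

def blk (g : ℕ → α) (j : ℕ) : Finset α := img g (blkM j)

theorem blk_mem (hLe : B = {b | ∃ c ∈ std22, img g c = b}) (j : ℕ) : blk g j ∈ B := by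
  rw [hLe]; exact ⟨_, blkM_mem j, rfl⟩

theorem ncard_B (ginj : ∀ i < 22, ∀ j < 22, g i = g j → i = j) (hLe : B = {b | ∃ c ∈ std22, img g c = b}) :
    B.ncard = 77 := by
  have h3 : B = ((std22.toFinset.image (img g) : Finset (Finset α)) : Set (Finset α)) := by
    rw [hLe]; ext b; simp
  rw [h3, Set.ncard_coe_finset, card_image_of_injOn, List.toFinset_card_of_nodup std22_nodup, std22_length]
  intro c hc c' hc' h
  exact img_inj (by norm_num) ginj (std22_lt c (by simpa using hc)) (std22_lt c' (by simpa using hc')) h

theorem disj_iff (hα : Fintype.card α = 22) (ginj : ∀ i < 22, ∀ j < 22, g i = g j → i = j) (i j : ℕ) :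
    Disjoint (blk g i) (blk g j) ↔ Nat.beq (Nat.land (blkM i) (blkM j)) 0 = true := by
  have hi := std22_lt _ (blkM_mem i)
  have hj := std22_lt _ (blkM_mem j)
  rw [disjoint_iff_inter_eq_empty, blk, blk, img_inter (by norm_num) hα ginj hi hj]
  have h0 : img g 0 = ∅ := by
    rw [← card_eq_zero, card_img' (by norm_num) ginj (by norm_num : 0 < 2 ^ 22)]
    decide +kernel
  constructor
  · intro h
    rw [← h0] at h
    have := img_inj (by norm_num) ginj (lt_of_le_of_lt Nat.and_le_left hi) (by norm_num) h
    show Nat.beq (blkM i &&& blkM j) 0 = true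
    rw [this]; rfl
  · intro h
    rw [show blkM i &&& blkM j = 0 from Nat.eq_of_beq_eq_true h, h0]

theorem blk_ne_empty (hB : IsSteinerSystem 3 6 B) (hLe : B = {b | ∃ c ∈ std22, img g c = b}) (j : ℕ) :
    blk g j ≠ ∅ := by
  intro h
  have := hB.1 _ (blk_mem hLe j)
  rw [h] at this
  simp at this

/-- labelling of the vertices of the point-block graph -/
def gV (hLe : B = {b | ∃ c ∈ std22, img g c = b}) (x : ℕ) : Option (α ⊕ B) :=
  if x = 0 then none else if x < 23 then some (Sum.inl (g (x - 1)))
  else some (Sum.inr ⟨blk g (x - 23), blk_mem hLe _⟩)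

theorem gV_surj (hα : Fintype.card α = 22) (ginj : ∀ i < 22, ∀ j < 22, g i = g j → i = j)
    (hLe : B = {b | ∃ c ∈ std22, img g c = b}) (v : Option (α ⊕ B)) : ∃ x < 100, gV hLe x = v := by
  rcases v with _ | a | ⟨b, hb⟩
  · exact ⟨0, by norm_num, rfl⟩
  · obtain ⟨i, hi, rfl⟩ := exists_idx hα ginj a
    refine ⟨i + 1, by omega, ?_⟩
    simp only [gV]
    rw [if_neg (by omega), if_pos (by omega)]
    rfl
  · have hb' := hb
    rw [hLe] at hb'
    obtain ⟨c, hc, hcb⟩ := hb'
    obtain ⟨j, hj, rfl⟩ := exists_blkM hc
    refine ⟨j + 23, by omega, ?_⟩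
    simp only [gV]
    rw [if_neg (by omega), if_neg (by omega)]
    congr 2
    exact Subtype.ext hcb

theorem card_V [Fintype B] (hα : Fintype.card α = 22) (ginj : ∀ i < 22, ∀ j < 22, g i = g j → i = j)
    (hLe : B = {b | ∃ c ∈ std22, img g c = b}) : Fintype.card (Option (α ⊕ B)) = 100 := by
  have h1 : Fintype.card B = 77 := by
    rw [← Nat.card_eq_fintype_card, Nat.card_coe_set_eq, ncard_B ginj hLe]
  rw [Fintype.card_option, Fintype.card_sum, hα, h1]

theorem gV_inj [Fintype B] (hα : Fintype.card α = 22) (ginj : ∀ i < 22, ∀ j < 22, g i = g j → i = j)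
    (hLe : B = {b | ∃ c ∈ std22, img g c = b}) : ∀ i < 100, ∀ j < 100, gV hLe i = gV hLe j → i = j := by
  have hb : Function.Bijective (fun i : Fin 100 => gV hLe i) := by
    rw [Fintype.bijective_iff_surjective_and_card]
    refine ⟨fun v => ?_, by rw [card_V hα ginj hLe]; rfl⟩
    obtain ⟨x, hx, hv⟩ := gV_surj hα ginj hLe v
    exact ⟨⟨x, hx⟩, hv⟩
  intro i hi j hj h
  have := hb.1 (a₁ := ⟨i, hi⟩) (a₂ := ⟨j, hj⟩) h
  exact congrArg Fin.val this

theorem adj_nn : ¬ (pointBlockGraph B).Adj none none := fun h => (pointBlockGraph B).loopless.irrefl _ h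
theorem adj_np (a : α) : (pointBlockGraph B).Adj none (some (Sum.inl a)) := by
  simp [pointBlockGraph, SimpleGraph.fromRel_adj, pointBlockRel]
theorem adj_nb (b : B) : ¬ (pointBlockGraph B).Adj none (some (Sum.inr b)) := by
  simp [pointBlockGraph, SimpleGraph.fromRel_adj, pointBlockRel]
theorem adj_pp (a a' : α) : ¬ (pointBlockGraph B).Adj (some (Sum.inl a)) (some (Sum.inl a')) := by
  simp [pointBlockGraph, SimpleGraph.fromRel_adj, pointBlockRel]
theorem adj_pb (a : α) (b : B) : (pointBlockGraph B).Adj (some (Sum.inl a)) (some (Sum.inr b)) ↔ a ∈ b.1 := by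
  simp [pointBlockGraph, SimpleGraph.fromRel_adj, pointBlockRel]
theorem adj_bb (b c : B) : (pointBlockGraph B).Adj (some (Sum.inr b)) (some (Sum.inr c)) ↔
    b ≠ c ∧ Disjoint b.1 c.1 := by
  simp only [pointBlockGraph, SimpleGraph.fromRel_adj, pointBlockRel]
  constructor
  · rintro ⟨h1, h2 | h2⟩
    · exact ⟨fun h => h1 (by rw [h]), h2⟩
    · exact ⟨fun h => h1 (by rw [h]), h2.symm⟩
  · rintro ⟨h1, h2⟩
    exact ⟨fun h => h1 (Sum.inr_injective (Option.some_injective _ h)), Or.inl h2⟩

theorem three (x : ℕ) (hx : x < 100) : x = 0 ∨ (∃ i < 22, x = i + 1) ∨ ∃ j < 77, x = j + 23 := by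
  by_cases h0 : x = 0
  · exact Or.inl h0
  · by_cases h1 : x < 23
    · exact Or.inr (Or.inl ⟨x - 1, by omega, by omega⟩)
    · exact Or.inr (Or.inr ⟨x - 23, by omega, by omega⟩)

theorem gV_zero (hLe : B = {b | ∃ c ∈ std22, img g c = b}) : gV hLe 0 = none := rfl
theorem gV_pt (hLe : B = {b | ∃ c ∈ std22, img g c = b}) {i : ℕ} (hi : i < 22) :
    gV hLe (i + 1) = some (Sum.inl (g i)) := by
  simp only [gV]
  rw [if_neg (by omega), if_pos (by omega)]
  rfl
theorem gV_blk (hLe : B = {b | ∃ c ∈ std22, img g c = b}) (j : ℕ) :
    gV hLe (j + 23) = some (Sum.inr ⟨blk g j, blk_mem hLe _⟩) := by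
  simp only [gV]
  rw [if_neg (by omega), if_neg (by omega)]
  rfl

theorem adjD_0 (y : ℕ) : adjD 0 y = decide (0 < y ∧ y < 23) := rfl
theorem adjD_p0 {i : ℕ} (hi : i < 22) : adjD (i + 1) 0 = true := by
  simp only [adjD]; rw [if_neg (by omega), if_pos (by omega)]; rfl
theorem adjD_pp {i j : ℕ} (hi : i < 22) (hj : j < 22) : adjD (i + 1) (j + 1) = false := by
  simp only [adjD]; rw [if_neg (by omega), if_pos (by omega), if_neg (by omega), if_pos (by omega)]
theorem adjD_pb {i : ℕ} (hi : i < 22) (j : ℕ) : adjD (i + 1) (j + 23) = (blkM j).testBit i := by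
  simp only [adjD]; rw [if_neg (by omega), if_pos (by omega), if_neg (by omega), if_neg (by omega)]; rfl
theorem adjD_b0 (j : ℕ) : adjD (j + 23) 0 = false := by
  simp only [adjD]; rw [if_neg (by omega), if_neg (by omega)]; rfl
theorem adjD_bp (j : ℕ) {i : ℕ} (hi : i < 22) : adjD (j + 23) (i + 1) = (blkM j).testBit i := by
  simp only [adjD]; rw [if_neg (by omega), if_neg (by omega), if_neg (by omega), if_pos (by omega)]; rfl
theorem adjD_bb (i j : ℕ) : adjD (i + 23) (j + 23) = Nat.beq (Nat.land (blkM i) (blkM j)) 0 := by
  simp only [adjD]; rw [if_neg (by omega), if_neg (by omega), if_neg (by omega), if_neg (by omega)]; rfl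

theorem bb_iff (hα : Fintype.card α = 22) (hB : IsSteinerSystem 3 6 B)
    (ginj : ∀ i < 22, ∀ j < 22, g i = g j → i = j) (hLe : B = {b | ∃ c ∈ std22, img g c = b}) (i j : ℕ) :
    ((⟨blk g i, blk_mem hLe _⟩ : B) ≠ ⟨blk g j, blk_mem hLe _⟩ ∧ Disjoint (blk g i) (blk g j)) ↔
      Nat.beq (Nat.land (blkM i) (blkM j)) 0 = true := by
  rw [← disj_iff hα ginj]
  constructor
  · exact fun h => h.2
  · intro h
    refine ⟨fun he => ?_, h⟩
    have he' : blk g i = blk g j := congrArg Subtype.val he
    rw [he', disjoint_self] at h
    exact blk_ne_empty hB hLe j h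

theorem hadj (hα : Fintype.card α = 22) (hB : IsSteinerSystem 3 6 B)
    (ginj : ∀ i < 22, ∀ j < 22, g i = g j → i = j) (hLe : B = {b | ∃ c ∈ std22, img g c = b}) :
    ∀ x < 100, ∀ y < 100, ((pointBlockGraph B).Adj (gV hLe x) (gV hLe y) ↔ adjD x y = true) := by
  intro x hx y hy
  rcases three x hx with rfl | ⟨i, hi, rfl⟩ | ⟨i, hi, rfl⟩ <;>
  rcases three y hy with rfl | ⟨j, hj, rfl⟩ | ⟨j, hj, rfl⟩
  · rw [gV_zero, adjD_0]; simp [adj_nn]
  · rw [gV_zero, gV_pt hLe hj, adjD_0]
    simp only [adj_np, true_iff, decide_eq_true_eq]; omega
  · rw [gV_zero, gV_blk, adjD_0]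
    simp only [adj_nb, false_iff, decide_eq_true_eq]; omega
  · rw [gV_zero, gV_pt hLe hi, adjD_p0 hi, SimpleGraph.adj_comm]
    simp [adj_np]
  · rw [gV_pt hLe hi, gV_pt hLe hj, adjD_pp hi hj]
    simp [adj_pp]
  · rw [gV_pt hLe hi, gV_blk, adjD_pb hi, adj_pb]
    exact mem_img_iff (by norm_num) ginj (std22_lt _ (blkM_mem j)) hi
  · rw [gV_zero, gV_blk, adjD_b0, SimpleGraph.adj_comm]
    simp [adj_nb]
  · rw [gV_pt hLe hj, gV_blk, adjD_bp i hj, SimpleGraph.adj_comm, adj_pb]
    exact mem_img_iff (by norm_num) ginj (std22_lt _ (blkM_mem i)) hj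
  · rw [gV_blk, gV_blk, adjD_bb, adj_bb]
    exact bb_iff hα hB ginj hLe i j

end

theorem main0428 {α : Type*} [Fintype α] (hα : Fintype.card α = 22) {B : Set (Finset α)}
    (hB : IsSteinerSystem 3 6 B) [Fintype B] [DecidableRel (pointBlockGraph B).Adj] :
    (pointBlockGraph B).IsSRGWith 100 22 0 6 := by
  classical
  obtain ⟨g, ginj, gL⟩ := frame22 hα hB
  have hLe := eq_of_frame hB hα (by norm_num) std22_lt std22_nodup (by rw [std22_length]; decide) (by norm_num)
    ginj gL
  apply srg_of_rows (gV := gV hLe) _ (card_V hα ginj hLe) (gV_inj hα ginj hLe) rowF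
  · intro i hi j hj
    rw [hadj hα hB ginj hLe i hi j hj]
    have := allBelow_spec (allBelow_spec rows_ok i hi) j hj
    rw [beq_iff_eq] at this
    rw [this]
  · intro i hi
    exact Nat.eq_of_beq_eq_true (allBelow_spec deg_ok i hi)
  · intro i hi j hj hne
    have := allBelow_spec (allBelow_spec cn_ok i hi) j hj
    rw [Bool.or_eq_true] at this
    rcases this with h | h
    · exact absurd (Nat.eq_of_beq_eq_true h) hne
    · have h2 := Nat.eq_of_beq_eq_true h
      rw [show rowF i &&& rowF j = Nat.land (rowF i) (rowF j) from rfl, h2]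
      cases (rowF i).testBit j <;> rfl

theorem main0427 {α : Type*} [Fintype α] (hα : Fintype.card α = 22) {B : Set (Finset α)}
    (hB : IsSteinerSystem 3 6 B) [Fintype B] [DecidableRel (blockGraph B).Adj] :
    (blockGraph B).IsSRGWith 77 16 0 4 := by
  classical
  obtain ⟨g, ginj, gL⟩ := frame22 hα hB
  have hLe := eq_of_frame hB hα (by norm_num) std22_lt std22_nodup (by rw [std22_length]; decide) (by norm_num)
    ginj gL
  have hcard : Fintype.card B = 77 := by
    rw [← Nat.card_eq_fintype_card, Nat.card_coe_set_eq, ncard_B ginj hLe]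
  have hinj : ∀ i < 77, ∀ j < 77, (⟨blk g i, blk_mem hLe _⟩ : B) = ⟨blk g j, blk_mem hLe _⟩ → i = j := by
    have hb : Function.Bijective (fun i : Fin 77 => (⟨blk g i, blk_mem hLe _⟩ : B)) := by
      rw [Fintype.bijective_iff_surjective_and_card]
      refine ⟨fun v => ?_, by rw [hcard]; rfl⟩
      obtain ⟨b, hb⟩ := v
      have hb' := hb
      rw [hLe] at hb'
      obtain ⟨c, hc, hcb⟩ := hb'
      obtain ⟨j, hj, rfl⟩ := exists_blkM hc
      exact ⟨⟨j, hj⟩, Subtype.ext hcb⟩
    intro i hi j hj h
    exact congrArg Fin.val (hb.1 (a₁ := ⟨i, hi⟩) (a₂ := ⟨j, hj⟩) h)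
  apply srg_of_rows (gV := fun i => (⟨blk g i, blk_mem hLe _⟩ : B)) _ hcard hinj rowG
  · intro i hi j hj
    have h1 := allBelow_spec (allBelow_spec rows_ok' i hi) j hj
    rw [beq_iff_eq] at h1
    rw [h1, ← bb_iff hα hB ginj hLe i j]
    simp only [blockGraph, SimpleGraph.fromRel_adj]
    constructor
    · rintro ⟨h2, h3 | h3⟩
      · exact ⟨h2, h3⟩
      · exact ⟨h2, h3.symm⟩
    · rintro ⟨h2, h3⟩
      exact ⟨h2, Or.inl h3⟩
  · intro i hi
    exact Nat.eq_of_beq_eq_true (allBelow_spec deg_ok' i hi)
  · intro i hi j hj hne
    have := allBelow_spec (allBelow_spec cn_ok' i hi) j hj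
    rw [Bool.or_eq_true] at this
    rcases this with h | h
    · exact absurd (Nat.eq_of_beq_eq_true h) hne
    · have h2 := Nat.eq_of_beq_eq_true h
      rw [show rowG i &&& rowG j = Nat.land (rowG i) (rowG j) from rfl, h2]
      cases (rowG i).testBit j <;> rfl

end Cfsg.Agent.Lib.Helper28.Srg
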