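/-
The automorphism group of the point-block graph of an S(3,6,22) has order 88704000.
-/
import Cfsg.Agent.Lib.Helper28.Srg2
import Cfsg.Agent.S0414
set_option autoImplicit false
set_option maxRecDepth 100000
open Cfsg Finset
open scoped Pointwise
namespace Cfsg.Agent.Lib.Helper28.Srg
open Cfsg.Agent.Lib.Helper28.Stein Cfsg.Agent.Lib.Helper28

def thetaT : List ℕ := [1, 0, 24, 26, 30, 36, 40, 60, 84, 83, 52, 53, 45, 72, 89, 64, 31, 77, 69, 95, 50, 32, 93, 98, 7, 71, 11, 87, 70, 57, 9, 16, 8, 37, 81, 90, 10, 92, 56, 85, 4, 43, 41, 62, 59, 12, 38, 48, 34, 61, 21, 65, 19, 13, 99, 75, 80, 54, 82, 79, 15, 55, 23, 78, 2, 76, 97, 86, 39, 14, 94, 88, 3, 49, 58, 96, 91, 17, 51, 68, 67, 35, 74, 6, 20, 44, 46, 27, 33, 22, 47, 63, 25, 18, 28, 5, 73, 29, 42, 66]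

theorem theta_valid : validN 100 thetaT = true := by decide +kernel
theorem theta_adj : allBelow (fun x => allBelow (fun y =>
    adjD (thetaT.getD x 0) (thetaT.getD y 0) == adjD x y) 100) 100 = true := by decide +kernel

theorem apply_inv' {X : Type*} (σ : Equiv.Perm X) (v : X) : σ (σ⁻¹ v) = v := by simp

section
variable {α : Type*} [Fintype α] [DecidableEq α] {B : Set (Finset α)}

/-- the automorphisms of the point-block graph, as permutations -/
def AutP (B : Set (Finset α)) : Subgroup (Equiv.Perm (Option (α ⊕ B))) where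
  carrier := {σ | ∀ v w, (pointBlockGraph B).Adj (σ v) (σ w) ↔ (pointBlockGraph B).Adj v w}
  mul_mem' := by
    intro σ τ hσ hτ v w
    rw [Equiv.Perm.mul_apply, Equiv.Perm.mul_apply, hσ, hτ]
  one_mem' := fun v w => Iff.rfl
  inv_mem' := by
    intro σ hσ v w
    rw [← hσ (σ⁻¹ v) (σ⁻¹ w), apply_inv', apply_inv']

def isoEquiv (B : Set (Finset α)) : (pointBlockGraph B ≃g pointBlockGraph B) ≃ AutP B where
  toFun f := ⟨f.toEquiv, fun _ _ => f.map_rel_iff⟩
  invFun σ := ⟨σ.1, fun {v w} => σ.2 v w⟩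
  left_inv f := by ext; rfl
  right_inv σ := by ext; rfl

def permB (a : setSystemAut B) : Equiv.Perm B where
  toFun b := ⟨a.1 • b.1, smul_mem_of_aut' a.2 b.2⟩
  invFun b := ⟨a.1⁻¹ • b.1, smul_mem_of_aut' ((setSystemAut B).inv_mem a.2) b.2⟩
  left_inv b := Subtype.ext (inv_smul_smul _ _)
  right_inv b := Subtype.ext (smul_inv_smul _ _)

def extP (a : setSystemAut B) : Equiv.Perm (Option (α ⊕ B)) := Equiv.optionCongr (Equiv.sumCongr a.1 (permB a))

theorem extP_mem (a : setSystemAut B) : extP a ∈ AutP B := by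
  have hpb : ∀ (x : α) (b : B), (pointBlockGraph B).Adj (extP a (some (Sum.inl x))) (extP a (some (Sum.inr b))) ↔
      (pointBlockGraph B).Adj (some (Sum.inl x)) (some (Sum.inr b)) := by
    intro x b
    show (pointBlockGraph B).Adj (some (Sum.inl (a.1 x))) (some (Sum.inr (permB a b))) ↔ _
    rw [adj_pb, adj_pb]
    exact Finset.smul_mem_smul_finset_iff a.1
  intro v w
  rcases v with _ | x | b <;> rcases w with _ | y | c
  · exact Iff.rfl
  · exact ⟨fun _ => adj_np _, fun _ => adj_np _⟩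
  · exact ⟨fun h => absurd h (adj_nb _), fun h => absurd h (adj_nb _)⟩
  · exact ⟨fun _ => (adj_np _).symm, fun _ => (adj_np _).symm⟩
  · exact ⟨fun h => absurd h (adj_pp _ _), fun h => absurd h (adj_pp _ _)⟩
  · exact hpb x c
  · exact ⟨fun h => absurd h.symm (adj_nb _), fun h => absurd h.symm (adj_nb _)⟩
  · rw [SimpleGraph.adj_comm, hpb y b, SimpleGraph.adj_comm]
  · show (pointBlockGraph B).Adj (some (Sum.inr (permB a b))) (some (Sum.inr (permB a c))) ↔ _
    rw [adj_bb, adj_bb, (permB a).injective.ne_iff]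
    have : Disjoint (permB a b).1 (permB a c).1 ↔ Disjoint b.1 c.1 := by
      show Disjoint (a.1 • b.1) (a.1 • c.1) ↔ _
      rw [disjoint_iff_inter_eq_empty, disjoint_iff_inter_eq_empty, ← Finset.smul_finset_inter,
        Finset.smul_finset_eq_empty]
    rw [this]

theorem nbr_none {v : Option (α ⊕ B)} (h : (pointBlockGraph B).Adj none v) : ∃ x, v = some (Sum.inl x) := by
  rcases v with _ | x | b
  · exact absurd h adj_nn
  · exact ⟨x, rfl⟩
  · exact absurd h (adj_nb _)

theorem stab_surj {σ : Equiv.Perm (Option (α ⊕ B))} (hσ : σ ∈ AutP B) (h0 : σ none = none) :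
    ∃ a : setSystemAut B, extP a = σ := by
  have hp : ∀ x, ∃ y, σ (some (Sum.inl x)) = some (Sum.inl y) := by
    intro x
    apply nbr_none
    rw [← h0, hσ]
    exact adj_np x
  choose f hf using hp
  have finj : Function.Injective f := by
    intro x x' h
    have : σ (some (Sum.inl x)) = σ (some (Sum.inl x')) := by rw [hf, hf, h]
    exact Sum.inl_injective (Option.some_injective _ (σ.injective this))
  have fbij : Function.Bijective f := Finite.injective_iff_bijective.1 finj
  have hb : ∀ b : B, ∃ c : B, σ (some (Sum.inr b)) = some (Sum.inr c) := by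
    intro b
    rcases hv : σ (some (Sum.inr b)) with _ | y | c
    · rw [← h0] at hv
      exact absurd (σ.injective hv) (by simp)
    · obtain ⟨x, rfl⟩ := fbij.2 y
      rw [← hf] at hv
      exact absurd (σ.injective hv) (by simp)
    · exact ⟨c, rfl⟩
  choose β hβ using hb
  have key : ∀ (b : B) (x : α), f x ∈ (β b).1 ↔ x ∈ b.1 := by
    intro b x
    rw [← adj_pb, ← adj_pb, ← hf, ← hβ, hσ]
  have hsm : ∀ b : B, (Equiv.ofBijective f fbij : Equiv.Perm α) • b.1 = (β b).1 := by
    intro b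
    ext y
    obtain ⟨x, rfl⟩ := fbij.2 y
    rw [key]
    exact Finset.smul_mem_smul_finset_iff (Equiv.ofBijective f fbij : Equiv.Perm α) (b := x)
  have ha : (Equiv.ofBijective f fbij : Equiv.Perm α) ∈ setSystemAut B := by
    apply mem_aut_of_forall'
    intro b hb
    rw [hsm ⟨b, hb⟩]
    exact (β ⟨b, hb⟩).2
  refine ⟨⟨_, ha⟩, ?_⟩
  apply Equiv.ext
  intro v
  rcases v with _ | x | b
  · exact h0.symm
  · exact (hf x).symm
  · rw [hβ]
    show some (Sum.inr (permB ⟨_, ha⟩ b)) = _
    congr 2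
    exact Subtype.ext (hsm b)

theorem card_stab : Nat.card (MulAction.stabilizer (AutP B) (none : Option (α ⊕ B))) = Nat.card (setSystemAut B) := by
  symm
  apply Nat.card_eq_of_bijective
    (fun a : setSystemAut B => (⟨⟨extP a, extP_mem a⟩, rfl⟩ : MulAction.stabilizer (AutP B) (none : Option (α ⊕ B))))
  constructor
  · intro a a' h
    have h1 : extP a = extP a' := congrArg (fun z => z.1.1) h
    apply Subtype.ext
    apply Equiv.ext
    intro x
    have h2 := congrFun (congrArg DFunLike.coe h1) (some (Sum.inl x))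
    exact Sum.inl_injective (Option.some_injective _ h2)
  · rintro ⟨⟨σ, hσ⟩, h0⟩
    obtain ⟨a, ha⟩ := stab_surj hσ h0
    exact ⟨a, Subtype.ext (Subtype.ext ha)⟩

theorem main1586 (hα : Fintype.card α = 22) (hB : IsSteinerSystem 3 6 B) :
    Nat.card (pointBlockGraph B ≃g pointBlockGraph B) = 88704000 := by
  haveI : Fintype B := Fintype.ofFinite B
  obtain ⟨g, ginj, gL⟩ := frame22 hα hB
  have hLe := eq_of_frame hB hα (by norm_num) std22_lt std22_nodup (by rw [std22_length]; decide) (by norm_num)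
    ginj gL
  obtain ⟨hcard, h3t, -⟩ := Cfsg.Agent.S0414.result hα hB
  have hVc := card_V hα ginj hLe
  have hVi := gV_inj hα ginj hLe
  -- the extra automorphism
  obtain ⟨θ, hθ⟩ := exists_perm_of_tbl hVc hVi theta_valid
  obtain ⟨-, hlt, -⟩ := validN_spec theta_valid
  have hθm : θ ∈ AutP B := by
    intro v w
    obtain ⟨x, hx, rfl⟩ := exists_idx hVc hVi v
    obtain ⟨y, hy, rfl⟩ := exists_idx hVc hVi w
    rw [hθ x hx, hθ y hy, hadj hα hB ginj hLe _ (hlt x hx) _ (hlt y hy), hadj hα hB ginj hLe x hx y hy]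
    have := allBelow_spec (allBelow_spec theta_adj x hx) y hy
    rw [beq_iff_eq] at this
    rw [this]
  have hθ0 : θ none = some (Sum.inl (g 0)) := by
    have := hθ 0 (by norm_num)
    rw [gV_zero] at this
    rw [this]
    exact gV_pt hLe (i := 0) (by norm_num)
  haveI : MulAction.IsPretransitive (setSystemAut B) α := by
    rw [← MulAction.is_one_pretransitive_iff]
    exact MulAction.isMultiplyPretransitive_of_le (n := 3) (by norm_num)
      (by rw [Nat.card_eq_fintype_card, hα]; norm_num)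
  have hpt : ∀ x : α, ∃ φ ∈ AutP B, φ none = some (Sum.inl x) := by
    intro x
    obtain ⟨a, ha⟩ := MulAction.exists_smul_eq (setSystemAut B) (g 0) x
    refine ⟨extP a * θ, (AutP B).mul_mem (extP_mem a) hθm, ?_⟩
    rw [Equiv.Perm.mul_apply, hθ0]
    show some (Sum.inl (a.1 (g 0))) = _
    rw [show a.1 (g 0) = x from ha]
  have hall : ∀ v : Option (α ⊕ B), ∃ φ ∈ AutP B, φ none = v := by
    intro v
    rcases v with _ | x | c
    · exact ⟨1, (AutP B).one_mem, rfl⟩
    · exact hpt x
    · have hne : c.1.Nonempty := by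
        rw [← card_pos, hB.1 c.1 c.2]; norm_num
      obtain ⟨p, hp⟩ := hne
      obtain ⟨φ, hφ, hφ0⟩ := hpt p
      have h1 : (pointBlockGraph B).Adj (φ none) (φ (φ⁻¹ (some (Sum.inr c)))) := by
        rw [hφ0, apply_inv', adj_pb]; exact hp
      rw [hφ] at h1
      obtain ⟨q, hq⟩ := nbr_none h1
      obtain ⟨ψ, hψ, hψ0⟩ := hpt q
      refine ⟨φ * ψ, (AutP B).mul_mem hφ hψ, ?_⟩
      rw [Equiv.Perm.mul_apply, hψ0, ← hq, apply_inv']
  have horb : MulAction.orbit (AutP B) (none : Option (α ⊕ B)) = Set.univ := by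
    ext v
    simp only [Set.mem_univ, iff_true]
    obtain ⟨φ, hφ, hφ0⟩ := hall v
    exact ⟨⟨φ, hφ⟩, hφ0⟩
  rw [Nat.card_congr (isoEquiv B), ← Subgroup.card_mul_index (MulAction.stabilizer (AutP B)
    (none : Option (α ⊕ B))), MulAction.index_stabilizer, horb, Set.ncard_univ, Nat.card_eq_fintype_card (α := Option (α ⊕ B)),
    hVc, card_stab, hcard]

end

end Cfsg.Agent.Lib.Helper28.Srg
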