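/-
Certificate for a Sylow 2-subgroup of M11.
-/
import Cfsg.Agent.Lib.Helper28.Packed3
import Cfsg.Agent.Lib.Helper28.SporCard
set_option autoImplicit false
open Cfsg
open scoped Pointwise
namespace Cfsg.Agent.Lib.Helper28

def pc11 : List (ℕ × ℕ) := [(317326501285590321191654634184647072, 649470932707787996233498934433466752), (237035019059890633598361414335538432, 237035019059890633598361414335538432), (812174532626937842843720960593409120, 812174532626937842843720960593409120), (818015854031940836654194692781548640, 818015854031940836654194692781548640)]

def cs11 : List (ℕ × ℕ) := [(320273789267133023365420886694364416, 230706904993005222193979105068265728), (444883820800398189547271352898127424, 818015854031940836654194692781548640), (941719291607144354652488301313169472, 818015854031940836654194692781548640)]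

def z11 : ℕ := 818015854031940836654194692781548640

theorem pc11_ok : pcOK pc11 = true := by decide +kernel
theorem pc11_in : pc11.all (fun a => inM11P a.1) = true := by decide +kernel
theorem z11_ok : (validP z11 && !(Nat.beq z11 idP) && memN z11 (dbl pc11)) = true := by decide +kernel
theorem cent11 : centOK pc11 z11 (dbl pc11) = true := by decide +kernel
theorem gen11 : genOK inM11P z11 pc11 cs11 = true := by decide +kernel

theorem step11_0 : stepOK (dbl pc11) [340831] [0] 4 [] = true := by decide +kernel
theorem step11_1 : stepOK (dbl pc11) [340831] [4, 0] 6 [] = true := by decide +kernel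
theorem step11_2 : stepOK (dbl pc11) [340831] [6, 4, 0] 16 [] = true := by decide +kernel
theorem step11_3 : stepOK (dbl pc11) [340831] [16, 6, 4, 0] 1 [] = true := by decide +kernel

theorem good11_0 : Good Spor.M11 (pcGrp pc11) [0] := by
  have hE := pcOK_spec pc11_ok
  have hle := pcGrp_le inM11P_spec pc11_in
  apply Good.step hE hle (by intro M hM g hg p; simp only [List.mem_singleton] at hM; subst hM; exact sq_inv (mem_M11.1 hg).2.1 p) [] step11_0
  apply Good.step hE hle (by intro M hM g hg p; simp only [List.mem_singleton] at hM; subst hM; exact sq_inv (mem_M11.1 hg).2.1 p) [] step11_1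
  apply Good.step hE hle (by intro M hM g hg p; simp only [List.mem_singleton] at hM; subst hM; exact sq_inv (mem_M11.1 hg).2.1 p) [] step11_2
  apply Good.step hE hle (by intro M hM g hg p; simp only [List.mem_singleton] at hM; subst hM; exact sq_inv (mem_M11.1 hg).2.1 p) [] step11_3
  intro g hg _ _ hf
  have hg' := mem_M11.1 hg
  have : g = 1 := by
    apply eq_one_of_fix_dodecad_five squareDodecad_mem ![pt 1, pt 16, pt 6, pt 4, pt 0] (by decide) (by decide +kernel) hg'.1 (by tauto)
    intro i
    fin_cases i
    · exact hf 1 (by simp)
    · exact hf 16 (by simp)
    · exact hf 6 (by simp)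
    · exact hf 4 (by simp)
    · exact hf 0 (by simp)
  rw [this]; exact Subgroup.one_mem _

theorem good11 : Good Spor.M11 (pcGrp pc11) [] :=
  Good.of_fixed (fun g hg f hf => by
    have := (mem_M11.1 hg).2.2
    simp only [List.mem_singleton] at hf
    subst hf
    exact this) good11_0

end Cfsg.Agent.Lib.Helper28
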