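/-
Certificate for a Sylow 2-subgroup of M22.
-/
import Cfsg.Agent.Lib.Helper28.Packed3
import Cfsg.Agent.Lib.Helper28.SporCard
set_option autoImplicit false
open Cfsg
open scoped Pointwise
namespace Cfsg.Agent.Lib.Helper28

def pc22 : List (ℕ × ℕ) := [(984355386066803413838770983050249280, 984355386066803413838770983050249280), (961438956620049001677386430328277024, 961438956620049001677386430328277024), (960831283963798152912375878980765728, 960831283963798152912375878980765728), (981818691054096003685363657089320992, 981818691054096003685363657089320992), (972512676110088067912772961567868960, 972512676110088067912772961567868960), (980224387687010295957922729495201824, 980224387687010295957922729495201824), (976448692869377735270425038196672544, 976448692869377735270425038196672544)]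

def cs22 : List (ℕ × ℕ) := [(979048760051230879176714889798525280, 972512676110088067912772961567868960), (967650364181355161815566667856054304, 976448692869377735270425038196672544), (960797181156305786219327885570089536, 979121071158219704299181131031480352), (961439080881000371241491185435445696, 976448692869377735270425038196672544), (965307581499170704863597984091771968, 963721886883755259286232606933354528), (980513332273279095070188503506044064, 976448692869377735270425038196672544)]

def z22 : ℕ := 976448692869377735270425038196672544

theorem pc22_ok : pcOK pc22 = true := by decide +kernel
theorem pc22_in : pc22.all (fun a => inM22P a.1) = true := by decide +kernel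
theorem z22_ok : (validP z22 && !(Nat.beq z22 idP) && memN z22 (dbl pc22)) = true := by decide +kernel
theorem cent22 : centOK pc22 z22 (dbl pc22) = true := by decide +kernel
theorem gen22 : genOK inM22P z22 pc22 cs22 = true := by decide +kernel

theorem step22_0 : stepOK (dbl pc22) [] [0, 23] 1 [] = true := by decide +kernel
theorem step22_1 : stepOK (dbl pc22) [] [1, 0, 23] 2 [] = true := by decide +kernel
theorem step22_2 : stepOK (dbl pc22) [] [2, 1, 0, 23] 3 [] = true := by decide +kernel
theorem step22_3 : stepOK (dbl pc22) [] [3, 2, 1, 0, 23] 5 [3] = true := by decide +kernel
theorem step22_4 : stepOK (dbl pc22) [] [5, 3, 2, 1, 0, 23] 4 [] = true := by decide +kernel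

theorem good22_0 : Good Spor.M22 (pcGrp pc22) [0, 23] := by
  have hE := pcOK_spec pc22_ok
  have hle := pcGrp_le inM22P_spec pc22_in
  apply Good.step hE hle (by simp) [] step22_0
  apply Good.step hE hle (by simp) [] step22_1
  apply Good.step hE hle (by simp) [] step22_2
  apply Good.step hE hle (by simp) [3] step22_3
  apply Good.step hE hle (by simp) [] step22_4
  intro g hg _ _ hf
  have : g = 1 := eq_one_of_fixes_base (mem_M22.1 hg).1 (fun f hf' => hf f (by simp at hf' ⊢; omega))
  rw [this]; exact Subgroup.one_mem _

theorem good22 : Good Spor.M22 (pcGrp pc22) [] :=
  Good.of_fixed (fun g hg f hf => by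
    have := (mem_M22.1 hg).2
    simp only [List.mem_cons, List.not_mem_nil, or_false] at hf
    rcases hf with rfl | rfl
    · exact this.2
    · exact this.1) good22_0

end Cfsg.Agent.Lib.Helper28
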