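/-
Certificate for a Sylow 2-subgroup of M23.
-/
import Cfsg.Agent.Lib.Helper28.Packed3
import Cfsg.Agent.Lib.Helper28.SporCard
set_option autoImplicit false
open Cfsg
open scoped Pointwise
namespace Cfsg.Agent.Lib.Helper28

def pc23 : List (ℕ × ℕ) := [(963721886883755259286232606933354528, 963721886883755259286232606933354528), (973054518210042674313238929715267616, 973054518210042674313238929715267616), (961365507626256404119956257276790816, 961365507626256404119956257276790816), (984202951082164080105044112956360736, 984202951082164080105044112956360736), (976768299277413956938701513523627072, 976768299277413956938701513523627072), (979612761135085349229180013683835968, 979612761135085349229180013683835968), (976448692869377735270425038196672544, 976448692869377735270425038196672544)]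

def cs23 : List (ℕ × ℕ) := [(962330006309447902728634269994140674, 984235865005994746954145143334668320), (976940812321734553612902241684213762, 966182099583441531322624363496310816), (984361471494793006903256395003725358, 976934804572108675034832543981668384), (960156773726736009298825219831840384, 971269592446826249552146775608034368), (981446813719447878078722977893265992, 971269592446826249552146775608034368), (960779825502330503013323304757403296, 976448692869377735270425038196672544)]

def z23 : ℕ := 976448692869377735270425038196672544

theorem pc23_ok : pcOK pc23 = true := by decide +kernel
theorem pc23_in : pc23.all (fun a => inM23P a.1) = true := by decide +kernel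
theorem z23_ok : (validP z23 && !(Nat.beq z23 idP) && memN z23 (dbl pc23)) = true := by decide +kernel
theorem cent23 : centOK pc23 z23 (dbl pc23) = true := by decide +kernel
theorem gen23 : genOK inM23P z23 pc23 cs23 = true := by decide +kernel

theorem step23_0 : stepOK (dbl pc23) [] [23] 0 [] = true := by decide +kernel
theorem step23_1 : stepOK (dbl pc23) [] [0, 23] 1 [] = true := by decide +kernel
theorem step23_2 : stepOK (dbl pc23) [] [1, 0, 23] 2 [] = true := by decide +kernel
theorem step23_3 : stepOK (dbl pc23) [] [2, 1, 0, 23] 3 [] = true := by decide +kernel
theorem step23_4 : stepOK (dbl pc23) [] [3, 2, 1, 0, 23] 5 [3] = true := by decide +kernel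
theorem step23_5 : stepOK (dbl pc23) [] [5, 3, 2, 1, 0, 23] 4 [] = true := by decide +kernel

theorem good23_0 : Good Spor.M23 (pcGrp pc23) [23] := by
  have hE := pcOK_spec pc23_ok
  have hle := pcGrp_le inM23P_spec pc23_in
  apply Good.step hE hle (by simp) [] step23_0
  apply Good.step hE hle (by simp) [] step23_1
  apply Good.step hE hle (by simp) [] step23_2
  apply Good.step hE hle (by simp) [] step23_3
  apply Good.step hE hle (by simp) [3] step23_4
  apply Good.step hE hle (by simp) [] step23_5
  intro g hg _ _ hf
  have : g = 1 := eq_one_of_fixes_base (mem_M23.1 hg).1 (fun f hf' => hf f (by simp at hf' ⊢; omega))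
  rw [this]; exact Subgroup.one_mem _

theorem good23 : Good Spor.M23 (pcGrp pc23) [] :=
  Good.of_fixed (fun g hg f hf => by
    have := (mem_M23.1 hg).2
    simp only [List.mem_singleton] at hf
    subst hf
    exact this) good23_0

end Cfsg.Agent.Lib.Helper28
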