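/-
The ternary code of length 12: a systematic generator map.
-/
import Cfsg.Prelude
set_option autoImplicit false
open Cfsg Finset
namespace Cfsg.Agent.Lib.Helper28.Tern

abbrev W : Type := ArrayPt → ZMod 3
abbrev P6 : Type := ZMod 3 × ZMod 3 × ZMod 3 × ZMod 3 × ZMod 3 × ZMod 3

def ofL (l : List (ZMod 3)) : W := fun p => l.getD (3 * p.1.val + p.2.val) 0

def B1 : W := ofL [1, 0, 0, 0, 0, 1, 0, 0, 1, 1, 1, 2]
def B2 : W := ofL [0, 1, 0, 0, 0, 1, 0, 2, 2, 2, 0, 2]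
def B3 : W := ofL [0, 0, 1, 0, 0, 1, 0, 1, 0, 2, 1, 1]
def B4 : W := ofL [0, 0, 0, 1, 0, 2, 0, 2, 1, 2, 1, 0]
def B5 : W := ofL [0, 0, 0, 0, 1, 2, 0, 1, 2, 0, 1, 2]
def B6 : W := ofL [0, 0, 0, 0, 0, 0, 1, 1, 1, 2, 2, 2]

def gen (a : P6) : W := fun p =>
  a.1 * B1 p + a.2.1 * B2 p + a.2.2.1 * B3 p + a.2.2.2.1 * B4 p + a.2.2.2.2.1 * B5 p + a.2.2.2.2.2 * B6 p

def info (x : W) : P6 := (x (0, 0), x (0, 1), x (0, 2), x (1, 0), x (1, 1), x (2, 0))

/-- the word with prescribed entries at the six check positions -/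
def emb (c : P6) : W := fun p =>
  if p = (1, 2) then c.1 else if p = (2, 1) then c.2.1 else if p = (2, 2) then c.2.2.1
  else if p = (3, 0) then c.2.2.2.1 else if p = (3, 1) then c.2.2.2.2.1 else if p = (3, 2) then c.2.2.2.2.2 else 0

/-- the tetracode words -/
def tw (a b : ZMod 3) (i : Fin 4) : ZMod 3 :=
  a * ([0, 1, 1, 1] : List (ZMod 3)).getD i.val 0 + b * ([1, 0, 1, 2] : List (ZMod 3)).getD i.val 0

theorem tw_eq (a b : ZMod 3) : a • (![0, 1, 1, 1] : Fin 4 → ZMod 3) + b • ![1, 0, 1, 2] = tw a b := by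
  funext i
  fin_cases i <;> simp [tw]

/-- decidable form of the membership condition -/
def isT (x : W) : Prop :=
  ∃ s : ZMod 3, (∀ i : Fin 4, ∑ r : ZMod 3, x (i, r) = -s) ∧
    ∀ a b : ZMod 3, ∑ i : Fin 4, x (i, tw a b i) = s

instance (x : W) : Decidable (isT x) := by unfold isT; infer_instance

theorem mem_iff (x : W) : x ∈ ternaryGolayCode ↔ isT x := by
  show IsTernaryGolayWord x ↔ isT x
  unfold IsTernaryGolayWord isT tetracode
  constructor
  · rintro ⟨s, h1, h2⟩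
    exact ⟨s, h1, fun a b => h2 _ (Submodule.mem_span_pair.2 ⟨a, b, tw_eq a b⟩)⟩
  · rintro ⟨s, h1, h2⟩
    refine ⟨s, h1, fun t ht => ?_⟩
    obtain ⟨a, b, rfl⟩ := Submodule.mem_span_pair.1 ht
    rw [tw_eq]
    exact h2 a b

theorem gen_isT : ∀ a : P6, isT (gen a) := by decide +kernel

theorem emb_zero : ∀ c : P6, isT (emb c) → c = 0 := by decide +kernel

theorem info_gen : ∀ a : P6, info (gen a) = a := by decide +kernel

end Cfsg.Agent.Lib.Helper28.Tern
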