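/-
The ternary code of length 12: size, weights, self-orthogonality, sign changes.
-/
import Cfsg.Agent.Lib.Helper28.Tern1
set_option autoImplicit false
open Cfsg Finset
namespace Cfsg.Agent.Lib.Helper28.Tern

theorem gen_mem (a : P6) : gen a ∈ ternaryGolayCode := (mem_iff _).2 (gen_isT a)

theorem pts : ∀ p : ArrayPt, p = (0, 0) ∨ p = (0, 1) ∨ p = (0, 2) ∨ p = (1, 0) ∨ p = (1, 1) ∨ p = (2, 0) ∨
    p = (1, 2) ∨ p = (2, 1) ∨ p = (2, 2) ∨ p = (3, 0) ∨ p = (3, 1) ∨ p = (3, 2) := by decide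

theorem eq_emb (y : W) (h : info y = 0) : ∃ c, y = emb c := by
  refine ⟨(y (1, 2), y (2, 1), y (2, 2), y (3, 0), y (3, 1), y (3, 2)), ?_⟩
  simp only [info, Prod.mk_eq_zero] at h
  obtain ⟨h1, h2, h3, h4, h5, h6⟩ := h
  funext p
  rcases pts p with rfl | rfl | rfl | rfl | rfl | rfl | rfl | rfl | rfl | rfl | rfl | rfl
  · exact h1
  · exact h2
  · exact h3
  · exact h4
  · exact h5
  · exact h6
  all_goals rfl

theorem emb_zero' : emb 0 = 0 := by
  funext p
  rcases pts p with rfl | rfl | rfl | rfl | rfl | rfl | rfl | rfl | rfl | rfl | rfl | rfl <;> rfl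

theorem eq_zero_of_info {y : W} (hy : y ∈ ternaryGolayCode) (h0 : info y = 0) : y = 0 := by
  obtain ⟨c, hc⟩ := eq_emb _ h0
  rw [hc] at hy
  rw [hc, emb_zero _ ((mem_iff _).1 hy), emb_zero']

theorem eq_gen {x : W} (hx : x ∈ ternaryGolayCode) : x = gen (info x) := by
  have hy : x - gen (info x) ∈ ternaryGolayCode := Submodule.sub_mem _ hx (gen_mem _)
  have h0 : info (x - gen (info x)) = 0 := by
    have : info (x - gen (info x)) = info x - info (gen (info x)) := rfl
    rw [this, info_gen, sub_self]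
  exact sub_eq_zero.1 (eq_zero_of_info hy h0)

theorem gen_inj : Function.Injective gen := fun a b h => by rw [← info_gen a, h, info_gen]

theorem card_code : Nat.card ternaryGolayCode = 729 := by
  have e : P6 ≃ ternaryGolayCode := Equiv.ofBijective (fun a => ⟨gen a, gen_mem a⟩)
    ⟨fun a b h => gen_inj (Subtype.ext_iff.1 h), fun x => ⟨info x.1, Subtype.ext (eq_gen x.2).symm⟩⟩
  rw [← Nat.card_congr e, Nat.card_eq_fintype_card]
  simp [Fintype.card_prod, ZMod.card]

def wt (x : W) : ℕ := (ternarySupport x).card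

theorem wt_gen : ∀ a : P6, a = 0 ∨ wt (gen a) = 6 ∨ wt (gen a) = 9 ∨ wt (gen a) = 12 := by decide +kernel
theorem cnt6 : (univ.filter (fun a : P6 => wt (gen a) = 6)).card = 264 := by decide +kernel
theorem cnt9 : (univ.filter (fun a : P6 => wt (gen a) = 9)).card = 440 := by decide +kernel
theorem cnt12 : (univ.filter (fun a : P6 => wt (gen a) = 12)).card = 24 := by decide +kernel

theorem gen_zero : gen 0 = 0 := by
  funext p
  simp [gen]

theorem ncard_wt (k : ℕ) : {x : W | x ∈ ternaryGolayCode ∧ (ternarySupport x).card = k}.ncard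
    = (univ.filter (fun a : P6 => wt (gen a) = k)).card := by
  have : {x : W | x ∈ ternaryGolayCode ∧ (ternarySupport x).card = k}
      = gen '' ((univ.filter (fun a : P6 => wt (gen a) = k) : Finset P6) : Set P6) := by
    ext x
    simp only [Set.mem_setOf_eq, coe_filter, mem_univ, true_and, Set.mem_image]
    constructor
    · rintro ⟨hx, hk⟩
      exact ⟨info x, by rw [← eq_gen hx]; exact hk, (eq_gen hx).symm⟩
    · rintro ⟨a, ha, rfl⟩
      exact ⟨gen_mem a, ha⟩
  rw [this, Set.ncard_image_of_injective _ gen_inj, Set.ncard_coe_finset]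

theorem main1590 : Nat.card ↥ternaryGolayCode = 729 ∧
    (∀ x ∈ ternaryGolayCode, x ≠ 0 → (ternarySupport x).card = 6 ∨ (ternarySupport x).card = 9 ∨
      (ternarySupport x).card = 12) ∧
    {x : ArrayPt → ZMod 3 | x ∈ ternaryGolayCode ∧ (ternarySupport x).card = 6}.ncard = 264 ∧
    {x : ArrayPt → ZMod 3 | x ∈ ternaryGolayCode ∧ (ternarySupport x).card = 9}.ncard = 440 ∧
    {x : ArrayPt → ZMod 3 | x ∈ ternaryGolayCode ∧ (ternarySupport x).card = 12}.ncard = 24 := by
  refine ⟨card_code, ?_, (ncard_wt 6).trans cnt6, (ncard_wt 9).trans cnt9, (ncard_wt 12).trans cnt12⟩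
  intro x hx h0
  rw [eq_gen hx] at h0 ⊢
  rcases wt_gen (info x) with h | h
  · rw [h, gen_zero] at h0
    exact absurd rfl h0
  · exact h

/-! ### self-orthogonality -/

theorem self_dot : ∀ a : P6, ∑ p, gen a p * gen a p = 0 := by decide +kernel

theorem main1591 (x y : ArrayPt → ZMod 3) (hx : x ∈ ternaryGolayCode) (hy : y ∈ ternaryGolayCode) :
    ∑ p, x p * y p = 0 := by
  have h1 : ∑ p, x p * x p = 0 := by rw [eq_gen hx]; exact self_dot _
  have h2 : ∑ p, y p * y p = 0 := by rw [eq_gen hy]; exact self_dot _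
  have h3 : ∑ p, (x + y) p * (x + y) p = 0 := by
    rw [eq_gen (Submodule.add_mem _ hx hy)]; exact self_dot _
  have h4 : ∑ p, (x + y) p * (x + y) p = ∑ p, x p * x p + 2 * ∑ p, x p * y p + ∑ p, y p * y p := by
    rw [mul_sum, ← sum_add_distrib, ← sum_add_distrib]
    apply sum_congr rfl
    intro p _
    simp only [Pi.add_apply]
    ring
  rw [h3, h1, h2, zero_add, add_zero] at h4
  have : ∀ t : ZMod 3, 0 = 2 * t → t = 0 := by decide
  exact this _ h4

/-! ### sign changes -/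

theorem sign_eq (c : ArrayPt → (ZMod 3)ˣ)
    (h : ∀ x ∈ ternaryGolayCode, monomialMap 1 c x ∈ ternaryGolayCode) (B : W) (hB : B ∈ ternaryGolayCode)
    (p0 : ArrayPt)
    (hinfo : ∀ p ∈ ([(0, 0), (0, 1), (0, 2), (1, 0), (1, 1), (2, 0)] : List ArrayPt), p = p0 ∨ B p = 0)
    (q : ArrayPt) (hq : B q ≠ 0) : c q = c p0 := by
  have hz : monomialMap 1 c B - (c p0 : ZMod 3) • B ∈ ternaryGolayCode :=
    Submodule.sub_mem _ (h B hB) (Submodule.smul_mem _ _ hB)
  have hv : ∀ p, (monomialMap 1 c B - (c p0 : ZMod 3) • B) p = ((c p : ZMod 3) - c p0) * B p := by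
    intro p
    simp only [monomialMap, Pi.sub_apply, Pi.smul_apply, smul_eq_mul, sub_mul]
    rfl
  have h0 : ∀ p ∈ ([(0, 0), (0, 1), (0, 2), (1, 0), (1, 1), (2, 0)] : List ArrayPt),
      (monomialMap 1 c B - (c p0 : ZMod 3) • B) p = 0 := by
    intro p hp
    rw [hv]
    rcases hinfo p hp with rfl | h1
    · rw [sub_self, zero_mul]
    · rw [h1, mul_zero]
  have h1 : info (monomialMap 1 c B - (c p0 : ZMod 3) • B) = 0 := by
    simp only [info, Prod.mk_eq_zero]
    exact ⟨h0 _ (by simp), h0 _ (by simp), h0 _ (by simp), h0 _ (by simp), h0 _ (by simp), h0 _ (by simp)⟩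
  have h2 := congrFun (eq_zero_of_info hz h1) q
  rw [hv] at h2
  rcases mul_eq_zero.1 h2 with h3 | h3
  · exact Units.ext (sub_eq_zero.1 h3)
  · exact absurd h3 hq

theorem B1_eq : B1 = gen (1, 0, 0, 0, 0, 0) := by funext p; simp [gen]
theorem B2_eq : B2 = gen (0, 1, 0, 0, 0, 0) := by funext p; simp [gen]
theorem B3_eq : B3 = gen (0, 0, 1, 0, 0, 0) := by funext p; simp [gen]
theorem B4_eq : B4 = gen (0, 0, 0, 1, 0, 0) := by funext p; simp [gen]
theorem B5_eq : B5 = gen (0, 0, 0, 0, 1, 0) := by funext p; simp [gen]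
theorem B6_eq : B6 = gen (0, 0, 0, 0, 0, 1) := by funext p; simp [gen]

theorem main1593 (c : ArrayPt → (ZMod 3)ˣ)
    (h : (∀ x ∈ ternaryGolayCode, monomialMap 1 c x ∈ ternaryGolayCode)) :
    (∀ p, c p = 1) ∨ (∀ p, c p = -1) := by
  have m1 : B1 ∈ ternaryGolayCode := B1_eq ▸ gen_mem _
  have m2 : B2 ∈ ternaryGolayCode := B2_eq ▸ gen_mem _
  have m3 : B3 ∈ ternaryGolayCode := B3_eq ▸ gen_mem _
  have m4 : B4 ∈ ternaryGolayCode := B4_eq ▸ gen_mem _
  have m5 : B5 ∈ ternaryGolayCode := B5_eq ▸ gen_mem _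
  have m6 : B6 ∈ ternaryGolayCode := B6_eq ▸ gen_mem _
  have e5 : c (1, 2) = c (0, 0) := sign_eq c h B1 m1 (0, 0) (by decide) (1, 2) (by decide)
  have e8 : c (2, 2) = c (0, 0) := sign_eq c h B1 m1 (0, 0) (by decide) (2, 2) (by decide)
  have e9 : c (3, 0) = c (0, 0) := sign_eq c h B1 m1 (0, 0) (by decide) (3, 0) (by decide)
  have e10 : c (3, 1) = c (0, 0) := sign_eq c h B1 m1 (0, 0) (by decide) (3, 1) (by decide)
  have e11 : c (3, 2) = c (0, 0) := sign_eq c h B1 m1 (0, 0) (by decide) (3, 2) (by decide)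
  have f5 : c (1, 2) = c (0, 1) := sign_eq c h B2 m2 (0, 1) (by decide) (1, 2) (by decide)
  have f7 : c (2, 1) = c (0, 1) := sign_eq c h B2 m2 (0, 1) (by decide) (2, 1) (by decide)
  have g5 : c (1, 2) = c (0, 2) := sign_eq c h B3 m3 (0, 2) (by decide) (1, 2) (by decide)
  have h5 : c (1, 2) = c (1, 0) := sign_eq c h B4 m4 (1, 0) (by decide) (1, 2) (by decide)
  have i5 : c (1, 2) = c (1, 1) := sign_eq c h B5 m5 (1, 1) (by decide) (1, 2) (by decide)
  have j7 : c (2, 1) = c (2, 0) := sign_eq c h B6 m6 (2, 0) (by decide) (2, 1) (by decide)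
  have hall : ∀ p, c p = c (0, 0) := by
    intro p
    rcases pts p with rfl | rfl | rfl | rfl | rfl | rfl | rfl | rfl | rfl | rfl | rfl | rfl
    · rfl
    · rw [← f5, e5]
    · rw [← g5, e5]
    · rw [← h5, e5]
    · rw [← i5, e5]
    · rw [← j7, f7, ← f5, e5]
    · exact e5
    · rw [f7, ← f5, e5]
    · exact e8
    · exact e9
    · exact e10
    · exact e11
  have hu : ∀ u : (ZMod 3)ˣ, u = 1 ∨ u = -1 := by decide
  rcases hu (c (0, 0)) with h1 | h1
  · exact Or.inl fun p => (hall p).trans h1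
  · exact Or.inr fun p => (hall p).trans h1

end Cfsg.Agent.Lib.Helper28.Tern
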