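/-
The hexads of the ternary code of length 12 form a Steiner system S(5,6,12).
-/
import Cfsg.Agent.Lib.Helper28.Tern2
import Cfsg.Agent.Lib.Helper28.Frame3
set_option autoImplicit false
set_option maxRecDepth 100000
open Cfsg Finset
namespace Cfsg.Agent.Lib.Helper28.Tern
open Cfsg.Agent.Lib.Helper28.Stein Cfsg.Agent.Lib.Helper28

/-- the labelling of the twelve positions -/
def lab (i : ℕ) : ArrayPt :=
  ([(0, 0), (0, 1), (0, 2), (1, 0), (1, 1), (1, 2), (2, 0), (2, 1), (2, 2), (3, 0), (3, 1), (3, 2)] :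
    List ArrayPt).getD i (0, 0)

theorem lab_inj : ∀ i < 12, ∀ j < 12, lab i = lab j → i = j := by decide

theorem card_pt : Fintype.card ArrayPt = 12 := by
  simp [Fintype.card_prod, ZMod.card]

def smask (x : W) : ℕ := Nat.ofBits (fun i : Fin 12 => decide (x (lab i) ≠ 0))

theorem smask_lt (x : W) : smask x < 2 ^ 12 := Nat.ofBits_lt_two_pow _

theorem img_smask (x : W) : img lab (smask x) = ternarySupport x := by
  ext p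
  obtain ⟨i, hi, rfl⟩ := exists_idx card_pt lab_inj p
  rw [mem_img_iff (by norm_num) lab_inj (smask_lt x) hi, smask, Nat.testBit_ofBits]
  simp [hi, ternarySupport]

def hexT : List ℕ := [63, 222, 237, 243, 347, 366, 373, 413, 427, 438, 455, 504, 591, 630, 633, 667, 679, 700, 725, 746, 791, 813, 826, 860, 867, 910, 945, 969, 978, 996, 1117, 1127, 1146, 1175, 1198, 1209, 1227, 1268, 1295, 1331, 1340, 1366, 1385, 1434, 1445, 1484, 1489, 1506, 1566, 1579, 1589, 1619, 1644, 1677, 1714, 1734, 1752, 1761, 1817, 1830, 1861, 1866, 1904, 1923, 1940, 1960, 2135, 2155, 2172, 2191, 2229, 2234, 2265, 2278, 2334, 2343, 2361, 2381, 2418, 2451, 2476, 2506, 2516, 2529, 2589, 2606, 2611, 2650, 2661, 2710, 2729, 2755, 2764, 2800, 2827, 2868, 2886, 2897, 2920, 2949, 2968, 2978, 3099, 3117, 3126, 3150, 3185, 3228, 3235, 3269, 3282, 3304, 3349, 3370,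 3395, 3416, 3428, 3462, 3465, 3504, 3591, 3640, 3657, 3668, 3682, 3722, 3729, 3748, 3852, 3858, 3873, 4032]

def hexA : List P6 := [(1, 1, 1, 2, 2, 0), (0, 1, 2, 1, 2, 2), (1, 0, 2, 1, 0, 1), (1, 2, 0, 0, 1, 2), (1, 2, 0, 1, 2, 1), (0, 1, 2, 2, 0, 1), (1, 0, 2, 0, 2, 2), (1, 0, 2, 2, 1, 0), (1, 2, 0, 2, 0, 0), (0, 1, 2, 0, 1, 0), (1, 1, 1, 0, 0, 2), (0, 0, 0, 1, 1, 2), (1, 2, 2, 2, 0, 2), (0, 1, 1, 0, 1, 2), (1, 0, 0, 2, 1, 1), (1, 1, 0, 1, 1, 0), (1, 1, 2, 0, 0, 0), (0, 0, 1, 1, 1, 0), (1, 0, 1, 0, 2, 1), (0, 1, 0, 2, 0, 2), (1, 2, 1, 0, 1, 0), (1, 0, 1, 1, 0, 0), (0, 1, 0, 1, 2, 0), (0, 0, 1, 2, 2, 2), (1, 1, 0, 0, 0, 1), (0, 1, 1, 2, 0, 0), (1, 0, 0, 0, 2, 0), (1, 0, 0, 1, 0, 2), (0, 1, 0, 0, 1, 1), (0, 0, 1, 0, 0, 1), (1, 0, 1, 1, 1, 2), (1, 2, 1, 0, 0, 1), (0, 1, 0, 1, 1, 1), (1, 2, 2, 0, 2, 0), (0, 1, 1, 1, 0, 0), (1, 0, 0,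 1, 2, 0), (1, 1, 0, 2, 0, 1), (0, 0, 1, 0, 2, 2), (1, 1, 2, 1, 0, 0), (1, 1, 0, 0, 1, 0), (0, 0, 1, 2, 1, 0), (0, 1, 1, 0, 2, 1), (1, 0, 0, 2, 0, 2), (0, 1, 0, 2, 2, 0), (1, 0, 1, 0, 0, 0), (0, 0, 1, 1, 0, 1), (1, 0, 0, 0, 1, 1), (0, 1, 0, 0, 0, 2), (0, 1, 2, 2, 1, 0), (1, 2, 0, 1, 0, 0), (1, 0, 2, 0, 1, 0), (1, 1, 0, 0, 2, 2), (0, 0, 1, 2, 0, 1), (1, 0, 1, 2, 0, 0), (0, 1, 0, 0, 2, 0), (0, 1, 2, 0, 0, 1), (0, 0, 0, 1, 2, 1), (1, 0, 0, 0, 0, 2), (1, 0, 0, 2, 2, 0), (0, 1, 1, 0, 0, 0), (1, 0, 2, 0, 0, 1), (0, 1, 0, 1, 0, 2), (0, 0, 0, 0, 1, 2), (1, 2, 0, 0, 0, 0), (0, 0, 1, 0, 1, 0), (0, 0, 0, 1, 0, 0), (1, 1, 2, 0, 1, 1), (1, 1, 0, 1, 0, 2), (0, 0, 1, 1, 2, 1), (1, 2, 1, 1, 0, 0), (1, 0, 1, 0, 1, 0), (0, 1, 0, 2, 1, 0), (1, 0, 0, 2, 2, 2), (0, 1, 1, 0, 0, 1), (0, 1, 1, 1, 1, 0), (1, 2, 2, 0, 0, 0), (1, 0, 0, 1, 1, 0), (1, 0, 1, 2,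 0, 1), (0, 1, 0, 0, 2, 2), (1, 1, 0, 0, 2, 0), (0, 0, 1, 2, 0, 0), (0, 1, 0, 1, 0, 1), (0, 0, 1, 0, 1, 2), (1, 0, 0, 0, 0, 1), (1, 0, 2, 1, 2, 0), (0, 1, 2, 1, 0, 0), (1, 2, 0, 0, 2, 0), (0, 1, 0, 2, 2, 1), (1, 0, 1, 0, 0, 2), (0, 1, 1, 0, 2, 0), (1, 0, 0, 2, 0, 0), (1, 2, 0, 0, 0, 1), (0, 0, 1, 1, 0, 2), (0, 0, 0, 0, 1, 1), (1, 1, 0, 2, 0, 0), (0, 0, 1, 0, 2, 0), (0, 1, 2, 0, 0, 2), (1, 0, 0, 0, 1, 2), (0, 0, 0, 1, 0, 1), (1, 0, 2, 0, 0, 0), (0, 0, 0, 1, 2, 0), (0, 1, 0, 0, 0, 0), (1, 2, 0, 2, 1, 0), (1, 0, 2, 2, 0, 0), (0, 1, 2, 0, 2, 0), (0, 1, 1, 2, 0, 2), (1, 0, 0, 0, 2, 1), (0, 0, 1, 2, 2, 0), (1, 1, 0, 0, 0, 0), (1, 0, 2, 0, 0, 2), (0, 1, 0, 0, 1, 2), (0, 0, 0, 1, 0, 2), (1, 0, 1, 0, 2, 0), (0, 1, 0, 2, 0, 0), (1, 2, 0, 0, 0, 2), (0, 0, 0, 1, 2, 2), (0, 0, 1, 0, 0, 2), (0, 1, 2, 0, 0, 0), (1, 0, 0, 1, 0, 0), (0, 0, 0, 0, 1,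 0), (1, 1, 1, 0, 0, 0), (0, 0, 0, 1, 1, 0), (1, 0, 0, 1, 0, 1), (0, 0, 1, 0, 1, 1), (0, 1, 0, 0, 0, 1), (0, 1, 0, 1, 0, 0), (1, 0, 0, 0, 1, 0), (0, 0, 1, 0, 0, 0), (0, 0, 1, 1, 0, 0), (0, 1, 0, 0, 1, 0), (1, 0, 0, 0, 0, 0), (0, 0, 0, 0, 0, 1)]

theorem hexT_eq : hexA.map (fun a => smask (gen a)) = hexT := by decide +kernel
theorem hexA_wt : ∀ a ∈ hexA, wt (gen a) = 6 := by decide +kernel
theorem hex_all : ∀ a : P6, wt (gen a) = 6 → smask (gen a) ∈ hexT := by decide +kernel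
theorem hexT_lt : ∀ m ∈ hexT, m < 2 ^ 12 := by decide +kernel
theorem hexT_nodup : hexT.Nodup := by decide +kernel
theorem hexT_length : hexT.length = 132 := by decide +kernel
theorem hexT_uniq : cntSub (fun m => not (Nat.beq ((hexT.filter (fun h => Nat.beq (Nat.land h m) m)).length) 1))
    12 5 0 = 0 := by decide +kernel

/-- the hexads -/
def Hex : Set (Finset ArrayPt) := {h | ∃ x ∈ ternaryGolayCode, ternarySupport x = h ∧ h.card = 6}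

theorem Hex_eq : Hex = {b | ∃ m ∈ hexT, img lab m = b} := by
  ext h
  constructor
  · rintro ⟨x, hx, rfl, h6⟩
    refine ⟨smask x, ?_, img_smask x⟩
    rw [eq_gen hx] at h6 ⊢
    exact hex_all _ h6
  · rintro ⟨m, hm, rfl⟩
    rw [← hexT_eq] at hm
    obtain ⟨a, ha, rfl⟩ := List.mem_map.1 hm
    refine ⟨gen a, gen_mem a, (img_smask _).symm, ?_⟩
    rw [img_smask]
    exact hexA_wt a ha

theorem Hex_steiner : IsSteinerSystem 5 6 Hex := by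
  refine ⟨fun b hb => ?_, ?_⟩
  · obtain ⟨x, -, -, h6⟩ := hb
    exact h6
  · intro S hS
    obtain ⟨m, hm, rfl⟩ := exists_mask (by norm_num) card_pt lab_inj S
    rw [card_img' (by norm_num) lab_inj hm] at hS
    have hu := of_cntSub_zero (by norm_num) hexT_uniq hm hS
    have hu' : (hexT.filter (fun h => Nat.beq (Nat.land h m) m)).length = 1 := by
      have hu2 : Nat.beq ((hexT.filter (fun h => Nat.beq (Nat.land h m) m)).length) 1 = true := by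
        simpa using hu
      exact Nat.eq_of_beq_eq_true hu2
    obtain ⟨h0, hh0⟩ := List.length_eq_one_iff.1 hu'
    have hmem : h0 ∈ hexT.filter (fun h => Nat.beq (Nat.land h m) m) := by rw [hh0]; simp
    obtain ⟨hm1, hm2⟩ := List.mem_filter.1 hmem
    refine ⟨img lab h0, ⟨by rw [Hex_eq]; exact ⟨h0, hm1, rfl⟩,
      (img_subset_iff (by norm_num) card_pt lab_inj hm (hexT_lt h0 hm1)).2 (Nat.eq_of_beq_eq_true hm2)⟩, ?_⟩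
    rintro H ⟨hH, hSH⟩
    rw [Hex_eq] at hH
    obtain ⟨h, hin, rfl⟩ := hH
    have h7 : h ∈ hexT.filter (fun h => Nat.beq (Nat.land h m) m) := by
      refine List.mem_filter.2 ⟨hin, ?_⟩
      have h8 : Nat.land h m = m := (img_subset_iff (by norm_num) card_pt lab_inj hm (hexT_lt h hin)).1 hSH
      rw [h8]; exact Nat.beq_refl m
    rw [hh0] at h7
    rw [List.mem_singleton.1 h7]

theorem Hex_ncard : Hex.ncard = 132 := by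
  have h1 : Hex = ((hexT.toFinset.image (img lab) : Finset (Finset ArrayPt)) : Set (Finset ArrayPt)) := by
    rw [Hex_eq]
    ext b
    simp
  rw [h1, Set.ncard_coe_finset, card_image_of_injOn, List.toFinset_card_of_nodup hexT_nodup, hexT_length]
  intro a ha b hb hab
  simp only [List.coe_toFinset, Set.mem_setOf_eq] at ha hb
  exact img_inj (by norm_num) lab_inj (hexT_lt a ha) (hexT_lt b hb) hab

theorem main1592 : IsSteinerSystem 5 6 {h : Finset ArrayPt | ∃ x ∈ ternaryGolayCode, ternarySupport x = h ∧ h.card = 6} ∧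
    {h : Finset ArrayPt | ∃ x ∈ ternaryGolayCode, ternarySupport x = h ∧ h.card = 6}.ncard = 132 :=
  ⟨Hex_steiner, Hex_ncard⟩

end Cfsg.Agent.Lib.Helper28.Tern
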