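/-
The monomial automorphism group of the ternary code of length 12.
-/
import Cfsg.Agent.Lib.Helper28.Tern3
import Cfsg.Agent.Lib.Helper28.Frame2
import Cfsg.Agent.S0425
set_option autoImplicit false
set_option maxRecDepth 100000
open Cfsg Finset
open scoped Pointwise
namespace Cfsg.Agent.Lib.Helper28.Tern
open Cfsg.Agent.Lib.Helper28.Stein Cfsg.Agent.Lib.Helper28

def idx (p : ArrayPt) : ℕ := 3 * p.1.val + p.2.val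
theorem lab_idx : ∀ p : ArrayPt, lab (idx p) = p := by decide
theorem idx_lt : ∀ p : ArrayPt, idx p < 12 := by decide

/-- the monomial action given by the table of the inverse permutation and the signs -/
def act (ti : List ℕ) (sg : List (ZMod 3)) (x : W) : W :=
  fun p => sg.getD (idx p) 0 * x (lab (ti.getD (idx p) 0))

def Pres (σ : Equiv.Perm ArrayPt) (c : ArrayPt → (ZMod 3)ˣ) : Prop :=
  ∀ x ∈ ternaryGolayCode, monomialMap σ c x ∈ ternaryGolayCode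

def okM (t : List ℕ × List ℕ × List (ZMod 3)) : Bool :=
  validN 12 t.1 && (List.range 12).all (fun i => t.2.1.getD (t.1.getD i 0) 0 == i) &&
  (List.range 12).all (fun i => decide (t.2.2.getD i 0 ≠ 0)) &&
  (decide (isT (act t.2.1 t.2.2 B1)) && decide (isT (act t.2.1 t.2.2 B2)) && decide (isT (act t.2.1 t.2.2 B3)) &&
   decide (isT (act t.2.1 t.2.2 B4)) && decide (isT (act t.2.1 t.2.2 B5)) && decide (isT (act t.2.1 t.2.2 B6)))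

theorem act_gen (ti : List ℕ) (sg : List (ZMod 3)) (a : P6) :
    act ti sg (gen a) = a.1 • act ti sg B1 + a.2.1 • act ti sg B2 + a.2.2.1 • act ti sg B3 +
      a.2.2.2.1 • act ti sg B4 + a.2.2.2.2.1 • act ti sg B5 + a.2.2.2.2.2 • act ti sg B6 := by
  funext p
  simp only [act, gen, Pi.add_apply, Pi.smul_apply, smul_eq_mul]
  ring

theorem pres_of_ok {t : List ℕ × List ℕ × List (ZMod 3)} (h : okM t = true) :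
    ∃ σ c, Pres σ c ∧ ∀ i < 12, σ (lab i) = lab (t.1.getD i 0) := by
  simp only [okM, Bool.and_eq_true, List.all_eq_true, List.mem_range, beq_iff_eq, decide_eq_true_eq] at h
  obtain ⟨⟨⟨hv, hinv⟩, hsg⟩, ⟨⟨⟨⟨⟨b1, b2⟩, b3⟩, b4⟩, b5⟩, b6⟩⟩ := h
  obtain ⟨σ, hσ⟩ := exists_perm_of_tbl card_pt lab_inj hv
  obtain ⟨-, -, hsurj⟩ := validN_spec hv
  refine ⟨σ, fun p => Units.mk0 (t.2.2.getD (idx p) 0) (hsg _ (idx_lt p)), ?_, hσ⟩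
  have hsymm : ∀ p, σ.symm p = lab (t.2.1.getD (idx p) 0) := by
    intro p
    obtain ⟨i, hi, hij⟩ := hsurj (idx p) (idx_lt p)
    rw [Equiv.symm_apply_eq, ← hij, hinv i hi, hσ i hi, hij, lab_idx]
  have hact : ∀ x, monomialMap σ (fun p => Units.mk0 (t.2.2.getD (idx p) 0) (hsg _ (idx_lt p))) x
      = act t.2.1 t.2.2 x := by
    intro x
    funext p
    simp only [monomialMap, act, Units.val_mk0, hsymm]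
  intro x hx
  rw [hact, eq_gen hx, act_gen]
  have m := fun {y : W} (hy : isT y) => (mem_iff y).2 hy
  exact Submodule.add_mem _ (Submodule.add_mem _ (Submodule.add_mem _ (Submodule.add_mem _ (Submodule.add_mem _
    (Submodule.smul_mem _ _ (m b1)) (Submodule.smul_mem _ _ (m b2))) (Submodule.smul_mem _ _ (m b3)))
    (Submodule.smul_mem _ _ (m b4))) (Submodule.smul_mem _ _ (m b5))) (Submodule.smul_mem _ _ (m b6))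

def trM : List (List ℕ × List ℕ × List (ZMod 3)) := [([0, 1, 2, 3, 4, 5, 6, 7, 8, 9, 10, 11], [0, 1, 2, 3, 4, 5, 6, 7, 8, 9, 10, 11], [1, 1, 1, 1, 1, 1, 1, 1, 1, 1, 1, 1]),
  ([1, 0, 2, 3, 4, 5, 11, 9, 10, 7, 8, 6], [1, 0, 2, 3, 4, 5, 11, 9, 10, 7, 8, 6], [1, 1, 1, 1, 1, 1, 1, 1, 1, 1, 1, 1]),
  ([2, 0, 1, 3, 4, 5, 8, 6, 7, 10, 11, 9], [1, 2, 0, 3, 4, 5, 7, 8, 6, 11, 9, 10], [1, 1, 1, 1, 1, 1, 1, 1, 1, 1, 1, 1]),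
  ([3, 0, 1, 2, 4, 5, 10, 7, 6, 8, 9, 11], [1, 2, 3, 0, 4, 5, 8, 7, 9, 10, 6, 11], [1, 1, 2, 2, 1, 1, 2, 2, 1, 2, 1, 2]),
  ([4, 0, 1, 2, 3, 5, 6, 9, 10, 11, 7, 8], [1, 2, 3, 4, 0, 5, 6, 10, 11, 7, 8, 9], [1, 1, 2, 1, 2, 1, 1, 2, 2, 2, 2, 1]),
  ([5, 0, 1, 2, 3, 4, 9, 6, 8, 7, 11, 10], [1, 2, 3, 4, 5, 0, 7, 9, 8, 6, 11, 10], [1, 1, 2, 1, 1, 2, 2, 1, 2, 1, 2, 2]),
  ([6, 0, 1, 2, 3, 9, 5, 4, 7, 10, 8, 11], [1, 2, 3, 4, 7, 6, 0, 8, 10, 5, 9, 11], [1, 2, 1, 1, 2, 1, 2, 2, 2, 1, 1, 2]),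
  ([7, 0, 1, 2, 3, 11, 10, 8, 9, 4, 5, 6], [1, 2, 3, 4, 9, 10, 11, 0, 7, 8, 6, 5], [1, 2, 2, 2, 2, 1, 1, 1, 1, 1, 2, 2]),
  ([8, 0, 1, 2, 3, 10, 7, 11, 4, 6, 9, 5], [1, 2, 3, 4, 8, 11, 9, 6, 0, 10, 5, 7], [1, 1, 1, 2, 1, 1, 2, 2, 1, 1, 2, 1]),
  ([9, 0, 1, 2, 3, 6, 4, 5, 11, 8, 10, 7], [1, 2, 3, 4, 6, 7, 5, 11, 9, 0, 10, 8], [1, 2, 1, 1, 1, 2, 1, 2, 1, 2, 2, 2]),
  ([10, 0, 1, 2, 3, 8, 11, 7, 5, 9, 6, 4], [1, 2, 3, 4, 11, 8, 10, 7, 5, 9, 0, 6], [1, 1, 1, 2, 1, 1, 1, 1, 2, 2, 1, 2]),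
  ([11, 0, 1, 2, 3, 7, 8, 10, 6, 5, 4, 9], [1, 2, 3, 4, 10, 9, 8, 5, 6, 11, 7, 0], [1, 2, 2, 2, 1, 2, 1, 2, 2, 1, 1, 1]),
  ([0, 1, 2, 3, 4, 5, 6, 7, 8, 9, 10, 11], [0, 1, 2, 3, 4, 5, 6, 7, 8, 9, 10, 11], [1, 1, 1, 1, 1, 1, 1, 1, 1, 1, 1, 1]),
  ([0, 2, 1, 3, 4, 5, 9, 10, 11, 6, 7, 8], [0, 2, 1, 3, 4, 5, 9, 10, 11, 6, 7, 8], [1, 1, 1, 1, 1, 1, 1, 1, 1, 1, 1, 1]),
  ([0, 3, 1, 2, 4, 5, 11, 8, 9, 7, 6, 10], [0, 2, 3, 1, 4, 5, 10, 9, 7, 8, 11, 6], [1, 1, 2, 2, 1, 1, 2, 2, 1, 2, 1, 2]),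
  ([0, 4, 1, 2, 3, 5, 8, 11, 7, 9, 10, 6], [0, 2, 3, 4, 1, 5, 11, 8, 6, 9, 10, 7], [1, 1, 2, 1, 2, 1, 1, 2, 2, 2, 2, 1]),
  ([0, 5, 1, 2, 3, 4, 10, 7, 11, 6, 8, 9], [0, 2, 3, 4, 5, 1, 9, 7, 10, 11, 6, 8], [1, 1, 2, 1, 1, 2, 2, 1, 2, 1, 2, 2]),
  ([0, 6, 1, 2, 3, 9, 11, 10, 8, 4, 7, 5], [0, 2, 3, 4, 9, 11, 1, 10, 8, 5, 7, 6], [1, 2, 1, 1, 2, 1, 2, 2, 2, 1, 1, 2]),
  ([0, 7, 1, 2, 3, 11, 6, 4, 5, 8, 9, 10], [0, 2, 3, 4, 7, 8, 6, 1, 9, 10, 11, 5], [1, 2, 2, 2, 2, 1, 1, 1, 1, 1, 2, 2]),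
  ([0, 8, 1, 2, 3, 10, 5, 6, 9, 11, 4, 7], [0, 2, 3, 4, 10, 6, 7, 11, 1, 8, 5, 9], [1, 1, 1, 2, 1, 1, 2, 2, 1, 1, 2, 1]),
  ([0, 9, 1, 2, 3, 6, 7, 8, 10, 5, 11, 4], [0, 2, 3, 4, 11, 9, 5, 6, 7, 1, 8, 10], [1, 2, 1, 1, 1, 2, 1, 2, 1, 2, 2, 2]),
  ([0, 10, 1, 2, 3, 8, 4, 9, 6, 7, 5, 11], [0, 2, 3, 4, 6, 10, 8, 9, 5, 7, 1, 11], [1, 1, 1, 2, 1, 1, 1, 1, 2, 2, 1, 2]),
  ([0, 11, 1, 2, 3, 7, 9, 5, 4, 10, 6, 8], [0, 2, 3, 4, 8, 7, 10, 5, 11, 6, 9, 1], [1, 2, 2, 2, 1, 2, 1, 2, 2, 1, 1, 1]),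
  ([0, 1, 2, 3, 4, 5, 6, 7, 8, 9, 10, 11], [0, 1, 2, 3, 4, 5, 6, 7, 8, 9, 10, 11], [1, 1, 1, 1, 1, 1, 1, 1, 1, 1, 1, 1]),
  ([0, 1, 3, 2, 4, 5, 7, 6, 10, 11, 8, 9], [0, 1, 3, 2, 4, 5, 7, 6, 10, 11, 8, 9], [1, 1, 2, 2, 1, 1, 2, 2, 1, 2, 1, 2]),
  ([0, 1, 4, 2, 3, 5, 9, 10, 6, 8, 11, 7], [0, 1, 3, 4, 2, 5, 8, 11, 9, 6, 7, 10], [1, 1, 2, 1, 2, 1, 1, 2, 2, 2, 2, 1]),
  ([0, 1, 5, 2, 3, 4, 6, 8, 9, 10, 7, 11], [0, 1, 3, 4, 5, 2, 6, 10, 7, 8, 9, 11], [1, 1, 2, 1, 1, 2, 2, 1, 2, 1, 2, 2]),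
  ([0, 1, 6, 2, 3, 9, 4, 7, 5, 11, 10, 8], [0, 1, 3, 4, 6, 8, 2, 7, 11, 5, 10, 9], [1, 2, 1, 1, 2, 1, 2, 2, 2, 1, 1, 2]),
  ([0, 1, 7, 2, 3, 11, 8, 9, 10, 6, 4, 5], [0, 1, 3, 4, 10, 11, 9, 2, 6, 7, 8, 5], [1, 2, 2, 2, 2, 1, 1, 1, 1, 1, 2, 2]),
  ([0, 1, 8, 2, 3, 10, 11, 4, 7, 5, 6, 9], [0, 1, 3, 4, 7, 9, 10, 8, 2, 11, 5, 6], [1, 1, 1, 2, 1, 1, 2, 2, 1, 1, 2, 1]),
  ([0, 1, 9, 2, 3, 6, 5, 11, 4, 7, 8, 10], [0, 1, 3, 4, 8, 6, 5, 9, 10, 2, 11, 7], [1, 2, 1, 1, 1, 2, 1, 2, 1, 2, 2, 2]),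
  ([0, 1, 10, 2, 3, 8, 7, 5, 11, 4, 9, 6], [0, 1, 3, 4, 9, 7, 11, 6, 5, 10, 2, 8], [1, 1, 1, 2, 1, 1, 1, 1, 2, 2, 1, 2]),
  ([0, 1, 11, 2, 3, 7, 10, 6, 8, 9, 5, 4], [0, 1, 3, 4, 11, 10, 7, 5, 8, 9, 6, 2], [1, 2, 2, 2, 1, 2, 1, 2, 2, 1, 1, 1]),
  ([0, 1, 2, 3, 4, 5, 6, 7, 8, 9, 10, 11], [0, 1, 2, 3, 4, 5, 6, 7, 8, 9, 10, 11], [1, 1, 1, 1, 1, 1, 1, 1, 1, 1, 1, 1]),
  ([0, 1, 2, 4, 3, 5, 10, 9, 11, 7, 6, 8], [0, 1, 2, 4, 3, 5, 10, 9, 11, 7, 6, 8], [1, 1, 1, 1, 1, 1, 1, 1, 1, 1, 1, 1]),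
  ([0, 1, 2, 5, 3, 4, 8, 6, 7, 11, 9, 10], [0, 1, 2, 4, 5, 3, 7, 8, 6, 10, 11, 9], [1, 1, 1, 1, 1, 1, 1, 1, 1, 1, 1, 1]),
  ([0, 1, 2, 6, 3, 9, 7, 4, 10, 8, 5, 11], [0, 1, 2, 4, 7, 10, 3, 6, 9, 5, 8, 11], [1, 2, 2, 1, 1, 1, 1, 1, 1, 1, 1, 1]),
  ([0, 1, 2, 7, 3, 11, 9, 8, 4, 5, 10, 6], [0, 1, 2, 4, 8, 9, 11, 3, 7, 6, 10, 5], [1, 2, 1, 2, 2, 2, 2, 2, 2, 2, 2, 2]),
  ([0, 1, 2, 8, 3, 10, 4, 11, 6, 9, 7, 5], [0, 1, 2, 4, 6, 11, 8, 10, 3, 9, 5, 7], [1, 1, 2, 2, 2, 2, 2, 2, 2, 2, 2, 2]),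
  ([0, 1, 2, 9, 3, 6, 11, 5, 8, 10, 4, 7], [0, 1, 2, 4, 10, 7, 5, 11, 8, 3, 9, 6], [1, 2, 2, 1, 1, 1, 1, 1, 1, 1, 1, 1]),
  ([0, 1, 2, 10, 3, 8, 5, 7, 9, 6, 11, 4], [0, 1, 2, 4, 11, 6, 9, 7, 5, 8, 3, 10], [1, 1, 2, 2, 2, 2, 2, 2, 2, 2, 2, 2]),
  ([0, 1, 2, 11, 3, 7, 6, 10, 5, 4, 8, 9], [0, 1, 2, 4, 9, 8, 6, 5, 10, 11, 7, 3], [1, 2, 1, 2, 2, 2, 2, 2, 2, 2, 2, 2]),
  ([0, 1, 2, 3, 4, 5, 6, 7, 8, 9, 10, 11], [0, 1, 2, 3, 4, 5, 6, 7, 8, 9, 10, 11], [1, 1, 1, 1, 1, 1, 1, 1, 1, 1, 1, 1]),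
  ([0, 1, 2, 3, 5, 4, 9, 11, 10, 6, 8, 7], [0, 1, 2, 3, 5, 4, 9, 11, 10, 6, 8, 7], [1, 1, 1, 1, 1, 1, 1, 1, 1, 1, 1, 1]),
  ([0, 1, 2, 3, 6, 9, 5, 8, 11, 4, 7, 10], [0, 1, 2, 3, 9, 6, 4, 10, 7, 5, 11, 8], [1, 2, 2, 1, 1, 1, 1, 1, 1, 1, 1, 1]),
  ([0, 1, 2, 3, 7, 11, 10, 5, 6, 8, 9, 4], [0, 1, 2, 3, 11, 7, 8, 4, 9, 10, 6, 5], [1, 2, 1, 2, 2, 2, 2, 2, 2, 2, 2, 2]),
  ([0, 1, 2, 3, 8, 10, 7, 9, 5, 11, 4, 6], [0, 1, 2, 3, 10, 8, 11, 6, 4, 7, 5, 9], [1, 1, 2, 2, 2, 2, 2, 2, 2, 2, 2, 2]),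
  ([0, 1, 2, 3, 9, 6, 4, 10, 7, 5, 11, 8], [0, 1, 2, 3, 6, 9, 5, 8, 11, 4, 7, 10], [1, 2, 2, 1, 1, 1, 1, 1, 1, 1, 1, 1]),
  ([0, 1, 2, 3, 10, 8, 11, 6, 4, 7, 5, 9], [0, 1, 2, 3, 8, 10, 7, 9, 5, 11, 4, 6], [1, 1, 2, 2, 2, 2, 2, 2, 2, 2, 2, 2]),
  ([0, 1, 2, 3, 11, 7, 8, 4, 9, 10, 6, 5], [0, 1, 2, 3, 7, 11, 10, 5, 6, 8, 9, 4], [1, 2, 1, 2, 2, 2, 2, 2, 2, 2, 2, 2])]

theorem trM_ok : ∀ t ∈ trM, okM t = true := by decide +kernel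

theorem trM_cover : ∀ k < 5, ∀ j < 12, k ≤ j →
    ∃ t ∈ trM, (∀ i < k, t.1.getD i 0 = i) ∧ t.1.getD k 0 = j := by decide +kernel

theorem trans (k : ℕ) (hk : k < 5) (j : ℕ) (hj : j < 12) (hkj : k ≤ j) :
    ∃ σ c, Pres σ c ∧ (∀ i < k, σ (lab i) = lab i) ∧ σ (lab k) = lab j := by
  obtain ⟨t, ht, h1, h2⟩ := trM_cover k hk j hj hkj
  obtain ⟨σ, c, hp, hσ⟩ := pres_of_ok (trM_ok t ht)
  refine ⟨σ, c, hp, fun i hi => ?_, ?_⟩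
  · rw [hσ i (by omega), h1 i hi]
  · rw [hσ k (by omega), h2]

theorem pres_mul {σ τ : Equiv.Perm ArrayPt} {c d : ArrayPt → (ZMod 3)ˣ} (h1 : Pres σ c) (h2 : Pres τ d) :
    Pres (σ * τ) (fun p => c p * d (σ.symm p)) := by
  intro x hx
  have : monomialMap (σ * τ) (fun p => c p * d (σ.symm p)) x = monomialMap σ c (monomialMap τ d x) := by
    funext p
    simp only [monomialMap, Units.val_mul]
    rw [mul_assoc]; rfl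
  rw [this]; exact h1 _ (h2 _ hx)

theorem pres_one : Pres 1 1 := by
  intro x hx
  have : monomialMap 1 (1 : ArrayPt → (ZMod 3)ˣ) x = x := by
    funext p
    show ((1 : (ZMod 3)ˣ) : ZMod 3) * x p = x p
    rw [Units.val_one, one_mul]
  rw [this]; exact hx

theorem pres_neg {σ : Equiv.Perm ArrayPt} {c : ArrayPt → (ZMod 3)ˣ} (h : Pres σ c) : Pres σ (-c) := by
  intro x hx
  have : monomialMap σ (-c) x = -(monomialMap σ c x) := by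
    funext p
    simp [monomialMap]
  rw [this]; exact Submodule.neg_mem _ (h x hx)

theorem supp_mono (σ : Equiv.Perm ArrayPt) (c : ArrayPt → (ZMod 3)ˣ) (x : W) :
    ternarySupport (monomialMap σ c x) = σ • ternarySupport x := by
  ext p
  rw [← Finset.inv_smul_mem_iff]
  simp [ternarySupport, monomialMap]

theorem aut_of_pres {σ : Equiv.Perm ArrayPt} {c : ArrayPt → (ZMod 3)ˣ} (h : Pres σ c) :
    σ ∈ setSystemAut Hex := by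
  apply mem_aut_of_forall'
  rintro b ⟨x, hx, rfl, h6⟩
  exact ⟨monomialMap σ c x, h x hx, supp_mono σ c x, by rw [Finset.card_smul_finset]; exact h6⟩

theorem eq_one_of_fix {σ : Equiv.Perm ArrayPt} (hσ : σ ∈ setSystemAut Hex) (h : ∀ i < 5, σ (lab i) = lab i) :
    σ = 1 := by
  have hs := (Cfsg.Agent.S0425.result card_pt Hex_steiner).2.2
    ⟨fun i : Fin 5 => lab i, fun i j hij => Fin.ext (lab_inj i (by omega) j (by omega) hij)⟩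
  have h1 : (⟨σ, hσ⟩ : setSystemAut Hex) ∈ MulAction.stabilizer (setSystemAut Hex)
      (⟨fun i : Fin 5 => lab i, fun i j hij => Fin.ext (lab_inj i (by omega) j (by omega) hij)⟩ :
        Fin 5 ↪ ArrayPt) := by
    rw [MulAction.mem_stabilizer_iff]
    apply DFunLike.ext
    intro i
    exact h i i.2
  rw [hs, Subgroup.mem_bot] at h1
  exact congrArg Subtype.val h1

theorem lift_aux (k : ℕ) (hk : k ≤ 5) : ∀ σ ∈ setSystemAut Hex, (∀ i < 5 - k, σ (lab i) = lab i) →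
    ∃ c, Pres σ c := by
  induction k with
  | zero =>
    intro σ hσ h
    rw [eq_one_of_fix hσ h]
    exact ⟨1, pres_one⟩
  | succ k ih =>
    intro σ hσ h
    obtain ⟨j, hj, hjm⟩ := exists_idx card_pt lab_inj (σ (lab (5 - (k + 1))))
    have hmj : 5 - (k + 1) ≤ j := by
      by_contra hc
      have h1 := h j (not_le.1 hc)
      rw [← h1] at hjm
      have h2 := lab_inj j hj (5 - (k + 1)) (by omega) (σ.injective hjm)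
      omega
    obtain ⟨u, c, hu, hfix, hum⟩ := trans (5 - (k + 1)) (by omega) j hj hmj
    obtain ⟨d, hd⟩ := ih (by omega) (u⁻¹ * σ)
      ((setSystemAut Hex).mul_mem ((setSystemAut Hex).inv_mem (aut_of_pres hu)) hσ) (by
        intro i hi
        rw [Equiv.Perm.mul_apply, Equiv.Perm.inv_eq_iff_eq]
        rcases Nat.lt_or_ge i (5 - (k + 1)) with h1 | h1
        · rw [h i h1, hfix i h1]
        · have h2 : i = 5 - (k + 1) := by omega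
          rw [h2, hum, hjm])
    have h3 := pres_mul hu hd
    rw [mul_inv_cancel_left] at h3
    exact ⟨_, h3⟩

theorem lift {σ : Equiv.Perm ArrayPt} (hσ : σ ∈ setSystemAut Hex) : ∃ c, Pres σ c :=
  lift_aux 5 le_rfl σ hσ (fun i hi => absurd hi (by omega))

theorem surj_of_pres {σ : Equiv.Perm ArrayPt} {c : ArrayPt → (ZMod 3)ˣ} (h : Pres σ c) {y : W}
    (hy : y ∈ ternaryGolayCode) : ∃ x ∈ ternaryGolayCode, monomialMap σ c x = y := by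
  let f : ternaryGolayCode → ternaryGolayCode := fun x => ⟨monomialMap σ c x.1, h x.1 x.2⟩
  have hf : Function.Injective f := by
    intro x x' hxx
    have h1 : monomialMap σ c x.1 = monomialMap σ c x'.1 := congrArg Subtype.val hxx
    apply Subtype.ext
    funext p
    have h2 := congrFun h1 (σ p)
    simp only [monomialMap, Equiv.symm_apply_apply] at h2
    exact (Units.mul_right_inj _).1 h2
  obtain ⟨x, hx⟩ := (Finite.injective_iff_surjective.1 hf) ⟨y, hy⟩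
  exact ⟨x.1, x.2, congrArg Subtype.val hx⟩

theorem sign_unique {σ : Equiv.Perm ArrayPt} {c c' : ArrayPt → (ZMod 3)ˣ} (h : Pres σ c) (h' : Pres σ c') :
    c' = c ∨ c' = -c := by
  have hd : ∀ y ∈ ternaryGolayCode, monomialMap 1 (fun p => c' p * (c p)⁻¹) y ∈ ternaryGolayCode := by
    intro y hy
    obtain ⟨x, hx, rfl⟩ := surj_of_pres h hy
    have : monomialMap 1 (fun p => c' p * (c p)⁻¹) (monomialMap σ c x) = monomialMap σ c' x := by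
      funext p
      show (((c' p * (c p)⁻¹ : (ZMod 3)ˣ)) : ZMod 3) * ((c p : ZMod 3) * x (σ.symm p)) = (c' p : ZMod 3) * x (σ.symm p)
      rw [← mul_assoc, ← Units.val_mul, inv_mul_cancel_right]
    rw [this]; exact h' x hx
  rcases main1593 _ hd with h1 | h1
  · left
    funext p
    exact mul_inv_eq_one.1 (h1 p)
  · right
    funext p
    have := h1 p
    rw [mul_inv_eq_iff_eq_mul] at this
    simpa using this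

theorem main1594 : Nat.card {f : Equiv.Perm ArrayPt × (ArrayPt → (ZMod 3)ˣ) //
      (∀ x ∈ ternaryGolayCode, monomialMap f.1 f.2 x ∈ ternaryGolayCode)} = 190080 ∧
    {σ : Equiv.Perm ArrayPt | ∃ c : ArrayPt → (ZMod 3)ˣ,
      (∀ x ∈ ternaryGolayCode, monomialMap σ c x ∈ ternaryGolayCode)} =
    (setSystemAut {h : Finset ArrayPt | ∃ x ∈ ternaryGolayCode, ternarySupport x = h ∧ h.card = 6} :
      Set (Equiv.Perm ArrayPt)) := by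
  have h2 : {σ : Equiv.Perm ArrayPt | ∃ c, Pres σ c} = (setSystemAut Hex : Set (Equiv.Perm ArrayPt)) := by
    ext σ
    exact ⟨fun ⟨c, hc⟩ => aut_of_pres hc, fun h => lift h⟩
  refine ⟨?_, h2⟩
  let φ : {f : Equiv.Perm ArrayPt × (ArrayPt → (ZMod 3)ˣ) // Pres f.1 f.2} → setSystemAut Hex × (ZMod 3)ˣ :=
    fun f => (⟨f.1.1, aut_of_pres f.2⟩, f.1.2 (0, 0))
  have hu : ∀ u v : (ZMod 3)ˣ, u = v ∨ u = -v := by decide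
  have hne : ∀ u : (ZMod 3)ˣ, u ≠ -u := by decide
  have hφ : Function.Bijective φ := by
    constructor
    · rintro ⟨⟨σ, c⟩, hc⟩ ⟨⟨σ', c'⟩, hc'⟩ hh
      have h3 : σ = σ' := congrArg (fun z : setSystemAut Hex × (ZMod 3)ˣ => z.1.1) hh
      have h4 : c (0, 0) = c' (0, 0) := congrArg (fun z : setSystemAut Hex × (ZMod 3)ˣ => z.2) hh
      subst h3
      have h6 : c' = c ∨ c' = -c := sign_unique hc hc'
      rcases h6 with h5 | h5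
      · subst h5; rfl
      · exfalso
        rw [h5] at h4
        exact hne _ h4
    · rintro ⟨⟨σ, hσ⟩, u⟩
      obtain ⟨c, hc⟩ := lift hσ
      rcases hu u (c (0, 0)) with h3 | h3
      · exact ⟨⟨(σ, c), hc⟩, by rw [h3]⟩
      · exact ⟨⟨(σ, -c), pres_neg hc⟩, by rw [h3]; rfl⟩
  have hc2 : Nat.card (ZMod 3)ˣ = 2 := by
    rw [Nat.card_eq_fintype_card]; decide
  exact (Nat.card_eq_of_bijective φ hφ).trans (by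
    rw [Nat.card_prod, (Cfsg.Agent.S0425.result card_pt Hex_steiner).1.2, hc2])

end Cfsg.Agent.Lib.Helper28.Tern
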